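import Mathlib
import Cfsg.Prelude.Def_Classical
import Cfsg.Prelude.Def_GeometricClasses

/-!
# Characteristic 2 involutions of orthogonal groups: the two invariant blocks

`Q` any quadratic form on `ι → F`, `char F = 2`, `x` a matrix preserving `Q` with `x * x = 1`,
`N = x - 1` (`NL x`; for `ι = P d` this is `Helper94.OPStmt.NP x` by `rfl`).

* `NL_NL`, `polar_NL`, `Q_NL`: `N (N v) = 0`, `B (N u, v) = B (u, N v)`, `Q (N u) = B (u, N u)`.
* `swap_plane`: `u` singular with `Q (N u) ≠ 0`: `⟨u, x u⟩` is an invariant hyperbolic plane.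
* `four_block`: `Q (N u) = 0 = Q (N v)`, `B (u, N v) ≠ 0`: `⟨u, v, N u, N v⟩` is an invariant
  nondegenerate `4`-space of plus type.
* `peel_four`: inside an invariant nondegenerate `Y` on which `Q ∘ N = 0` and `N ≠ 0`.
-/

set_option autoImplicit false

namespace Cfsg.Agent.Lib.Helper12.C2Blk

open QuadraticMap

variable {F : Type*} [Field F] {ι : Type} [Fintype ι] [DecidableEq ι]

/-- `N = x - 1` -/
def NL (x : Matrix ι ι F) : (ι → F) →ₗ[F] (ι → F) := Matrix.toLin' x - LinearMap.id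

theorem NL_apply (x : Matrix ι ι F) (v : ι → F) : NL x v = x.mulVec v - v := by
  unfold NL
  rw [LinearMap.sub_apply, Matrix.toLin'_apply, LinearMap.id_apply]

theorem mulVec_eq (x : Matrix ι ι F) (v : ι → F) : x.mulVec v = v + NL x v := by
  rw [NL_apply]; abel

/-- a family with nondegenerate Gram matrix is linearly independent and spans a nondegenerate
subspace -/
theorem gram_nondeg (Q : QuadraticForm F (ι → F)) {n : ℕ} (g : Fin n → ι → F)
    (hG : ∀ c : Fin n → F, (∀ j, polar Q (∑ i, c i • g i) (g j) = 0) → c = 0) :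
    LinearIndependent F g ∧
      Cfsg.Geo.IsNondegenerateOn (polar Q) (Submodule.span F (Set.range g)) := by
  constructor
  · rw [Fintype.linearIndependent_iff]
    intro c hc i
    have h := hG c (fun j => by rw [hc]; simp [polar])
    rw [h]; rfl
  · intro w hw hw0
    obtain ⟨c, rfl⟩ := (Submodule.mem_span_range_iff_exists_fun F).1 hw
    have hex : ∃ j, polar Q (∑ i, c i • g i) (g j) ≠ 0 := by
      by_contra hcon
      push_neg at hcon
      apply hw0
      rw [hG c hcon]
      simp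
    obtain ⟨j, hj⟩ := hex
    refine ⟨⟨g j, Submodule.subset_span ⟨j, rfl⟩, ?_⟩, ⟨g j, Submodule.subset_span ⟨j, rfl⟩, hj⟩⟩
    rwa [polar_comm]

section char2

variable [CharP F 2] (Q : QuadraticForm F (ι → F)) (x : Matrix ι ι F)

theorem NL_NL (hxx : x * x = 1) (v : ι → F) : NL x (NL x v) = 0 := by
  have h2 : (2 : F) = 0 := CharTwo.two_eq_zero
  rw [NL_apply, NL_apply, Matrix.mulVec_sub, Matrix.mulVec_mulVec, hxx, Matrix.one_mulVec]
  ext i
  simp only [Pi.sub_apply, Pi.zero_apply]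
  linear_combination (v i - x.mulVec v i) * h2

theorem polar_mulVec (hx : ∀ v, Q (x.mulVec v) = Q v) (u v : ι → F) :
    polar Q (x.mulVec u) (x.mulVec v) = polar Q u v := by
  unfold polar
  rw [← Matrix.mulVec_add, hx, hx, hx]

theorem polar_NL (hx : ∀ v, Q (x.mulVec v) = Q v) (hxx : x * x = 1) (u v : ι → F) :
    polar Q (NL x u) v = polar Q u (NL x v) := by
  have h1 : polar Q (x.mulVec u) v = polar Q u (x.mulVec v) := by
    have := polar_mulVec Q x hx (x.mulVec u) v
    rw [Matrix.mulVec_mulVec, hxx, Matrix.one_mulVec] at this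
    exact this.symm
  rw [NL_apply, NL_apply, polar_sub_left, polar_sub_right, h1]

theorem Q_NL (hx : ∀ v, Q (x.mulVec v) = Q v) (u : ι → F) :
    Q (NL x u) = polar Q u (NL x u) := by
  have h2 : (2 : F) = 0 := CharTwo.two_eq_zero
  have h1 : Q (x.mulVec u) = Q (NL x u) + Q u + polar Q (NL x u) u := by
    have : x.mulVec u = NL x u + u := by rw [NL_apply]; abel
    rw [this, QuadraticMap.map_add Q (NL x u) u]
  rw [hx] at h1
  rw [polar_comm Q u (NL x u)]
  linear_combination (-1 : F) * h1 - (polar Q (NL x u) u) * h2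

/-- `u` singular with `Q (N u) ≠ 0`: `⟨u, x u⟩` is an invariant hyperbolic plane. -/
theorem swap_plane (hx : ∀ v, Q (x.mulVec v) = Q v) (hxx : x * x = 1) (u : ι → F)
    (hu : Q u = 0) (hN : Q (NL x u) ≠ 0) :
    ∃ W : Submodule F (ι → F), u ∈ W ∧ Module.finrank F ↥W = 2 ∧
      Cfsg.Geo.IsNondegenerateOn (polar Q) W ∧ Cfsg.Geo.IsPlusTypeOn Q W ∧
      W.map (Matrix.toLin' x) ≤ W ∧
      ∀ Y : Submodule F (ι → F), u ∈ Y → x.mulVec u ∈ Y → W ≤ Y := by
  have h2 : (2 : F) = 0 := CharTwo.two_eq_zero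
  have hc : polar Q u (x.mulVec u) ≠ 0 := by
    rw [mulVec_eq, polar_add_right, polar_self, hu, ← Q_NL Q x hx]
    simpa using hN
  have hc' : polar Q (x.mulVec u) u ≠ 0 := by rwa [polar_comm]
  have hxu : Q (x.mulVec u) = 0 := by rw [hx, hu]
  set g : Fin 2 → ι → F := ![u, x.mulVec u] with hg
  have hgram := gram_nondeg Q g (by
    intro c hc0
    have e0 := hc0 0
    have e1 := hc0 1
    simp only [hg, Fin.sum_univ_two, Matrix.cons_val_zero, Matrix.cons_val_one,
      polar_add_left, polar_smul_left, polar_self, hu, hxu, smul_eq_mul] at e0 e1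
    have h0 : c 1 = 0 := by
      have : c 1 * polar Q (x.mulVec u) u = 0 := by linear_combination e0
      exact (mul_eq_zero.1 this).resolve_right hc'
    have h1 : c 0 = 0 := by
      have : c 0 * polar Q u (x.mulVec u) = 0 := by linear_combination e1
      exact (mul_eq_zero.1 this).resolve_right hc
    ext i
    fin_cases i
    · exact h1
    · exact h0)
  obtain ⟨hli, hnd⟩ := hgram
  refine ⟨Submodule.span F (Set.range g), Submodule.subset_span ⟨0, rfl⟩, ?_, hnd, ?_, ?_, ?_⟩
  · rw [finrank_span_eq_card hli, Fintype.card_fin]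
  · refine ⟨Submodule.span F {u}, ?_, ?_, ?_⟩
    · rw [Submodule.span_le]
      rintro _ rfl
      exact Submodule.subset_span ⟨0, rfl⟩
    · intro w hw
      obtain ⟨a, rfl⟩ := Submodule.mem_span_singleton.1 hw
      rw [QuadraticMap.map_smul, hu, smul_zero]
    · have hu0 : u ≠ 0 := by
        rintro rfl
        apply hc
        simp [polar]
      rw [finrank_span_singleton hu0, finrank_span_eq_card hli, Fintype.card_fin]
  · rw [Submodule.map_span, Submodule.span_le]
    rintro _ ⟨_, ⟨j, rfl⟩, rfl⟩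
    fin_cases j
    · exact Submodule.subset_span ⟨1, rfl⟩
    · have : Matrix.toLin' x (g 1) = u := by
        show Matrix.toLin' x (x.mulVec u) = u
        rw [Matrix.toLin'_apply, Matrix.mulVec_mulVec, hxx, Matrix.one_mulVec]
      show Matrix.toLin' x (g 1) ∈ _
      rw [this]
      exact Submodule.subset_span ⟨0, rfl⟩
  · intro Y hu hxu'
    rw [Submodule.span_le]
    rintro _ ⟨j, rfl⟩
    fin_cases j
    · exact hu
    · exact hxu'

/-- `Q (N u) = 0 = Q (N v)`, `B (u, N v) = 1`: `⟨u, v, N u, N v⟩` is an invariant nondegenerate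
`4`-space of plus type. -/
theorem four_block (hx : ∀ v, Q (x.mulVec v) = Q v) (hxx : x * x = 1) (u v : ι → F)
    (hNu : Q (NL x u) = 0) (hNv : Q (NL x v) = 0) (huv : polar Q u (NL x v) = 1) :
    ∃ W : Submodule F (ι → F), u ∈ W ∧ Module.finrank F ↥W = 4 ∧
      Cfsg.Geo.IsNondegenerateOn (polar Q) W ∧ Cfsg.Geo.IsPlusTypeOn Q W ∧
      W.map (Matrix.toLin' x) ≤ W ∧
      ∀ Y : Submodule F (ι → F), u ∈ Y → v ∈ Y → NL x u ∈ Y → NL x v ∈ Y → W ≤ Y := by
  have h2 : (2 : F) = 0 := CharTwo.two_eq_zero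
  set a := NL x u with ha
  set b := NL x v with hb
  have hav : polar Q a v = 1 := by rw [ha, polar_NL Q x hx hxx, huv]
  have hva : polar Q v a = 1 := by rw [polar_comm]; exact hav
  have hbu : polar Q b u = 1 := by rw [polar_comm]; exact huv
  have hab : polar Q a b = 0 := by
    rw [ha, hb, polar_NL Q x hx hxx, NL_NL x hxx]
    simp [polar]
  have hba : polar Q b a = 0 := by rw [polar_comm]; exact hab
  have hua : polar Q u a = 0 := by rw [ha, ← Q_NL Q x hx]; exact hNu
  have hau : polar Q a u = 0 := by rw [polar_comm]; exact hua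
  have hvb : polar Q v b = 0 := by rw [hb, ← Q_NL Q x hx]; exact hNv
  have hbv : polar Q b v = 0 := by rw [polar_comm]; exact hvb
  have hself : ∀ w : ι → F, polar Q w w = 0 := by
    intro w
    rw [polar_self]
    linear_combination (Q w) * h2
  set g : Fin 4 → ι → F := ![u, v, a, b] with hg
  have hgram := gram_nondeg Q g (by
    intro c hc0
    have e0 := hc0 0
    have e1 := hc0 1
    have e2 := hc0 2
    have e3 := hc0 3
    simp only [hg, Fin.sum_univ_four, polar_add_left, polar_smul_left, smul_eq_mul] at e0 e1 e2 e3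
    simp [hself, hav, hva, hbu, huv, hab, hba, hua, hau, hvb, hbv] at e0 e1 e2 e3
    have h0 : c 0 = 0 := e3
    have h1 : c 1 = 0 := e2
    rw [h0] at e1
    rw [h1] at e0
    simp at e0 e1
    ext i
    fin_cases i
    · exact h0
    · exact h1
    · exact e1
    · exact e0)
  obtain ⟨hli, hnd⟩ := hgram
  have hxa : x.mulVec a = a := by
    rw [mulVec_eq, ha, NL_NL x hxx, add_zero]
  have hxb : x.mulVec b = b := by
    rw [mulVec_eq, hb, NL_NL x hxx, add_zero]
  refine ⟨Submodule.span F (Set.range g), Submodule.subset_span ⟨0, rfl⟩, ?_, hnd, ?_, ?_, ?_⟩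
  · rw [finrank_span_eq_card hli, Fintype.card_fin]
  · have hinj : Function.Injective (![2, 3] : Fin 2 → Fin 4) := by decide
    have hli2 := hli.comp _ hinj
    refine ⟨Submodule.span F (Set.range (g ∘ ![2, 3])), ?_, ?_, ?_⟩
    · exact Submodule.span_mono (Set.range_comp_subset_range _ _)
    · intro w hw
      obtain ⟨c, rfl⟩ := (Submodule.mem_span_range_iff_exists_fun F).1 hw
      have e : ∑ i, c i • (g ∘ ![2, 3]) i = c 0 • a + c 1 • b := by
        rw [Fin.sum_univ_two]
        rfl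
      show Q (∑ i, c i • (g ∘ ![2, 3]) i) = 0
      rw [e, QuadraticMap.map_add Q, QuadraticMap.map_smul, QuadraticMap.map_smul,
        polar_smul_left, polar_smul_right, hab, ha, hb, hNu, hNv]
      simp
    · rw [finrank_span_eq_card hli2, finrank_span_eq_card hli, Fintype.card_fin, Fintype.card_fin]
  · rw [Submodule.map_span, Submodule.span_le]
    rintro _ ⟨_, ⟨j, rfl⟩, rfl⟩
    have hmem : ∀ k, g k ∈ Submodule.span F (Set.range g) := fun k =>
      Submodule.subset_span ⟨k, rfl⟩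
    fin_cases j
    · show Matrix.toLin' x u ∈ _
      rw [Matrix.toLin'_apply, mulVec_eq]
      exact Submodule.add_mem _ (hmem 0) (hmem 2)
    · show Matrix.toLin' x v ∈ _
      rw [Matrix.toLin'_apply, mulVec_eq]
      exact Submodule.add_mem _ (hmem 1) (hmem 3)
    · show Matrix.toLin' x a ∈ _
      rw [Matrix.toLin'_apply, hxa]
      exact hmem 2
    · show Matrix.toLin' x b ∈ _
      rw [Matrix.toLin'_apply, hxb]
      exact hmem 3
  · intro Y hu hv haY hbY
    rw [Submodule.span_le]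
    rintro _ ⟨j, rfl⟩
    fin_cases j
    · exact hu
    · exact hv
    · exact haY
    · exact hbY

/-- an invariant subspace is `N`-stable -/
theorem NL_mem {x : Matrix ι ι F} {Y : Submodule F (ι → F)} (hY : Y.map (Matrix.toLin' x) ≤ Y)
    {u : ι → F} (hu : u ∈ Y) : NL x u ∈ Y := by
  rw [NL_apply]
  exact Y.sub_mem (hY ⟨u, hu, by rw [Matrix.toLin'_apply]⟩) hu

/-- PEEL (swap plane): inside an invariant `Y`, a singular `u` with `Q (N u) ≠ 0` gives an
invariant hyperbolic plane in `Y`. -/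
theorem peel_swap (hx : ∀ v, Q (x.mulVec v) = Q v) (hxx : x * x = 1)
    (Y : Submodule F (ι → F)) (hY : Y.map (Matrix.toLin' x) ≤ Y) (u : ι → F) (huY : u ∈ Y)
    (hu : Q u = 0) (hN : Q (NL x u) ≠ 0) :
    ∃ W : Submodule F (ι → F), W ≤ Y ∧ Module.finrank F ↥W = 2 ∧
      Cfsg.Geo.IsNondegenerateOn (polar Q) W ∧ Cfsg.Geo.IsPlusTypeOn Q W ∧
      W.map (Matrix.toLin' x) ≤ W := by
  obtain ⟨W, -, h1, h2, h3, h4, h5⟩ := swap_plane Q x hx hxx u hu hN
  refine ⟨W, h5 Y huY ?_, h1, h2, h3, h4⟩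
  exact hY ⟨u, huY, by rw [Matrix.toLin'_apply]⟩

/-- PEEL (four-block): inside an invariant nondegenerate `Y` on which `Q ∘ N = 0`, a vector `u`
with `N u ≠ 0` gives an invariant nondegenerate `4`-space of plus type in `Y`. -/
theorem peel_four (hx : ∀ v, Q (x.mulVec v) = Q v) (hxx : x * x = 1)
    (Y : Submodule F (ι → F)) (hY : Y.map (Matrix.toLin' x) ≤ Y)
    (hnd : Cfsg.Geo.IsNondegenerateOn (polar Q) Y) (hℓ : ∀ w ∈ Y, Q (NL x w) = 0)
    (u : ι → F) (huY : u ∈ Y) (hNu : NL x u ≠ 0) :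
    ∃ W : Submodule F (ι → F), W ≤ Y ∧ Module.finrank F ↥W = 4 ∧
      Cfsg.Geo.IsNondegenerateOn (polar Q) W ∧ Cfsg.Geo.IsPlusTypeOn Q W ∧
      W.map (Matrix.toLin' x) ≤ W := by
  have haY : NL x u ∈ Y := NL_mem hY huY
  obtain ⟨v, hvY, hv⟩ := (hnd (NL x u) haY hNu).2
  set v' := (polar Q (NL x u) v)⁻¹ • v with hv'
  have hv'Y : v' ∈ Y := Y.smul_mem _ hvY
  have h1 : polar Q u (NL x v') = 1 := by
    rw [← polar_NL Q x hx hxx, hv', polar_smul_right, smul_eq_mul, inv_mul_cancel₀ hv]
  obtain ⟨W, -, h2, h3, h4, h5, h6⟩ :=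
    four_block Q x hx hxx u v' (hℓ u huY) (hℓ v' hv'Y) h1
  exact ⟨W, h6 Y huY hv'Y haY (NL_mem hY hv'Y), h2, h3, h4, h5⟩

end char2

end Cfsg.Agent.Lib.Helper12.C2Blk
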