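import Mathlib

set_option autoImplicit false

namespace Cfsg.Agent.Lib.Helper12.Cent

section
variable {α : Type*} (G : Subgroup (Equiv.Perm α)) (M N : Subgroup G)

theorem smul_eq (m : M) (a : α) : m • a = ((m : G) : Equiv.Perm α) a := rfl

theorem coe_mem_map (m : M) :
    ((m : G) : Equiv.Perm α) ∈ M.map G.subtype := ⟨(m : G), m.2, rfl⟩

/-- The centralizer of a transitive subgroup is semiregular. -/
theorem semireg [MulAction.IsPretransitive M α] :
    ∀ c ∈ Subgroup.centralizer ((M.map G.subtype : Subgroup (Equiv.Perm α)) : Set (Equiv.Perm α)),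
      ∀ a : α, c a = a → c = 1 := by
  intro c hc a hca
  ext x
  obtain ⟨m, rfl⟩ := MulAction.exists_smul_eq M a x
  have h := hc ((m : G) : Equiv.Perm α) (coe_mem_map G M m)
  have h2 := congrArg (fun σ : Equiv.Perm α => σ a) h
  simp only [Equiv.Perm.coe_mul, Function.comp_apply] at h2
  rw [hca] at h2
  rw [smul_eq, Equiv.Perm.coe_one, id_eq]
  exact h2.symm

/-- A transitive subgroup of the centralizer of a transitive subgroup is the whole centralizer. -/
theorem cent_eq [MulAction.IsPretransitive M α] [MulAction.IsPretransitive N α]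
    (hNM : N.map G.subtype ≤
      Subgroup.centralizer ((M.map G.subtype : Subgroup (Equiv.Perm α)) : Set (Equiv.Perm α))) :
    Subgroup.centralizer ((M.map G.subtype : Subgroup (Equiv.Perm α)) : Set (Equiv.Perm α)) =
      N.map G.subtype := by
  apply le_antisymm _ hNM
  intro c hc
  rcases isEmpty_or_nonempty α with hα | ⟨⟨a⟩⟩
  · have : c = 1 := Subsingleton.elim _ _
    rw [this]; exact Subgroup.one_mem _
  · obtain ⟨n, hn⟩ := MulAction.exists_smul_eq N a (c a)
    rw [smul_eq] at hn
    have hn' : ((n : G) : Equiv.Perm α) ∈ N.map G.subtype := coe_mem_map G N n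
    have h1 : (((n : G) : Equiv.Perm α))⁻¹ * c ∈
        Subgroup.centralizer ((M.map G.subtype : Subgroup (Equiv.Perm α)) : Set (Equiv.Perm α)) :=
      Subgroup.mul_mem _ (Subgroup.inv_mem _ (hNM hn')) hc
    have h2 : ((((n : G) : Equiv.Perm α))⁻¹ * c) a = a := by
      rw [Equiv.Perm.coe_mul, Function.comp_apply, ← hn, Equiv.Perm.inv_def, Equiv.symm_apply_apply]
    have h3 := semireg G M _ h1 a h2
    have h4 : c = ((n : G) : Equiv.Perm α) := by
      rw [inv_mul_eq_one] at h3
      exact h3.symm
    rw [h4]; exact hn'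

/-- A subgroup centralizing a transitive subgroup is semiregular. -/
theorem stab_bot [MulAction.IsPretransitive M α]
    (hNM : N.map G.subtype ≤
      Subgroup.centralizer ((M.map G.subtype : Subgroup (Equiv.Perm α)) : Set (Equiv.Perm α)))
    (a : α) : MulAction.stabilizer N a = ⊥ := by
  rw [eq_bot_iff]
  intro n hn
  rw [MulAction.mem_stabilizer_iff, smul_eq] at hn
  have := semireg G M _ (hNM (coe_mem_map G N n)) a hn
  rw [Subgroup.mem_bot]
  apply Subtype.ext
  apply Subtype.ext
  exact this

/-- Disjoint normal subgroups centralize each other. -/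
theorem map_le_cent [M.Normal] [N.Normal] (hd : M ⊓ N = ⊥) :
    N.map G.subtype ≤
      Subgroup.centralizer ((M.map G.subtype : Subgroup (Equiv.Perm α)) : Set (Equiv.Perm α)) := by
  rintro _ ⟨n, hn, rfl⟩ _ ⟨m, hm, rfl⟩
  have hc : Commute m n := Subgroup.commute_of_normal_of_disjoint M N inferInstance inferInstance
    (disjoint_iff.mpr hd) m n hm hn
  have : m * n = n * m := hc
  exact congrArg (G.subtype) this

/-- Membership in the image is membership. -/
theorem map_le_map_iff : M.map G.subtype ≤ N.map G.subtype ↔ M ≤ N :=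
  Subgroup.map_le_map_iff_of_injective G.subtype_injective

end

end Cfsg.Agent.Lib.Helper12.Cent
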