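import Mathlib
import Cfsg.Prelude.Def_Characters
import Cfsg.Prelude.Def_Blocks
import Cfsg.Agent.Lib.Helper80.Restrict
import Cfsg.Agent.Lib.Helper3.Irr
import Cfsg.Agent.Lib.Helper3.Complete
import Cfsg.Agent.Lib.Helper3.Spectral

/-!
The commutant (algebra of equivariant endomorphisms) of a complex representation of a finite
group: its dimension, the central operators attached to the irreducible characters and their
linear independence, and the equivalence between commutativity and multiplicity-freeness.
Namespace `Cfsg.Agent.Lib.Helper12.Commutant`.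
-/

set_option autoImplicit false

namespace Cfsg.Agent.Lib.Helper12.Commutant

open Cfsg
open scoped ComplexConjugate
open Cfsg.Agent.Lib.Helper3.Complete

universe u

variable {G : Type u} [Group G] {V : Type*} [AddCommGroup V] [Module ℂ V]

theorem mem_inv_iff (ρ : Representation ℂ G V) (T : V →ₗ[ℂ] V) :
    T ∈ (ρ.linHom ρ).invariants ↔ ∀ g, T ∘ₗ ρ g = ρ g ∘ₗ T := by
  rw [Representation.mem_invariants]
  simp only [Representation.linHom_apply]
  rw [Representation.mem_linHom_invariants_iff_isIntertwining, Representation.isIntertwiningMap_iff]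
  constructor
  · intro h g
    ext v
    exact h g v
  · intro h g v
    exact LinearMap.congr_fun (h g) v

variable [Fintype G] [FiniteDimensional ℂ V]

/-- The inner product of two characters is the dimension of the space of intertwining maps. -/
theorem inner_eq_finrank_hom {W : Type*} [AddCommGroup W] [Module ℂ W] [FiniteDimensional ℂ W]
    (ρ : Representation ℂ G V) (σ : Representation ℂ G W) :
    classInner ρ.character σ.character
      = (Module.finrank ℂ (Representation.IntertwiningMap σ ρ) : ℂ) := by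
  have hinv : Invertible (Nat.card G : ℂ) :=
    invertibleOfNonzero (by exact_mod_cast Nat.card_pos.ne')
  rw [← Representation.card_inv_mul_sum_char_mul_char_eq_finrank σ ρ]
  unfold classInner
  congr 1
  refine Finset.sum_congr rfl fun g _ => ?_
  rw [Cfsg.Agent.Lib.Helper3.Spectral.char_inv]

/-- The dimension of the commutant is the norm of the character. -/
theorem finrank_inv (ρ : Representation ℂ G V) :
    (Module.finrank ℂ (ρ.linHom ρ).invariants : ℂ) = classInner ρ.character ρ.character := by
  rw [inner_eq_finrank_hom, (Representation.invariantsEquivIntertwiningMap ρ ρ).finrank_eq]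

/-- The central operator attached to a function on the group. -/
noncomputable def cOp (ρ : Representation ℂ G V) (ψ : G → ℂ) : V →ₗ[ℂ] V :=
  opSum (fun g => conj (ψ g)) ρ

theorem isClassFunction_conj {ψ : G → ℂ} (hψ : IsClassFunction G ψ) :
    IsClassFunction G (fun g => conj (ψ g)) := by
  intro g x
  show conj (ψ (x * g * x⁻¹)) = conj (ψ g)
  rw [hψ g x]

theorem cOp_mem (ρ : Representation ℂ G V) {ψ : G → ℂ} (hψ : IsClassFunction G ψ) :
    cOp ρ ψ ∈ (ρ.linHom ρ).invariants := by
  rw [mem_inv_iff]
  intro g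
  exact opSum_comm _ (isClassFunction_conj hψ) ρ g

/-- Every operator of the commutant commutes with the central operators. -/
theorem cOp_comm (ρ : Representation ℂ G V) (ψ : G → ℂ) {T : V →ₗ[ℂ] V}
    (hT : T ∈ (ρ.linHom ρ).invariants) : cOp ρ ψ ∘ₗ T = T ∘ₗ cOp ρ ψ := by
  rw [mem_inv_iff] at hT
  apply LinearMap.ext
  intro v
  rw [LinearMap.comp_apply, LinearMap.comp_apply]
  unfold cOp
  rw [opSum_apply, opSum_apply, map_sum]
  refine Finset.sum_congr rfl fun g _ => ?_
  rw [map_smul]
  congr 1
  exact (LinearMap.congr_fun (hT g) v).symm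

/-- Linear independence of the central operators of the constituents. -/
theorem cOp_indep [Fintype (IrrCharacter G)] (ρ : Representation ℂ G V) (a : IrrCharacter G → ℂ)
    (h : ∑ ψ : IrrCharacter G, a ψ • cOp ρ (ψ : G → ℂ) = 0) (χ : IrrCharacter G)
    (hχ : classInner ρ.character (χ : G → ℂ) ≠ 0) : a χ = 0 := by
  classical
  obtain ⟨n, σ, hσ, hσχ⟩ := χ.2
  have hcard : (Nat.card G : ℂ) ≠ 0 := by exact_mod_cast Nat.card_pos.ne'
  -- a nonzero intertwiner
  have h1 : Module.finrank ℂ (Representation.IntertwiningMap σ ρ) ≠ 0 := by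
    intro h0
    apply hχ
    rw [← hσχ, inner_eq_finrank_hom, h0, Nat.cast_zero]
  have h2 : Nontrivial (Representation.IntertwiningMap σ ρ) :=
    Module.finrank_pos_iff.1 (Nat.pos_of_ne_zero h1)
  obtain ⟨φ, hφ⟩ := exists_ne (0 : Representation.IntertwiningMap σ ρ)
  set f : G → ℂ := fun g => ∑ ψ : IrrCharacter G, a ψ * conj ((ψ : G → ℂ) g) with hf
  have hfc : IsClassFunction G f := by
    intro g x
    show ∑ ψ : IrrCharacter G, a ψ * conj ((ψ : G → ℂ) (x * g * x⁻¹))
      = ∑ ψ : IrrCharacter G, a ψ * conj ((ψ : G → ℂ) g)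
    refine Finset.sum_congr rfl fun ψ _ => ?_
    rw [Cfsg.Agent.Lib.Helper3.Irr.IsIrrCharacter.isClassFunction ψ.2 g x]
  have h3 : opSum f ρ = 0 := by
    rw [← h]
    unfold cOp opSum
    simp only [Finset.smul_sum, smul_smul]
    rw [Finset.sum_comm]
    refine Finset.sum_congr rfl fun g _ => ?_
    rw [hf, Finset.sum_smul]
  have h4 : opSum f ρ ∘ₗ φ.toLinearMap = φ.toLinearMap ∘ₗ opSum f σ := by
    apply LinearMap.ext
    intro v
    rw [LinearMap.comp_apply, LinearMap.comp_apply, opSum_apply, opSum_apply, map_sum]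
    refine Finset.sum_congr rfl fun g _ => ?_
    rw [map_smul]
    congr 1
    exact (Representation.IntertwiningMap.isIntertwining σ ρ φ g v).symm
  have h5 := opSum_eq_smul_of_irreducible f hfc σ
  rw [h3, h5, LinearMap.zero_comp, LinearMap.comp_smul, LinearMap.comp_id] at h4
  have h6 : (∑ g : G, f g * σ.character g) / (Module.finrank ℂ (Fin n → ℂ) : ℂ) = 0 := by
    rcases smul_eq_zero.1 h4.symm with h7 | h7
    · exact h7
    · exact absurd (Representation.IntertwiningMap.ext h7) hφ
  have h7 : (Module.finrank ℂ (Fin n → ℂ) : ℂ) ≠ 0 := by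
    exact_mod_cast (Cfsg.Agent.Lib.Helper3.Irr.finrank_pos_of_isIrreducible σ).ne'
  have h8 : ∑ g : G, f g * σ.character g = 0 := by
    rcases div_eq_zero_iff.1 h6 with h9 | h9
    · exact h9
    · exact absurd h9 h7
  have h9 : ∑ g : G, f g * σ.character g = (Nat.card G : ℂ) * a χ := by
    rw [hσχ, hf]
    simp only [Finset.sum_mul]
    rw [Finset.sum_comm]
    have h10 : ∀ ψ : IrrCharacter G, ∑ g : G, a ψ * conj ((ψ : G → ℂ) g) * (χ : G → ℂ) g
        = (Nat.card G : ℂ) * (a ψ * if χ = ψ then 1 else 0) := by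
      intro ψ
      rw [← Cfsg.Agent.Lib.Helper3.Irr.irr_orthonormal χ ψ]
      unfold classInner
      rw [mul_left_comm, ← mul_assoc (Nat.card G : ℂ), mul_inv_cancel₀ hcard, one_mul,
        Finset.mul_sum]
      refine Finset.sum_congr rfl fun g _ => ?_
      ring
    simp only [h10]
    rw [← Finset.mul_sum]
    simp
  rw [h9] at h8
  rcases mul_eq_zero.1 h8 with h10 | h10
  · exact absurd h10 hcard
  · exact h10

/-- In the multiplicity-free case the commutant is spanned by the central operators. -/
theorem inv_le_span [Fintype (IrrCharacter G)] (ρ : Representation ℂ G V)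
    (hmf : ∀ ψ : IrrCharacter G, classInner ρ.character (ψ : G → ℂ) = 0 ∨
      classInner ρ.character (ψ : G → ℂ) = 1) :
    (ρ.linHom ρ).invariants
      ≤ Submodule.span ℂ (Set.range fun ψ : IrrCharacter G => cOp ρ (ψ : G → ℂ)) := by
  classical
  let e : {ψ : IrrCharacter G // classInner ρ.character (ψ : G → ℂ) ≠ 0} → (V →ₗ[ℂ] V) :=
    fun i => cOp ρ (i.1 : G → ℂ)
  have hli : LinearIndependent ℂ e := by
    rw [Fintype.linearIndependent_iff]
    intro g hg i
    let a : IrrCharacter G → ℂ := fun ψ =>
      if h : classInner ρ.character (ψ : G → ℂ) ≠ 0 then g ⟨ψ, h⟩ else 0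
    have h1 : ∑ ψ : IrrCharacter G, a ψ • cOp ρ (ψ : G → ℂ) = 0 := by
      rw [← hg]
      have h2 : ∑ ψ : IrrCharacter G, a ψ • cOp ρ (ψ : G → ℂ)
          = ∑ ψ ∈ Finset.univ.filter
            (fun ψ : IrrCharacter G => classInner ρ.character (ψ : G → ℂ) ≠ 0),
            a ψ • cOp ρ (ψ : G → ℂ) := by
        symm
        apply Finset.sum_subset (Finset.filter_subset _ _)
        intro ψ _ hψ
        have : ¬ classInner ρ.character (ψ : G → ℂ) ≠ 0 :=
          fun h => hψ (Finset.mem_filter.2 ⟨Finset.mem_univ _, h⟩)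
        simp only [a, dif_neg this, zero_smul]
      rw [h2, Finset.sum_subtype (Finset.univ.filter _)
        (p := fun ψ : IrrCharacter G => classInner ρ.character (ψ : G → ℂ) ≠ 0) (by simp)]
      refine Finset.sum_congr rfl fun x _ => ?_
      simp only [a, dif_pos x.2, e]
    have h3 := cOp_indep ρ a h1 i.1 i.2
    have h4 : a i.1 = g i := by simp only [a, dif_pos i.2]
    rw [h4] at h3
    exact h3
  have hle : Submodule.span ℂ (Set.range e) ≤ (ρ.linHom ρ).invariants := by
    rw [Submodule.span_le]
    rintro _ ⟨i, rfl⟩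
    exact cOp_mem ρ (Cfsg.Agent.Lib.Helper3.Irr.IsIrrCharacter.isClassFunction i.1.2)
  have hfr : Module.finrank ℂ (Submodule.span ℂ (Set.range e))
      = Module.finrank ℂ (ρ.linHom ρ).invariants := by
    rw [finrank_span_eq_card hli]
    have h1 := finrank_inv ρ
    obtain ⟨m, hm1, -, -, hm4⟩ := Cfsg.Agent.Lib.Helper80.Restrict.exists_mult
      (Cfsg.Agent.Lib.Helper3.Irr.isCharacter_of_rep ρ)
    rw [hm4] at h1
    have h2 : Module.finrank ℂ (ρ.linHom ρ).invariants = ∑ ψ : IrrCharacter G, m ψ ^ 2 := by
      exact_mod_cast h1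
    rw [h2, Fintype.card_subtype, Finset.card_filter]
    refine Finset.sum_congr rfl fun ψ _ => ?_
    rcases hmf ψ with h | h
    · have : m ψ = 0 := by
        rw [hm1 ψ] at h
        exact_mod_cast h
      simp [h, this]
    · have : m ψ = 1 := by
        rw [hm1 ψ] at h
        exact_mod_cast h
      simp [h, this]
  have heq := Submodule.eq_of_le_of_finrank_eq hle hfr
  rw [← heq]
  apply Submodule.span_mono
  rintro _ ⟨i, rfl⟩
  exact ⟨i.1, rfl⟩

/-- A multiplicity-free representation has commutative commutant. -/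
theorem comm_of_multFree [Fintype (IrrCharacter G)] (ρ : Representation ℂ G V)
    (hmf : ∀ ψ : IrrCharacter G, classInner ρ.character (ψ : G → ℂ) = 0 ∨
      classInner ρ.character (ψ : G → ℂ) = 1)
    (S T : V →ₗ[ℂ] V) (hS : S ∈ (ρ.linHom ρ).invariants) (hT : T ∈ (ρ.linHom ρ).invariants) :
    S ∘ₗ T = T ∘ₗ S := by
  have h1 := inv_le_span ρ hmf hS
  have key : ∀ X ∈ Submodule.span ℂ (Set.range fun ψ : IrrCharacter G => cOp ρ (ψ : G → ℂ)),
      X ∘ₗ T = T ∘ₗ X := by
    intro X hX
    induction hX using Submodule.span_induction with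
    | mem x hx =>
      obtain ⟨ψ, rfl⟩ := hx
      exact cOp_comm ρ _ hT
    | zero => simp
    | add x y _ _ hx hy => rw [LinearMap.add_comp, LinearMap.comp_add, hx, hy]
    | smul c x _ hx => rw [LinearMap.smul_comp, LinearMap.comp_smul, hx]
  exact key S h1

/-- An equivariant retraction of a nonzero intertwiner out of an irreducible representation. -/
theorem exists_retraction {W : Type*} [AddCommGroup W] [Module ℂ W]
    (ρ : Representation ℂ G V) (σ : Representation ℂ G W) [σ.IsIrreducible]
    (φ : Representation.IntertwiningMap σ ρ) (hφ : φ ≠ 0) :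
    ∃ r : V →ₗ[ℂ] W, (∀ g, r ∘ₗ ρ g = σ g ∘ₗ r) ∧ r ∘ₗ φ.toLinearMap = LinearMap.id := by
  have hcard : (Nat.card G : ℂ) ≠ 0 := by exact_mod_cast Nat.card_pos.ne'
  have hinj : LinearMap.ker φ.toLinearMap = ⊥ := by
    rcases eq_bot_or_eq_top (Representation.IntertwiningMap.ker σ ρ φ) with h | h
    · exact congrArg Subrepresentation.toSubmodule h
    · exfalso
      apply hφ
      apply Representation.IntertwiningMap.ext
      apply LinearMap.ext
      intro v
      have hv : v ∈ (Representation.IntertwiningMap.ker σ ρ φ).toSubmodule := by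
        rw [h]
        exact Submodule.mem_top
      exact hv
  obtain ⟨r₀, hr₀⟩ := LinearMap.exists_leftInverse_of_injective φ.toLinearMap hinj
  have hφg : ∀ (g : G) (w : W), φ (σ g w) = ρ g (φ w) := fun g w =>
    Representation.IntertwiningMap.isIntertwining σ ρ φ g w
  have hr₀' : ∀ w : W, r₀ (φ w) = w := fun w => LinearMap.congr_fun hr₀ w
  refine ⟨(Nat.card G : ℂ)⁻¹ • ∑ g : G, σ g⁻¹ ∘ₗ r₀ ∘ₗ ρ g, ?_, ?_⟩
  · intro h
    apply LinearMap.ext
    intro v
    simp only [LinearMap.comp_apply, LinearMap.smul_apply, LinearMap.sum_apply, map_smul, map_sum]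
    congr 1
    refine Fintype.sum_equiv (Equiv.mulRight h) _ _ fun g => ?_
    simp only [Equiv.coe_mulRight, mul_inv_rev, map_mul, Module.End.mul_apply]
    rw [← Module.End.mul_apply (σ h), ← map_mul, mul_inv_cancel, map_one, Module.End.one_apply]
  · apply LinearMap.ext
    intro w
    simp only [LinearMap.comp_apply, LinearMap.smul_apply, LinearMap.sum_apply, LinearMap.id_apply]
    have h1 : ∀ g : G, σ g⁻¹ (r₀ (ρ g (φ.toLinearMap w))) = w := by
      intro g
      have h2 : ρ g (φ.toLinearMap w) = φ (σ g w) := (hφg g w).symm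
      rw [h2, hr₀', ← Module.End.mul_apply, ← map_mul, inv_mul_cancel, map_one,
        Module.End.one_apply]
    simp only [h1, Finset.sum_const, Finset.card_univ]
    rw [← Nat.card_eq_fintype_card, ← Nat.cast_smul_eq_nsmul ℂ, smul_smul,
      inv_mul_cancel₀ hcard, one_smul]

/-- If the commutant is commutative, the representation is multiplicity-free. -/
theorem multFree_of_comm (ρ : Representation ℂ G V)
    (hcomm : ∀ S T : V →ₗ[ℂ] V, S ∈ (ρ.linHom ρ).invariants → T ∈ (ρ.linHom ρ).invariants →
      S ∘ₗ T = T ∘ₗ S) (χ : G → ℂ) (hχ : IsIrrCharacter G χ) :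
    classInner ρ.character χ = 0 ∨ classInner ρ.character χ = 1 := by
  obtain ⟨n, σ, hσ, rfl⟩ := hχ
  rw [inner_eq_finrank_hom]
  have hle : Module.finrank ℂ (Representation.IntertwiningMap σ ρ) ≤ 1 := by
    by_cases h0 : ∀ φ : Representation.IntertwiningMap σ ρ, φ = 0
    · apply finrank_le_one (0 : Representation.IntertwiningMap σ ρ)
      intro w
      exact ⟨0, by rw [h0 w, smul_zero]⟩
    · push Not at h0
      obtain ⟨φ₁, hφ₁⟩ := h0
      obtain ⟨r, hr1, hr2⟩ := exists_retraction ρ σ φ₁ hφ₁
      apply finrank_le_one φ₁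
      intro φ₂
      have hS : φ₂.toLinearMap ∘ₗ r ∈ (ρ.linHom ρ).invariants := by
        rw [mem_inv_iff]
        intro g
        rw [LinearMap.comp_assoc, hr1 g, ← LinearMap.comp_assoc, φ₂.isIntertwining' g,
          LinearMap.comp_assoc]
      have hT : φ₁.toLinearMap ∘ₗ r ∈ (ρ.linHom ρ).invariants := by
        rw [mem_inv_iff]
        intro g
        rw [LinearMap.comp_assoc, hr1 g, ← LinearMap.comp_assoc, φ₁.isIntertwining' g,
          LinearMap.comp_assoc]
      have h1 := hcomm _ _ hS hT
      obtain ⟨c, hc⟩ := schur_scalar σ (r ∘ₗ φ₂.toLinearMap) (by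
        intro g
        rw [LinearMap.comp_assoc, φ₂.isIntertwining' g, ← LinearMap.comp_assoc, hr1 g,
          LinearMap.comp_assoc])
      refine ⟨c, ?_⟩
      apply Representation.IntertwiningMap.ext
      apply LinearMap.ext
      intro w
      have h2 := LinearMap.congr_fun h1 (φ₁.toLinearMap w)
      simp only [LinearMap.comp_apply] at h2
      have h3 : r (φ₁.toLinearMap w) = w := LinearMap.congr_fun hr2 w
      have h4 : r (φ₂.toLinearMap w) = c • w := by
        have := LinearMap.congr_fun hc w
        simpa using this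
      rw [h3, h4, map_smul, h3] at h2
      show (c • φ₁).toLinearMap w = φ₂.toLinearMap w
      rw [h2]
      rfl
  interval_cases h : Module.finrank ℂ (Representation.IntertwiningMap σ ρ)
  · left
    simp
  · right
    simp

end Cfsg.Agent.Lib.Helper12.Commutant
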