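import Mathlib
import Cfsg.Agent.Lib.Helper41.EMStmt
import Cfsg.Agent.Lib.Helper41.TMStmt
import Cfsg.Agent.Lib.Helper44.NegPairs
import Cfsg.Agent.Lib.Helper12.C2Blk

/-!
# S5990 / C2FIX (minus form, characteristic 2): every isometry `x` with `x * x = 1` fixes an
elliptic `m`-space if `d` is even or `m ≡ 2 (mod 4)`.

`main : Top → SubPerp → OrthSum → TsIn → CancelM → SubTypeE → C2Fix`.
Induction on `finrank Y` for invariant nondegenerate `Y` not of plus type (no rank bookkeeping):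
for even `m`, `2 ≤ m ≤ finrank Y`, and (`4 ∣ finrank Y` or `m ≡ 2 (mod 4)` or `x = 1` on `Y`) there
is an invariant elliptic `m`-space in `Y`.  Peeling steps: `Helper12.C2Blk.peel_swap`, `peel_four`.
-/

set_option autoImplicit false

universe u

open scoped Matrix

namespace Cfsg.Agent.Lib.Helper12.EMC2FIX

open QuadraticMap Module
open Cfsg.Agent.Lib.Helper45.OMiStmt (M Aniso NDegM StabM)
open Cfsg.Agent.Lib.Helper41.TMTwoStmt (PlusM TSubM)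
open Cfsg.Agent.Lib.Helper41.EMStmt (MemEM)
open Cfsg.Agent.Lib.Helper12.C2Blk

section generic

variable {F : Type*} [Field F] {ι : Type} [Fintype ι] [DecidableEq ι]

/-- the orthogonal sum of two subspaces of plus type is of plus type -/
theorem plus_sup (Q : QuadraticForm F (ι → F)) (A B : Submodule F (ι → F))
    (horth : ∀ u ∈ A, ∀ v ∈ B, polar Q u v = 0) (hinf : A ⊓ B = ⊥)
    (hfr : finrank F ↥(A ⊔ B) = finrank F ↥A + finrank F ↥B)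
    (hA : Cfsg.Geo.IsPlusTypeOn Q A) (hB : Cfsg.Geo.IsPlusTypeOn Q B) :
    Cfsg.Geo.IsPlusTypeOn Q (A ⊔ B) := by
  obtain ⟨U₁, hU₁, hts₁, hd₁⟩ := hA
  obtain ⟨U₂, hU₂, hts₂, hd₂⟩ := hB
  refine ⟨U₁ ⊔ U₂, sup_le_sup hU₁ hU₂, ?_, ?_⟩
  · intro w hw
    obtain ⟨w₁, hw₁, w₂, hw₂, rfl⟩ := Submodule.mem_sup.1 hw
    have e1 : Q w₁ = 0 := hts₁ w₁ hw₁
    have e2 : Q w₂ = 0 := hts₂ w₂ hw₂
    show Q (w₁ + w₂) = 0
    rw [QuadraticMap.map_add Q, e1, e2, horth w₁ (hU₁ hw₁) w₂ (hU₂ hw₂)]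
    simp
  · have hinf' : U₁ ⊓ U₂ = ⊥ := by
      rw [eq_bot_iff, ← hinf]
      exact inf_le_inf hU₁ hU₂
    have h := Submodule.finrank_sup_add_finrank_inf_eq U₁ U₂
    rw [hinf', finrank_bot, add_zero] at h
    rw [h, hfr]
    omega

variable [CharP F 2] (Q : QuadraticForm F (ι → F)) (x : Matrix ι ι F)

theorem Q_NL_add (hx : ∀ v, Q (x.mulVec v) = Q v) (hxx : x * x = 1) (u v : ι → F) :
    Q (NL x (u + v)) = Q (NL x u) + Q (NL x v) := by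
  rw [map_add (NL x), QuadraticMap.map_add Q, polar_NL Q x hx hxx, NL_NL x hxx]
  simp [polar]

theorem Q_NL_smul (c : F) (u : ι → F) : Q (NL x (c • u)) = c * c * Q (NL x u) := by
  rw [map_smul (NL x), QuadraticMap.map_smul, smul_eq_mul]

/-- a nondegenerate invariant `Y` with a nonzero singular vector and `Q ∘ N ≠ 0` has a singular
vector `u` with `Q (N u) ≠ 0` -/
theorem exists_sing (hx : ∀ v, Q (x.mulVec v) = Q v) (hxx : x * x = 1)
    (Y : Submodule F (ι → F)) (hnd : Cfsg.Geo.IsNondegenerateOn (polar Q) Y)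
    (s : ι → F) (hsY : s ∈ Y) (hs0 : s ≠ 0) (hs : Q s = 0)
    (u₀ : ι → F) (hu₀ : u₀ ∈ Y) (hγ : Q (NL x u₀) ≠ 0) :
    ∃ u ∈ Y, Q u = 0 ∧ Q (NL x u) ≠ 0 := by
  have h2 : (2 : F) = 0 := CharTwo.two_eq_zero
  by_cases hγs : Q (NL x s) = 0
  swap
  · exact ⟨s, hsY, hs, hγs⟩
  have key : ∀ y ∈ Y, polar Q y s ≠ 0 → Q (NL x y) ≠ 0 →
      ∃ u ∈ Y, Q u = 0 ∧ Q (NL x u) ≠ 0 := by
    intro y hy hp hγy
    refine ⟨y + (Q y / polar Q y s) • s, Y.add_mem hy (Y.smul_mem _ hsY), ?_, ?_⟩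
    · rw [QuadraticMap.map_add Q, QuadraticMap.map_smul, hs, polar_smul_right, smul_eq_mul,
        smul_eq_mul, div_mul_cancel₀ _ hp]
      linear_combination (Q y) * h2
    · rw [Q_NL_add Q x hx hxx, Q_NL_smul, hγs]
      simpa using hγy
  by_cases hp : polar Q u₀ s = 0
  · obtain ⟨w, hwY, hw⟩ := (hnd s hsY hs0).1
    by_cases hγw : Q (NL x w) = 0
    · apply key (u₀ + w) (Y.add_mem hu₀ hwY)
      · rw [polar_add_left, hp, zero_add]
        exact hw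
      · rw [Q_NL_add Q x hx hxx, hγw, add_zero]
        exact hγ
    · exact key w hwY hw hγw
  · exact key u₀ hu₀ hp hγ

end generic

section concrete

open Cfsg.Agent.Lib.Helper41

variable {F : Type u} [Field F] [Fintype F] [CharP F 2]

theorem core (hSubPerp : TMStmt.SubPerp.{u}) (hOrthSum : TMStmt.OrthSum.{u})
    (hTsIn : TMStmt.TsIn.{u}) (hCan : EMStmt.CancelM.{u}) (hSubT : EMStmt.SubTypeE.{u})
    (a₀ b₀ : F) (hab : Aniso a₀ b₀) (d : ℕ) (x : Matrix.GeneralLinearGroup (M d) F)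
    (hxiso : x ∈ Cfsg.isometryGroup F (Cfsg.quadFormMinus (d - 1) F a₀ b₀))
    (hxx : (x : Matrix (M d) (M d) F) * (x : Matrix (M d) (M d) F) = 1) :
    ∀ (n : ℕ) (Y : Submodule F (M d → F)), finrank F ↥Y = n → n % 2 = 0 →
      StabM (x : Matrix (M d) (M d) F) Y → NDegM d F a₀ b₀ Y → ¬ PlusM d F a₀ b₀ Y →
      ∀ m : ℕ, m % 2 = 0 → 2 ≤ m → m ≤ n →
      (n % 4 = 0 ∨ m % 4 = 2 ∨ ∀ u ∈ Y, NL (x : Matrix (M d) (M d) F) u = 0) →
      ∃ W : Submodule F (M d → F), W ≤ Y ∧ MemEM d F a₀ b₀ m W ∧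
        StabM (x : Matrix (M d) (M d) F) W := by
  have hx : ∀ v, Cfsg.Agent.Lib.Helper44.NegPairs.minusQ (d - 1) F a₀ b₀
      ((x : Matrix (M d) (M d) F).mulVec v) =
      Cfsg.Agent.Lib.Helper44.NegPairs.minusQ (d - 1) F a₀ b₀ v := fun v => hxiso v v
  intro n
  induction n using Nat.strong_induction_on with
  | _ n ih =>
  intro Y hn hne hst hnd hnp m hme hm2 hmn hcond
  rcases Nat.lt_or_ge m n with hlt | hge
  swap
  · exact ⟨Y, le_rfl, ⟨by omega, hnd, hnp⟩, hst⟩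
  have hm2n : m + 2 ≤ n := by omega
  -- gluing along an invariant nondegenerate plus-type block `B ≤ Y` of dimension `k`
  have glue : ∀ (B : Submodule F (M d → F)) (k : ℕ), B ≤ Y → finrank F ↥B = k →
      NDegM d F a₀ b₀ B → PlusM d F a₀ b₀ B → StabM (x : Matrix (M d) (M d) F) B →
      ∃ Y₁ : Submodule F (M d → F), Y₁ ≤ Y ∧ StabM (x : Matrix (M d) (M d) F) Y₁ ∧
        NDegM d F a₀ b₀ Y₁ ∧ ¬ PlusM d F a₀ b₀ Y₁ ∧ finrank F ↥Y₁ + k = n ∧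
        0 < finrank F ↥Y₁ ∧
        ∀ (W' : Submodule F (M d → F)) (m' : ℕ), W' ≤ Y₁ → MemEM d F a₀ b₀ m' W' →
          StabM (x : Matrix (M d) (M d) F) W' →
          B ⊔ W' ≤ Y ∧ MemEM d F a₀ b₀ (k + m') (B ⊔ W') ∧
            StabM (x : Matrix (M d) (M d) F) (B ⊔ W') := by
    intro B k hBY hBk hBnd hBplus hBst
    obtain ⟨Y₁, hY₁Y, hY₁nd, hinf, horth, hfr, hinv⟩ := hSubPerp F a₀ b₀ hab d Y B hnd hBnd hBY
    have hY₁st : StabM (x : Matrix (M d) (M d) F) Y₁ := hinv x hxiso hst hBst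
    obtain ⟨hsnd, hsinf, hsfr⟩ := hOrthSum F a₀ b₀ hab d B Y₁ hBnd hY₁nd horth
    have hsup : B ⊔ Y₁ = Y :=
      Submodule.eq_of_le_of_finrank_eq (sup_le hBY hY₁Y) (by rw [hsfr, hfr])
    have hY₁np : ¬ PlusM d F a₀ b₀ Y₁ := by
      intro hp
      apply hnp
      rw [← hsup]
      exact plus_sup (Cfsg.Agent.Lib.Helper44.NegPairs.minusQ (d - 1) F a₀ b₀) B Y₁ horth hsinf
        hsfr hBplus hp
    have hpos : 0 < finrank F ↥Y₁ := by
      by_contra h0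
      have h00 : finrank F ↥Y₁ = 0 := by omega
      apply hY₁np
      refine ⟨⊥, bot_le, ?_, by rw [finrank_bot, h00]⟩
      intro w hw
      rw [(Submodule.mem_bot F).1 hw]
      exact map_zero (Cfsg.Agent.Lib.Helper44.NegPairs.minusQ (d - 1) F a₀ b₀)
    refine ⟨Y₁, hY₁Y, hY₁st, hY₁nd, hY₁np, by omega, hpos, ?_⟩
    intro W' m' hW'Y₁ hW' hW'st
    obtain ⟨hW'fr, hW'nd, hW'np⟩ := hW'
    have horth' : ∀ u ∈ B, ∀ v ∈ W',
        polar (Cfsg.quadFormMinus (d - 1) F a₀ b₀) u v = 0 :=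
      fun u hu v hv => horth u hu v (hW'Y₁ hv)
    obtain ⟨hWnd, hWinf, hWfr⟩ := hOrthSum F a₀ b₀ hab d B W' hBnd hW'nd horth'
    refine ⟨sup_le hBY (hW'Y₁.trans hY₁Y), ⟨by rw [hWfr, hBk, hW'fr], hWnd, ?_⟩, ?_⟩
    · intro hp
      exact hW'np (hCan F a₀ b₀ hab d B W' hBnd hW'nd horth' hp hBplus)
    · show (B ⊔ W').map (Matrix.toLin' (x : Matrix (M d) (M d) F)) ≤ B ⊔ W'
      rw [Submodule.map_sup]
      exact sup_le_sup hBst hW'st
  by_cases hid : ∀ u ∈ Y, NL (x : Matrix (M d) (M d) F) u = 0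
  · obtain ⟨-, h2⟩ := hSubT F a₀ b₀ hab d m Y hnd (Nat.even_iff.2 hme) (by rw [hn]; exact hlt)
    obtain ⟨W, hWY, hW⟩ := h2 hm2
    refine ⟨W, hWY, hW, ?_⟩
    rintro _ ⟨w, hw, rfl⟩
    have h0 : NL (x : Matrix (M d) (M d) F) w = 0 := hid w (hWY hw)
    rw [Matrix.toLin'_apply, mulVec_eq, h0, add_zero]
    exact hw
  push_neg at hid
  obtain ⟨u₁, hu₁Y, hNu₁⟩ := hid
  have hcond' : n % 4 = 0 ∨ m % 4 = 2 := by
    rcases hcond with h | h | h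
    · exact Or.inl h
    · exact Or.inr h
    · exact absurd (h u₁ hu₁Y) hNu₁
  by_cases hℓ : ∀ w ∈ Y, Cfsg.Agent.Lib.Helper44.NegPairs.minusQ (d - 1) F a₀ b₀
      (NL (x : Matrix (M d) (M d) F) w) = 0
  · -- four-block
    obtain ⟨A, hAY, hA4, hAnd, hAplus, hAst⟩ :=
      peel_four (Cfsg.Agent.Lib.Helper44.NegPairs.minusQ (d - 1) F a₀ b₀)
        (x : Matrix (M d) (M d) F) hx hxx Y hst hnd hℓ u₁ hu₁Y hNu₁
    obtain ⟨Y₁, hY₁Y, hY₁st, hY₁nd, hY₁np, hY₁fr, hY₁pos, hglue⟩ :=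
      glue A 4 hAY hA4 hAnd hAplus hAst
    rcases Nat.lt_or_ge (n - 4) m with hbig | hsmall
    · have hm4 : m % 4 = 2 := by omega
      have hn8 : 8 ≤ n := by omega
      obtain ⟨W', hW'Y₁, hW', hW'st⟩ := ih (n - 4) (by omega) Y₁ (by omega) (by omega) hY₁st
        hY₁nd hY₁np (m - 4) (by omega) (by omega) (by omega) (Or.inr (Or.inl (by omega)))
      obtain ⟨h1, h2, h3⟩ := hglue W' (m - 4) hW'Y₁ hW' hW'st
      have e : 4 + (m - 4) = m := by omega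
      rw [e] at h2
      exact ⟨A ⊔ W', h1, h2, h3⟩
    · obtain ⟨W, hWY₁, hW, hWst⟩ := ih (n - 4) (by omega) Y₁ (by omega) (by omega) hY₁st
        hY₁nd hY₁np m hme hm2 hsmall (by omega)
      exact ⟨W, hWY₁.trans hY₁Y, hW, hWst⟩
  · -- swap plane
    push_neg at hℓ
    obtain ⟨u₀, hu₀Y, hγ⟩ := hℓ
    obtain ⟨T, hTY, hTts, hT1⟩ := hTsIn F a₀ b₀ hab d Y 1 hnd (by rw [hn]; omega)
    obtain ⟨s, hsT, hs0⟩ : ∃ s ∈ T, s ≠ 0 := by
      have hT : T ≠ ⊥ := by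
        intro h
        rw [h, finrank_bot] at hT1
        omega
      exact (Submodule.ne_bot_iff T).1 hT
    obtain ⟨u, huY, hu, hNu⟩ :=
      exists_sing (Cfsg.Agent.Lib.Helper44.NegPairs.minusQ (d - 1) F a₀ b₀)
        (x : Matrix (M d) (M d) F) hx hxx Y hnd s (hTY hsT) hs0 (hTts s hsT) u₀ hu₀Y hγ
    obtain ⟨H, hHY, hH2, hHnd, hHplus, hHst⟩ :=
      peel_swap (Cfsg.Agent.Lib.Helper44.NegPairs.minusQ (d - 1) F a₀ b₀)
        (x : Matrix (M d) (M d) F) hx hxx Y hst u huY hu hNu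
    obtain ⟨Y₁, hY₁Y, hY₁st, hY₁nd, hY₁np, hY₁fr, hY₁pos, hglue⟩ :=
      glue H 2 hHY hH2 hHnd hHplus hHst
    by_cases hm4 : m % 4 = 2
    · obtain ⟨W, hWY₁, hW, hWst⟩ := ih (n - 2) (by omega) Y₁ (by omega) (by omega) hY₁st
        hY₁nd hY₁np m hme hm2 (by omega) (Or.inr (Or.inl hm4))
      exact ⟨W, hWY₁.trans hY₁Y, hW, hWst⟩
    · obtain ⟨W', hW'Y₁, hW', hW'st⟩ := ih (n - 2) (by omega) Y₁ (by omega) (by omega) hY₁st
        hY₁nd hY₁np (m - 2) (by omega) (by omega) (by omega) (Or.inr (Or.inl (by omega)))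
      obtain ⟨h1, h2, h3⟩ := hglue W' (m - 2) hW'Y₁ hW' hW'st
      have e : 2 + (m - 2) = m := by omega
      rw [e] at h2
      exact ⟨H ⊔ W', h1, h2, h3⟩

end concrete

theorem main (hTop : Cfsg.Agent.Lib.Helper41.TMStmt.Top.{u})
    (hSubPerp : Cfsg.Agent.Lib.Helper41.TMStmt.SubPerp.{u})
    (hOrthSum : Cfsg.Agent.Lib.Helper41.TMStmt.OrthSum.{u})
    (hTsIn : Cfsg.Agent.Lib.Helper41.TMStmt.TsIn.{u})
    (hCan : Cfsg.Agent.Lib.Helper41.EMStmt.CancelM.{u})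
    (hSubT : Cfsg.Agent.Lib.Helper41.EMStmt.SubTypeE.{u}) :
    Cfsg.Agent.Lib.Helper41.EMStmt.C2Fix.{u} := by
  intro F _ _ a₀ b₀ hab _ d m hd hm2 hme hmd hcond x hxiso hxx
  obtain ⟨hnd, hnp⟩ := hTop F a₀ b₀ hab d
  have hfr : finrank F ↥(⊤ : Submodule F (M d → F)) = 2 * d := by
    rw [finrank_top, Module.finrank_fintype_fun_eq_card]
    simp [M]
    omega
  obtain ⟨W, -, hW, hWst⟩ := core hSubPerp hOrthSum hTsIn hCan hSubT a₀ b₀ hab d x hxiso hxx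
    (2 * d) ⊤ hfr (by omega) (by
      rintro _ ⟨v, -, rfl⟩
      exact Submodule.mem_top) hnd hnp m (Nat.even_iff.1 hme) hm2 (by omega) (by
      rcases hcond with h | h
      · left
        obtain ⟨k, hk⟩ := h
        omega
      · right; left; exact h)
  exact ⟨W, hW, hWst⟩

end Cfsg.Agent.Lib.Helper12.EMC2FIX
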