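import Mathlib
import Cfsg.Agent.Lib.Helper80.FTStmt
import Cfsg.Agent.S0034
import Cfsg.Agent.S0035

/-!
# S3999 / NSC: from the Frobenius complement to the Frobenius group
(`3`- and `5`-parts of the order, no element of order `15`).
-/

set_option autoImplicit false

universe u

namespace Cfsg.Agent.Lib.Helper12.FTNSC

open scoped Pointwise

theorem main : Cfsg.Agent.Lib.Helper80.FTStmt.NSC.{u} := by
  intro X _ _ C hC h3 h5 h15
  obtain ⟨-, hmod⟩ := Cfsg.Agent.S0034.result C hC
  obtain ⟨N, hN, hNn, hcompl⟩ := Cfsg.Agent.S0035.result C hC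
  have hcpos : 0 < Nat.card C := Nat.card_pos
  have hX : C.index * Nat.card C = Nat.card X := Subgroup.index_mul_card C
  have hNk : Nat.card N = C.index :=
    Nat.eq_of_mul_eq_mul_right hcpos (hcompl.card_mul_card.trans hX.symm)
  have hcop : (C.index).Coprime (Nat.card C) := by
    rw [Nat.coprime_comm, Nat.Coprime, Nat.gcd_rec, hmod, ← Nat.gcd_rec, Nat.gcd_one_right]
  have hk0 : C.index ≠ 0 := by
    intro h0
    rw [h0, zero_mul] at hX
    exact (Nat.card_pos (α := X)).ne hX
  have hd3 : 3 ∣ Nat.card C := Nat.dvd_of_factorization_pos (by rw [h3]; norm_num)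
  have hd5 : 5 ∣ Nat.card C := Nat.dvd_of_factorization_pos (by rw [h5]; norm_num)
  have hn3 : ¬ 3 ∣ C.index := by
    intro h
    have := Nat.dvd_gcd h hd3
    rw [hcop] at this
    omega
  have hn5 : ¬ 5 ∣ C.index := by
    intro h
    have := Nat.dvd_gcd h hd5
    rw [hcop] at this
    omega
  refine ⟨?_, ?_, ?_⟩
  · rw [← hX, Nat.factorization_mul hk0 hcpos.ne']
    simp [Nat.factorization_eq_zero_of_not_dvd hn3, h3]
  · rw [← hX, Nat.factorization_mul hk0 hcpos.ne']
    simp [Nat.factorization_eq_zero_of_not_dvd hn5, h5]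
  · intro x hx
    by_cases hxN : x ∈ N
    · have h1 : orderOf x ∣ Nat.card N := Subgroup.orderOf_dvd_natCard N hxN
      rw [hx, hNk] at h1
      exact hn3 ((by norm_num : 3 ∣ 15).trans h1)
    · have hxK : x ∉ Cfsg.frobeniusKernel C := by
        rw [← hN]; exact hxN
      have hxK' : ¬ (x = 1 ∨ ∀ g : X, x ∉ MulAut.conj g • C) := hxK
      push_neg at hxK'
      obtain ⟨-, g, hg⟩ := hxK'
      obtain ⟨y, hy, hyx⟩ := Subgroup.mem_smul_pointwise_iff_exists _ _ _ |>.1 hg
      have hyo : orderOf y = 15 := by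
        rw [← hx, ← hyx]
        exact ((MulAut.conj g).orderOf_eq y).symm
      apply h15 ⟨y, hy⟩
      rw [← hyo]
      exact Subgroup.orderOf_coe (⟨y, hy⟩ : C) |>.symm

end Cfsg.Agent.Lib.Helper12.FTNSC
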