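import Mathlib

set_option autoImplicit false

namespace Cfsg.Agent.Lib.Helper12.Mat2

/-- Tuples `(a, b, c, d)` of naturals standing for the matrix with rows `a b` and `c d`. -/
abbrev T := ℕ × ℕ × ℕ × ℕ

def one : T := (1, 0, 0, 1)

def tmul (q : ℕ) (x y : T) : T :=
  ((x.1 * y.1 + x.2.1 * y.2.2.1) % q, (x.1 * y.2.1 + x.2.1 * y.2.2.2) % q,
   (x.2.2.1 * y.1 + x.2.2.2 * y.2.2.1) % q, (x.2.2.1 * y.2.1 + x.2.2.2 * y.2.2.2) % q)

def scal (c : ℕ) : T := (c, 0, 0, c)

def toMat (q : ℕ) (x : T) : Matrix (Fin 2) (Fin 2) (ZMod q) :=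
  !![(x.1 : ZMod q), (x.2.1 : ZMod q); (x.2.2.1 : ZMod q), (x.2.2.2 : ZMod q)]

theorem toMat_one (q : ℕ) : toMat q one = 1 := by
  ext i j; fin_cases i <;> fin_cases j <;> simp [toMat, one]

theorem toMat_tmul (q : ℕ) (x y : T) : toMat q (tmul q x y) = toMat q x * toMat q y := by
  ext i j; fin_cases i <;> fin_cases j <;>
    simp [toMat, tmul, Matrix.mul_apply, Fin.sum_univ_two]

theorem toMat_scal (q c : ℕ) :
    toMat q (scal c) = (c : ZMod q) • (1 : Matrix (Fin 2) (Fin 2) (ZMod q)) := by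
  ext i j; fin_cases i <;> fin_cases j <;> simp [toMat, scal]

def red (q : ℕ) (x : T) : Prop := x.1 < q ∧ x.2.1 < q ∧ x.2.2.1 < q ∧ x.2.2.2 < q

theorem red_tmul {q : ℕ} (hq : 0 < q) (x y : T) : red q (tmul q x y) :=
  ⟨Nat.mod_lt _ hq, Nat.mod_lt _ hq, Nat.mod_lt _ hq, Nat.mod_lt _ hq⟩

theorem red_one {q : ℕ} (hq : 1 < q) : red q one :=
  ⟨hq, Nat.lt_of_succ_lt hq, Nat.lt_of_succ_lt hq, hq⟩

theorem toMat_inj {q : ℕ} {x y : T} (hx : red q x) (hy : red q y)
    (h : toMat q x = toMat q y) : x = y := by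
  have h00 := congrFun (congrFun h 0) 0
  have h01 := congrFun (congrFun h 0) 1
  have h10 := congrFun (congrFun h 1) 0
  have h11 := congrFun (congrFun h 1) 1
  simp only [toMat, Matrix.of_apply, Matrix.cons_val_zero, Matrix.cons_val_one,
    Matrix.cons_val', Matrix.cons_val_fin_one] at h00 h01 h10 h11
  rw [ZMod.natCast_eq_natCast_iff] at h00 h01 h10 h11
  obtain ⟨a, b, c, d⟩ := x
  obtain ⟨a', b', c', d'⟩ := y
  obtain ⟨h1, h2, h3, h4⟩ := hx
  obtain ⟨h1', h2', h3', h4'⟩ := hy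
  simp only [Prod.mk.injEq]
  exact ⟨Nat.ModEq.eq_of_lt_of_lt h00 h1 h1', Nat.ModEq.eq_of_lt_of_lt h01 h2 h2',
    Nat.ModEq.eq_of_lt_of_lt h10 h3 h3', Nat.ModEq.eq_of_lt_of_lt h11 h4 h4'⟩

def teq (x y : T) : Bool :=
  Nat.beq x.1 y.1 && Nat.beq x.2.1 y.2.1 && Nat.beq x.2.2.1 y.2.2.1 && Nat.beq x.2.2.2 y.2.2.2

theorem nbeq_iff (a b : ℕ) : Nat.beq a b = true ↔ a = b :=
  ⟨Nat.eq_of_beq_eq_true, fun h => h ▸ Nat.beq_refl a⟩

theorem teq_iff (x y : T) : teq x y = true ↔ x = y := by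
  obtain ⟨a, b, c, d⟩ := x
  obtain ⟨a', b', c', d'⟩ := y
  simp only [teq, Bool.and_eq_true, nbeq_iff, Prod.mk.injEq]
  tauto

def tmem (x : T) : List T → Bool
  | [] => false
  | y :: l => teq x y || tmem x l

theorem tmem_iff (x : T) (l : List T) : tmem x l = true ↔ x ∈ l := by
  induction l with
  | nil => simp [tmem]
  | cons y l ih => simp [tmem, teq_iff, ih]

def closedB (q : ℕ) (L gT : List T) : Bool :=
  L.all (fun x => gT.all (fun t => tmem (tmul q x t) L))

theorem closedB_spec {q : ℕ} {L gT : List T} (h : closedB q L gT = true) :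
    ∀ x ∈ L, ∀ t ∈ gT, tmul q x t ∈ L := by
  intro x hx t ht
  simp only [closedB, List.all_eq_true] at h
  exact (tmem_iff _ _).mp (h x hx t ht)

def nodupB : List T → Bool
  | [] => true
  | x :: l => !(tmem x l) && nodupB l

theorem nodupB_spec {l : List T} (h : nodupB l = true) : l.Nodup := by
  induction l with
  | nil => exact List.nodup_nil
  | cons x l ih =>
    simp only [nodupB, Bool.and_eq_true, Bool.not_eq_true'] at h
    refine List.nodup_cons.mpr ⟨?_, ih h.2⟩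
    intro hx
    rw [← tmem_iff] at hx
    rw [hx] at h
    exact absurd h.1 (by simp)

def freeB (q : ℕ) (x : T) : Bool :=
  teq x one || !(Nat.beq (((x.1 + (q - 1)) * (x.2.2.2 + (q - 1))) % q) ((x.2.1 * x.2.2.1) % q))

theorem freeB_spec {q : ℕ} (hq : 0 < q) {x : T} (h : freeB q x = true) :
    toMat q x = 1 ∨ (toMat q x - 1).det ≠ 0 := by
  simp only [freeB, Bool.or_eq_true, Bool.not_eq_true'] at h
  rcases h with h | h
  · left; rw [(teq_iff _ _).mp h, toMat_one]
  · right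
    intro hdet
    have hne : ((x.1 + (q - 1)) * (x.2.2.2 + (q - 1))) % q ≠ (x.2.1 * x.2.2.1) % q := by
      intro heq
      rw [heq] at h
      simp at h
    apply hne
    have : (((x.1 + (q - 1)) * (x.2.2.2 + (q - 1)) : ℕ) : ZMod q) =
        ((x.2.1 * x.2.2.1 : ℕ) : ZMod q) := by
      rw [Matrix.det_fin_two] at hdet
      simp only [toMat, Matrix.sub_apply, Matrix.of_apply, Matrix.cons_val_zero,
        Matrix.cons_val_one, Matrix.cons_val', Matrix.cons_val_fin_one, Matrix.one_apply_eq,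
        ne_eq, zero_ne_one, not_false_eq_true, Matrix.one_apply_ne, one_ne_zero, sub_zero] at hdet
      push_cast
      rw [Nat.cast_sub hq]
      simp only [CharP.cast_eq_zero, Nat.cast_one, zero_sub]
      linear_combination hdet
    exact (ZMod.natCast_eq_natCast_iff _ _ _).mp this

def evalW (q : ℕ) (gT : List T) : List ℕ → T
  | [] => one
  | i :: w => tmul q (gT.getD i one) (evalW q gT w)

theorem red_evalW {q : ℕ} (hq : 1 < q) (gT : List T) (w : List ℕ) : red q (evalW q gT w) := by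
  cases w with
  | nil => exact red_one hq
  | cons i w => exact red_tmul (by omega) _ _

section group

variable {q : ℕ}

local notation "GL2" => Matrix.GeneralLinearGroup (Fin 2) (ZMod q)
local notation "M2" => Matrix (Fin 2) (Fin 2) (ZMod q)

theorem inv_tuple {g : GL2} {t t' : T} (hg : (g : M2) = toMat q t) (h : tmul q t t' = one) :
    ((g⁻¹ : GL2) : M2) = toMat q t' := by
  apply Units.inv_eq_of_mul_eq_one_right
  rw [hg, ← toMat_tmul, h, toMat_one]

theorem closure_subset (gs : Set GL2) (L gT : List T) (h1 : one ∈ L)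
    (hg : ∀ g ∈ gs, (∃ t ∈ gT, (g : M2) = toMat q t) ∧
      (∃ t ∈ gT, ((g⁻¹ : GL2) : M2) = toMat q t))
    (hcl : ∀ x ∈ L, ∀ t ∈ gT, tmul q x t ∈ L) :
    ∀ h ∈ Subgroup.closure gs, ∃ x ∈ L, (h : M2) = toMat q x := by
  intro h hh
  induction hh using Subgroup.closure_induction_right with
  | one => exact ⟨one, h1, by rw [toMat_one]; rfl⟩
  | mul_right x hx y hy ih =>
    obtain ⟨u, hu, hxu⟩ := ih
    obtain ⟨⟨t, ht, hyt⟩, _⟩ := hg y hy
    exact ⟨tmul q u t, hcl u hu t ht, by rw [toMat_tmul, ← hxu, ← hyt]; rfl⟩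
  | mul_inv_cancel x hx y hy ih =>
    obtain ⟨u, hu, hxu⟩ := ih
    obtain ⟨_, ⟨t, ht, hyt⟩⟩ := hg y hy
    exact ⟨tmul q u t, hcl u hu t ht, by rw [toMat_tmul, ← hxu, ← hyt]; rfl⟩

theorem card_le (H : Subgroup GL2) (L : List T)
    (hH : ∀ h ∈ H, ∃ x ∈ L, (h : M2) = toMat q x) : Nat.card H ≤ L.length := by
  classical
  let F : Finset M2 := L.toFinset.image (toMat q)
  have hF : F.card ≤ L.length := (Finset.card_image_le).trans (List.toFinset_card_le L)
  refine le_trans ?_ hF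
  let f : H → F := fun h => ⟨((h : GL2) : M2), by
    obtain ⟨x, hx, hxe⟩ := hH h h.2
    rw [hxe]; exact Finset.mem_image_of_mem _ (List.mem_toFinset.mpr hx)⟩
  have hf : Function.Injective f := by
    intro a b hab
    have : ((a : GL2) : M2) = ((b : GL2) : M2) := congrArg Subtype.val hab
    exact Subtype.ext (Units.ext this)
  have := Nat.card_le_card_of_injective f hf
  simpa using this

theorem words_mem (gs : Set GL2) (gT : List T)
    (hgT : ∀ t ∈ gT, ∃ g ∈ gs, (g : M2) = toMat q t) (w : List ℕ) :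
    ∃ h ∈ Subgroup.closure gs, (h : M2) = toMat q (evalW q gT w) := by
  induction w with
  | nil => exact ⟨1, Subgroup.one_mem _, by simp [evalW, toMat_one]⟩
  | cons i w ih =>
    obtain ⟨h, hh, hhe⟩ := ih
    by_cases hi : i < gT.length
    · obtain ⟨g, hg, hge⟩ := hgT (gT.getD i one) (by
        rw [List.getD_eq_getElem _ _ hi]; exact List.getElem_mem hi)
      exact ⟨g * h, Subgroup.mul_mem _ (Subgroup.subset_closure hg) hh, by
        simp only [evalW]; rw [toMat_tmul, ← hge, ← hhe]; rfl⟩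
    · have : gT.getD i one = one := List.getD_eq_default _ _ (by omega)
      exact ⟨h, hh, by simp only [evalW]; rw [this, toMat_tmul, toMat_one, one_mul, hhe]⟩

theorem card_ge (hq : 1 < q) (gs : Set GL2) (gT : List T)
    (hgT : ∀ t ∈ gT, ∃ g ∈ gs, (g : M2) = toMat q t) (ws : List (List ℕ))
    (hnd : (ws.map (evalW q gT)).Nodup) : ws.length ≤ Nat.card (Subgroup.closure gs) := by
  classical
  haveI : NeZero q := ⟨by omega⟩
  have hex : ∀ i : Fin ws.length, ∃ h : Subgroup.closure gs,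
      ((h : GL2) : M2) = toMat q (evalW q gT (ws[i])) := by
    intro i
    obtain ⟨h, hh, hhe⟩ := words_mem gs gT hgT (ws[i])
    exact ⟨⟨h, hh⟩, hhe⟩
  choose f hf using hex
  have hinj : Function.Injective f := by
    intro i j hij
    have h1 : toMat q (evalW q gT (ws[i])) = toMat q (evalW q gT (ws[j])) := by
      rw [← hf i, ← hf j, hij]
    have h2 : evalW q gT (ws[i]) = evalW q gT (ws[j]) :=
      toMat_inj (red_evalW hq _ _) (red_evalW hq _ _) h1
    have hi : (i : ℕ) < (ws.map (evalW q gT)).length := by simp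
    have hj : (j : ℕ) < (ws.map (evalW q gT)).length := by simp
    have h3 : (ws.map (evalW q gT))[(i : ℕ)] = (ws.map (evalW q gT))[(j : ℕ)] := by
      simp only [List.getElem_map]
      exact h2
    exact Fin.ext ((hnd.getElem_inj_iff).mp h3)
  have := Nat.card_le_card_of_injective f hinj
  simpa using this

theorem regular [Fact q.Prime] (H : Subgroup GL2)
    (hfree : ∀ h ∈ H, ∃ x : T, (h : M2) = toMat q x ∧
      (toMat q x = 1 ∨ (toMat q x - 1).det ≠ 0))
    (hlower : q ^ 2 - 1 ≤ Nat.card H) :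
    Nat.card H = q ^ 2 - 1 ∧ ∀ v w : Fin 2 → ZMod q, v ≠ 0 → w ≠ 0 →
      ∃! h : H, Matrix.mulVec ((h : GL2) : M2) v = w := by
  classical
  have hq : q.Prime := Fact.out
  haveI : NeZero q := ⟨hq.ne_zero⟩
  have hfix : ∀ h ∈ H, ∀ v : Fin 2 → ZMod q, v ≠ 0 →
      Matrix.mulVec (h : M2) v = v → h = 1 := by
    intro h hh v hv hhv
    obtain ⟨x, hx, hx'⟩ := hfree h hh
    rcases hx' with hx' | hx'
    · apply Units.ext; rw [hx, hx']; rfl
    · exfalso; apply hx'
      rw [← Matrix.exists_mulVec_eq_zero_iff]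
      refine ⟨v, hv, ?_⟩
      rw [Matrix.sub_mulVec, Matrix.one_mulVec, ← hx, hhv, sub_self]
  have hne : ∀ (h : H) (v : Fin 2 → ZMod q), v ≠ 0 →
      Matrix.mulVec ((h : GL2) : M2) v ≠ 0 := by
    intro h v hv h0
    apply hv
    have := congrArg (Matrix.mulVec (((h : GL2)⁻¹ : GL2) : M2)) h0
    rw [Matrix.mulVec_mulVec, ← Units.val_mul, inv_mul_cancel] at this
    simpa using this
  have hVcard : Nat.card {w : Fin 2 → ZMod q // w ≠ 0} = q ^ 2 - 1 := by
    rw [Nat.card_eq_fintype_card, Fintype.card_subtype_compl, Fintype.card_fun, ZMod.card,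
      Fintype.card_fin]
    simp
  have hinj : ∀ v : {w : Fin 2 → ZMod q // w ≠ 0}, Function.Injective
      (fun h : H => (⟨Matrix.mulVec ((h : GL2) : M2) v.1, hne h v.1 v.2⟩ :
        {w : Fin 2 → ZMod q // w ≠ 0})) := by
    intro v h₁ h₂ h12
    have e : Matrix.mulVec ((h₁ : GL2) : M2) v.1 = Matrix.mulVec ((h₂ : GL2) : M2) v.1 :=
      congrArg Subtype.val h12
    have : (h₂⁻¹ * h₁ : H) = 1 := by
      have := hfix ((h₂⁻¹ * h₁ : H) : GL2) (h₂⁻¹ * h₁).2 v.1 v.2 (by
        rw [Subgroup.coe_mul, Units.val_mul, ← Matrix.mulVec_mulVec, e, Matrix.mulVec_mulVec,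
          ← Units.val_mul, Subgroup.coe_inv, inv_mul_cancel, Units.val_one, Matrix.one_mulVec])
      exact Subtype.ext this
    exact (inv_mul_eq_one.mp this).symm
  have v₀ : {w : Fin 2 → ZMod q // w ≠ 0} := ⟨fun _ => 1, by
    intro h
    have h1 : (1 : ZMod q) = 0 := congrFun h 0
    haveI : Fact (1 < q) := ⟨hq.one_lt⟩
    exact one_ne_zero h1⟩
  have hle : Nat.card H ≤ q ^ 2 - 1 := by
    rw [← hVcard]; exact Nat.card_le_card_of_injective _ (hinj v₀)
  have hcard : Nat.card H = q ^ 2 - 1 := le_antisymm hle hlower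
  refine ⟨hcard, ?_⟩
  intro v w hv hw
  have hbij : Function.Bijective (fun h : H => (⟨Matrix.mulVec ((h : GL2) : M2) v, hne h v hv⟩ :
      {w : Fin 2 → ZMod q // w ≠ 0})) := by
    rw [Nat.bijective_iff_injective_and_card]
    exact ⟨hinj ⟨v, hv⟩, by rw [hcard, hVcard]⟩
  obtain ⟨h, hh⟩ := hbij.2 ⟨w, hw⟩
  refine ⟨h, congrArg Subtype.val hh, ?_⟩
  intro h' hh'
  apply hbij.1
  apply Subtype.ext
  change Matrix.mulVec ((h' : GL2) : M2) v = Matrix.mulVec ((h : GL2) : M2) v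
  rw [hh']
  exact (congrArg Subtype.val hh).symm

/-- Packaged criterion: the listed words enumerate the group generated by `gs`,
which is then regular on nonzero vectors. -/
theorem main_list [Fact q.Prime] (gs : Set GL2) (gT gTi : List T) (ws : List (List ℕ))
    (hgT : ∀ t ∈ gT, ∃ g ∈ gs, (g : M2) = toMat q t)
    (hg : ∀ g ∈ gs, (∃ t ∈ gT ++ gTi, (g : M2) = toMat q t) ∧
      (∃ t ∈ gT ++ gTi, ((g⁻¹ : GL2) : M2) = toMat q t))
    (hone : tmem one (ws.map (evalW q gT)) = true)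
    (hcl : closedB q (ws.map (evalW q gT)) (gT ++ gTi) = true)
    (hnd : nodupB (ws.map (evalW q gT)) = true)
    (hfr : (ws.map (evalW q gT)).all (freeB q) = true)
    (hlen : ws.length = q ^ 2 - 1) :
    Nat.card (Subgroup.closure gs) = q ^ 2 - 1 ∧ ∀ v w : Fin 2 → ZMod q, v ≠ 0 → w ≠ 0 →
      ∃! h : Subgroup.closure gs, Matrix.mulVec ((h : GL2) : M2) v = w := by
  have hq : q.Prime := Fact.out
  have hsub := closure_subset gs (ws.map (evalW q gT)) (gT ++ gTi) ((tmem_iff _ _).mp hone) hg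
    (closedB_spec hcl)
  apply regular
  · intro h hh
    obtain ⟨x, hx, hxe⟩ := hsub h hh
    refine ⟨x, hxe, freeB_spec hq.pos ?_⟩
    rw [List.all_eq_true] at hfr
    exact hfr x hx
  · rw [← hlen]
    exact card_ge hq.one_lt gs gT hgT ws (nodupB_spec hnd)

end group

end Cfsg.Agent.Lib.Helper12.Mat2
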