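import Mathlib
import Cfsg.Agent.Lib.Helper37.PlusCnt
import Cfsg.Agent.Lib.Helper44.QCount
import Cfsg.Agent.Lib.Helper44.NegPairs
import Cfsg.Agent.Lib.Helper44.Inv6

/-!
# Singular vectors orthogonal to a totally singular frame, minus type (all characteristics)

Minus-type companion of `Cfsg.Agent.Lib.Helper37.PlusCnt`.  The "minus type" count
`q #Sing(V) + q^(k+1) = q^(2k) + q^k` (`dim V = 2 k`) is inherited by `⟨e, f⟩^⊥` for a hyperbolic
pair (`PlusCnt.card_sing_step`), and the singular vectors orthogonal to a totally singular frame of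
length `j` satisfy `q N + q^j q^(k-j+1) = q^j (q^(2(k-j)) + q^(k-j))`, i.e.
`N = q^(k-1) (q^(k-j) + 1 - q)`.  The standard minus form `Cfsg.quadFormMinus d F a b`
(dimension `2 (d + 1)`) has the minus type count.
-/

set_option autoImplicit false
set_option linter.style.haveILetI false
set_option linter.unusedSimpArgs false

universe u

namespace Cfsg.Agent.Lib.Helper12.MinusCnt

open Module QuadraticMap
open Cfsg.Agent.Lib.Helper44.Split Cfsg.Agent.Lib.Helper44.QSpace
open Cfsg.Agent.Lib.Helper37.PlusCnt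

section abstract

variable {F : Type u} [Field F] {V : Type u} [AddCommGroup V] [Module F V]

theorem card_perp_sing_minus [Fintype F] (j : ℕ) : ∀ (k : ℕ) (V : Type u) [AddCommGroup V]
    [Module F V] [FiniteDimensional F V] (Q : QuadraticForm F V), finrank F V = 2 * k →
    Sep Q →
    Fintype.card F * Nat.card {u : V // Q u = 0} + Fintype.card F ^ (k + 1) =
      Fintype.card F ^ (2 * k) + Fintype.card F ^ k →
    j ≤ k → ∀ e : Fin j → V, LinearIndependent F e → (∀ a, Q (e a) = 0) →
    (∀ a b, polar Q (e a) (e b) = 0) →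
    Fintype.card F * Nat.card {u : V // Q u = 0 ∧ ∀ a, polar Q (e a) u = 0} +
        Fintype.card F ^ j * Fintype.card F ^ (k - j + 1) =
      Fintype.card F ^ j *
        (Fintype.card F ^ (2 * (k - j)) + Fintype.card F ^ (k - j)) := by
  induction j with
  | zero =>
    intro k V _ _ _ Q hV hS hN _ e _ _ _
    have h0 : Nat.card {u : V // Q u = 0 ∧ ∀ a, polar Q (e a) u = 0} =
        Nat.card {u : V // Q u = 0} :=
      Nat.card_congr (Equiv.subtypeEquivRight
        (fun u => ⟨fun h => h.1, fun h => ⟨h, fun a => a.elim0⟩⟩))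
    rw [h0, pow_zero, one_mul, one_mul, Nat.sub_zero]
    exact hN
  | succ j ih =>
    intro k V _ _ _ Q hV hS hN hjk e hli he hee
    classical
    obtain ⟨k', rfl⟩ : ∃ k', k = k' + 1 := ⟨k - 1, by omega⟩
    have he0 : e 0 ≠ 0 := hli.ne_zero 0
    obtain ⟨f₀, hf₀, hef₀⟩ := exists_hyp_pair hS he0 (he 0)
    have hfe₀ : polar Q f₀ (e 0) = 1 := by rw [polar_comm]; exact hef₀
    have h00 : polar Q (e 0) (e 0) = 0 := hee 0 0
    have hdP0 := finrank_perp2' (he 0) hf₀ hef₀
    have hSP0 := sep_perp2 hS (he 0) hf₀ hef₀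
    obtain ⟨P, hP⟩ : ∃ P : Submodule F V, P = perp2 (polarBilin Q) (e 0) f₀ := ⟨_, rfl⟩
    rw [← hP] at hdP0 hSP0
    have hmemP : ∀ w : V, w ∈ P ↔ polar Q (e 0) w = 0 ∧ polar Q f₀ w = 0 := by
      intro w
      rw [hP, mem_perp2, pB_apply, pB_apply]
    have hdP : finrank F P = 2 * k' := by omega
    have hmem' : ∀ a : Fin j, e a.succ - polar Q (e a.succ) f₀ • e 0 ∈ P := by
      intro a
      rw [hmemP]
      constructor
      · rw [polar_sub_right, polar_smul_r, h00, mul_zero, sub_zero]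
        exact hee 0 a.succ
      · rw [polar_sub_right, polar_smul_r, hfe₀, mul_one, polar_comm Q f₀ (e a.succ), sub_self]
    obtain ⟨e', he'⟩ : ∃ e' : Fin j → P,
        ∀ a, (e' a : V) = e a.succ - polar Q (e a.succ) f₀ • e 0 :=
      ⟨fun a => ⟨_, hmem' a⟩, fun a => rfl⟩
    have hli' : LinearIndependent F e' := by
      rw [Fintype.linearIndependent_iff]
      intro g hg a
      have hg' : ∑ b, g b • (e' b : V) = 0 := by
        have := congrArg (fun w : P => (w : V)) hg
        simpa using this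
      have h1 : ∑ b, g b • (e' b : V) =
          (-(∑ b, g b * polar Q (e b.succ) f₀)) • e 0 + ∑ b, g b • e b.succ := by
        simp only [he', smul_sub, smul_smul, Finset.sum_sub_distrib, ← Finset.sum_smul, neg_smul]
        abel
      rw [Fintype.linearIndependent_iff] at hli
      have hG := hli (Fin.cons (-(∑ b, g b * polar Q (e b.succ) f₀)) g) (by
        rw [Fin.sum_univ_succ]
        simp only [Fin.cons_zero, Fin.cons_succ]
        rw [← h1]
        exact hg')
      have := hG a.succ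
      simpa using this
    have hQ' : ∀ a, res Q P (e' a) = 0 := by
      intro a
      rw [res_apply, he']
      have : e a.succ - polar Q (e a.succ) f₀ • e 0 =
          e a.succ + (-polar Q (e a.succ) f₀) • e 0 := by
        rw [neg_smul, sub_eq_add_neg]
      rw [this, q_add, q_smul, he 0, he a.succ, polar_smul_r, hee a.succ 0]
      ring
    have hpol' : ∀ a b, polar (res Q P) (e' a) (e' b) = 0 := by
      intro a b
      rw [polar_res, he', he']
      simp [polar_sub_left, polar_sub_right, polar_smul_l, polar_smul_r, hee]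
    have hstep := card_sing_step Q (e 0) f₀ (he 0) hf₀ hef₀ P hmemP
    have hcardP : Nat.card P = Fintype.card F ^ (2 * k') := by
      rw [Module.natCard_eq_pow_finrank (K := F), hdP, Nat.card_eq_fintype_card]
    have hq1 : 1 ≤ Fintype.card F := Fintype.card_pos
    have hNP : Fintype.card F * Nat.card {w : P // res Q P w = 0} + Fintype.card F ^ (k' + 1) =
        Fintype.card F ^ (2 * k') + Fintype.card F ^ k' := by
      rw [hcardP] at hstep
      apply Nat.eq_of_mul_eq_mul_left hq1
      zify [hq1] at hstep hN ⊢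
      linear_combination hN - (Fintype.card F : ℤ) * hstep
    have hIH := ih k' P (res Q P) hdP hSP0 hNP (by omega) e' hli' hQ' hpol'
    rw [card_peel Q e f₀ hef₀ he hee P hmemP e' he', Nat.add_sub_add_right]
    calc Fintype.card F * (Fintype.card F *
            Nat.card {w : P // res Q P w = 0 ∧ ∀ a, polar (res Q P) (e' a) w = 0}) +
          Fintype.card F ^ (j + 1) * Fintype.card F ^ (k' - j + 1)
        = Fintype.card F * (Fintype.card F *
            Nat.card {w : P // res Q P w = 0 ∧ ∀ a, polar (res Q P) (e' a) w = 0} +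
          Fintype.card F ^ j * Fintype.card F ^ (k' - j + 1)) := by ring
      _ = Fintype.card F ^ (j + 1) *
          (Fintype.card F ^ (2 * (k' - j)) + Fintype.card F ^ (k' - j)) := by
        rw [hIH]
        ring

end abstract

section concrete

variable {F : Type u} [Field F]

/-- the minus-type count for the standard form -/
theorem card_sing_minusQ [Fintype F] (d : ℕ) (a b : F)
    (hab : ∀ z₁ z₂ : F, z₁ ^ 2 + a * z₁ * z₂ + b * z₂ ^ 2 = 0 → z₁ = 0 ∧ z₂ = 0) :
    Fintype.card F *
        Nat.card {v : (Fin d ⊕ Fin d) ⊕ Fin 2 → F // Cfsg.quadFormMinus d F a b v = 0} +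
        Fintype.card F ^ (d + 1 + 1) =
      Fintype.card F ^ (2 * (d + 1)) + Fintype.card F ^ (d + 1) := by
  classical
  obtain ⟨R, hR⟩ : ∃ R : (Fin 2 → F) → F, ∀ w, R w = w 0 ^ 2 + a * w 0 * w 1 + b * w 1 ^ 2 :=
    ⟨fun w => w 0 ^ 2 + a * w 0 * w 1 + b * w 1 ^ 2, fun w => rfl⟩
  have hform : ∀ v : (Fin d ⊕ Fin d) ⊕ Fin 2 → F,
      Cfsg.Agent.Lib.Helper44.QCount.hypForm R v = Cfsg.quadFormMinus d F a b v := by
    intro v
    unfold Cfsg.Agent.Lib.Helper44.QCount.hypForm Cfsg.quadFormMinus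
    rw [hR]
    rfl
  have hc := Cfsg.Agent.Lib.Helper44.QCount.card_hypForm_mul (κ := Fin d) (τ := Fin 2) R (0 : F)
  have h1 : Nat.card {w : Fin 2 → F // R w = 0} = 1 := by
    rw [Nat.card_eq_one_iff_unique]
    refine ⟨⟨?_⟩, ⟨⟨0, by rw [hR]; simp⟩⟩⟩
    have key : ∀ w : Fin 2 → F, R w = 0 → w = 0 := by
      intro w hw
      rw [hR] at hw
      obtain ⟨h0, h1⟩ := hab (w 0) (w 1) hw
      funext t
      fin_cases t
      · exact h0
      · exact h1
    rintro ⟨w, hw⟩ ⟨w', hw'⟩
    apply Subtype.ext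
    show w = w'
    exact (key w hw).trans (key w' hw').symm
  have h2 : Nat.card {v : (Fin d ⊕ Fin d) ⊕ Fin 2 → F //
      Cfsg.Agent.Lib.Helper44.QCount.hypForm R v = 0} =
      Nat.card {v : (Fin d ⊕ Fin d) ⊕ Fin 2 → F // Cfsg.quadFormMinus d F a b v = 0} :=
    Nat.card_congr (Equiv.subtypeEquivRight (fun v => by rw [hform]))
  rw [h1, h2, one_mul, Fintype.card_fin, Fintype.card_fin] at hc
  have hA : 1 ≤ Fintype.card F ^ d := Nat.one_le_pow _ _ Fintype.card_pos
  obtain ⟨B, hB⟩ : ∃ B, Fintype.card F ^ d = B + 1 := ⟨Fintype.card F ^ d - 1, by omega⟩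
  rw [hB, Nat.add_sub_cancel] at hc
  have e1 : Fintype.card F ^ (d + 1 + 1) = (B + 1) * Fintype.card F ^ 2 := by
    rw [pow_add, pow_add, hB]
    ring
  have e2 : Fintype.card F ^ (2 * (d + 1)) = (B + 1) * (B + 1) * Fintype.card F ^ 2 := by
    rw [mul_add, pow_add, two_mul, pow_add, hB]
  have e3 : Fintype.card F ^ (d + 1) = (B + 1) * Fintype.card F := by
    rw [pow_succ, hB]
  rw [e3] at hc
  rw [e1, e2, e3, mul_comm (Fintype.card F), hc]
  ring

/-- the singular vectors orthogonal to a totally singular frame of length `j` in the standard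
minus space of dimension `2 (d + 1)` -/
theorem card_perp_sing_minusQ [Fintype F] (d j : ℕ) (hj : j ≤ d + 1) (a b : F)
    (hab : ∀ z₁ z₂ : F, z₁ ^ 2 + a * z₁ * z₂ + b * z₂ ^ 2 = 0 → z₁ = 0 ∧ z₂ = 0)
    (e : Fin j → (Fin d ⊕ Fin d) ⊕ Fin 2 → F) (hli : LinearIndependent F e)
    (he : ∀ c, Cfsg.quadFormMinus d F a b (e c) = 0)
    (hee : ∀ c c', polar (Cfsg.quadFormMinus d F a b) (e c) (e c') = 0) :
    Fintype.card F * Nat.card {u : (Fin d ⊕ Fin d) ⊕ Fin 2 → F //
          Cfsg.quadFormMinus d F a b u = 0 ∧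
            ∀ c, polar (Cfsg.quadFormMinus d F a b) (e c) u = 0} +
        Fintype.card F ^ j * Fintype.card F ^ (d + 1 - j + 1) =
      Fintype.card F ^ j *
        (Fintype.card F ^ (2 * (d + 1 - j)) + Fintype.card F ^ (d + 1 - j)) := by
  have hV : finrank F ((Fin d ⊕ Fin d) ⊕ Fin 2 → F) = 2 * (d + 1) := by
    rw [Module.finrank_fintype_fun_eq_card]
    simp
    omega
  by_cases h2 : (2 : F) = 0
  · haveI : CharP F 2 := CharTwo.of_one_ne_zero_of_two_eq_zero one_ne_zero h2
    exact card_perp_sing_minus j (d + 1) ((Fin d ⊕ Fin d) ⊕ Fin 2 → F)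
      (Cfsg.Agent.Lib.Helper44.NegPairs.minusQ d F a b) hV
      (Cfsg.Agent.Lib.Helper44.Inv6.sep_minusQ_two d a b hab) (card_sing_minusQ d a b hab) hj e
      hli he hee
  · exact card_perp_sing_minus j (d + 1) ((Fin d ⊕ Fin d) ⊕ Fin 2 → F)
      (Cfsg.Agent.Lib.Helper44.NegPairs.minusQ d F a b) hV
      (Cfsg.Agent.Lib.Helper44.NegPairs.sep_minusQ h2 d a b hab) (card_sing_minusQ d a b hab) hj e
      hli he hee

end concrete

end Cfsg.Agent.Lib.Helper12.MinusCnt
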