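import Mathlib

set_option autoImplicit false
namespace Cfsg.Agent.Lib.Helper12.MultTrans

open Equiv

variable {α : Type*} [Fintype α] [DecidableEq α]

omit [Fintype α] [DecidableEq α] in
theorem inv_apply_eq' (g : Perm α) {x y : α} (h : g x = y) : g⁻¹ y = x := by
  rw [Perm.inv_eq_iff_eq]; exact h.symm

/-- `H` is `k`-transitive on the complement of `S`. -/
def MT (H : Subgroup (Perm α)) (S : Finset α) (k : ℕ) : Prop :=
  ∀ x y : Fin k → α, Function.Injective x → Function.Injective y → (∀ i, x i ∉ S) →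
    (∀ i, y i ∉ S) → ∃ h ∈ H, ∀ i, h (x i) = y i

/-- `H` is transitive on the complement of `S`. -/
def Tr (H : Subgroup (Perm α)) (S : Finset α) : Prop :=
  ∀ x y : α, x ∉ S → y ∉ S → ∃ h ∈ H, h x = y

/-- The stabiliser of a point as a subgroup of the symmetric group. -/
def stab (H : Subgroup (Perm α)) (a : α) : Subgroup (Perm α) :=
  H ⊓ MulAction.stabilizer (Perm α) a

omit [Fintype α] [DecidableEq α] in
theorem mem_stab {H : Subgroup (Perm α)} {a : α} {h : Perm α} :
    h ∈ stab H a ↔ h ∈ H ∧ h a = a := by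
  simp [stab, Subgroup.mem_inf, MulAction.mem_stabilizer_iff]

theorem exists_avoid (T : Finset α) (h : T.card < Fintype.card α) : ∃ c, c ∉ T := by
  by_contra hcon
  push Not at hcon
  have h1 : T = Finset.univ := Finset.eq_univ_iff_forall.mpr hcon
  rw [h1, Finset.card_univ] at h
  exact lt_irrefl _ h

theorem exists_new (S : Finset α) {j : ℕ} (x : Fin j → α) (h : j + S.card < Fintype.card α) :
    ∃ c, c ∉ S ∧ c ∉ Set.range x := by
  obtain ⟨c, hc⟩ := exists_avoid (S ∪ Finset.univ.image x) (by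
    have h1 := Finset.card_union_le S (Finset.univ.image x)
    have h2 := Finset.card_image_le (s := (Finset.univ : Finset (Fin j))) (f := x)
    rw [Finset.card_univ, Fintype.card_fin] at h2
    omega)
  rw [Finset.mem_union, not_or] at hc
  refine ⟨c, hc.1, ?_⟩
  rintro ⟨i, rfl⟩
  exact hc.2 (Finset.mem_image_of_mem x (Finset.mem_univ i))

omit [Fintype α] [DecidableEq α] in
theorem notS {S : Finset α} {g : Perm α} (hfix : ∀ s ∈ S, g s = s) {c : α} (hc : c ∉ S) :
    g c ∉ S := by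
  intro h
  have h1 := hfix (g c) h
  exact hc (by rw [← g.injective h1]; exact h)

theorem MT_mono1 {H : Subgroup (Perm α)} {S : Finset α} {j : ℕ} (hMT : MT H S (j + 1))
    (hcard : j + S.card < Fintype.card α) : MT H S j := by
  intro x y hx hy hxS hyS
  obtain ⟨c, hcS, hcx⟩ := exists_new S x hcard
  obtain ⟨d, hdS, hdy⟩ := exists_new S y hcard
  obtain ⟨h, hh, hmap⟩ := hMT (Fin.cons c x) (Fin.cons d y)
    (Fin.cons_injective_iff.mpr ⟨hcx, hx⟩) (Fin.cons_injective_iff.mpr ⟨hdy, hy⟩)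
    (fun i => by
      refine Fin.cases ?_ (fun i => ?_) i
      · simpa using hcS
      · simpa using hxS i)
    (fun i => by
      refine Fin.cases ?_ (fun i => ?_) i
      · simpa using hdS
      · simpa using hyS i)
  exact ⟨h, hh, fun i => by simpa using hmap i.succ⟩

theorem MT_mono {H : Subgroup (Perm α)} {S : Finset α} (d : ℕ) :
    ∀ j : ℕ, MT H S (j + d) → j + d + S.card ≤ Fintype.card α → MT H S j := by
  induction d with
  | zero => intro j h _; exact h
  | succ d ih =>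
    intro j h hc
    exact MT_mono1 (ih (j + 1) (by rwa [show j + 1 + d = j + (d + 1) by omega]) (by omega))
      (by omega)

omit [Fintype α] in
theorem MT_stab {H : Subgroup (Perm α)} {S : Finset α} {j : ℕ} (hMT : MT H S (j + 1)) {a : α}
    (ha : a ∉ S) : MT (stab H a) (insert a S) j := by
  intro x y hx hy hxS hyS
  have hxa : ∀ i, x i ≠ a ∧ x i ∉ S := fun i => by
    have := hxS i; rwa [Finset.mem_insert, not_or] at this
  have hya : ∀ i, y i ≠ a ∧ y i ∉ S := fun i => by
    have := hyS i; rwa [Finset.mem_insert, not_or] at this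
  obtain ⟨h, hh, hmap⟩ := hMT (Fin.cons a x) (Fin.cons a y)
    (Fin.cons_injective_iff.mpr ⟨by rintro ⟨i, hi⟩; exact (hxa i).1 hi, hx⟩)
    (Fin.cons_injective_iff.mpr ⟨by rintro ⟨i, hi⟩; exact (hya i).1 hi, hy⟩)
    (fun i => by
      refine Fin.cases ?_ (fun i => ?_) i
      · simpa using ha
      · simpa using (hxa i).2)
    (fun i => by
      refine Fin.cases ?_ (fun i => ?_) i
      · simpa using ha
      · simpa using (hya i).2)
  refine ⟨h, mem_stab.mpr ⟨hh, by simpa using hmap 0⟩, fun i => by simpa using hmap i.succ⟩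

omit [Fintype α] in
theorem MT_succ {H : Subgroup (Perm α)} {S : Finset α} {j : ℕ} (hTr : Tr H S)
    (hfix : ∀ h ∈ H, ∀ s ∈ S, h s = s) {a : α} (ha : a ∉ S)
    (hMT : MT (stab H a) (insert a S) j) : MT H S (j + 1) := by
  intro x y hx hy hxS hyS
  obtain ⟨h₁, hh₁, e₁⟩ := hTr (x 0) a (hxS 0) ha
  obtain ⟨h₂, hh₂, e₂⟩ := hTr (y 0) a (hyS 0) ha
  obtain ⟨h₃, hh₃, e₃⟩ := hMT (fun i => h₁ (x i.succ)) (fun i => h₂ (y i.succ))
    (h₁.injective.comp (hx.comp (Fin.succ_injective _)))
    (h₂.injective.comp (hy.comp (Fin.succ_injective _)))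
    (fun i => by
      rw [Finset.mem_insert, not_or]
      refine ⟨fun h => ?_, notS (hfix h₁ hh₁) (hxS _)⟩
      rw [← e₁] at h
      exact Fin.succ_ne_zero i (hx (h₁.injective h)))
    (fun i => by
      rw [Finset.mem_insert, not_or]
      refine ⟨fun h => ?_, notS (hfix h₂ hh₂) (hyS _)⟩
      rw [← e₂] at h
      exact Fin.succ_ne_zero i (hy (h₂.injective h)))
  obtain ⟨hh₃H, hh₃a⟩ := mem_stab.mp hh₃
  refine ⟨h₂⁻¹ * h₃ * h₁, H.mul_mem (H.mul_mem (H.inv_mem hh₂) hh₃H) hh₁, fun i => ?_⟩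
  refine Fin.cases ?_ (fun i => ?_) i
  · rw [Perm.mul_apply, Perm.mul_apply, e₁, hh₃a]
    exact inv_apply_eq' h₂ e₂
  · rw [Perm.mul_apply, Perm.mul_apply, e₃ i]
    exact inv_apply_eq' h₂ rfl

omit [Fintype α] [DecidableEq α] in
theorem MT_one_of_Tr {H : Subgroup (Perm α)} {S : Finset α} (hTr : Tr H S) : MT H S 1 := by
  intro x y _ _ hxS hyS
  obtain ⟨h, hh, e⟩ := hTr (x 0) (y 0) (hxS 0) (hyS 0)
  refine ⟨h, hh, fun i => ?_⟩
  have hi : i = 0 := Subsingleton.elim _ _
  rw [hi]; exact e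

omit [Fintype α] [DecidableEq α] in
theorem MT.two {H : Subgroup (Perm α)} {S : Finset α} (h : MT H S 2) {a b c d : α} (ha : a ∉ S)
    (hb : b ∉ S) (hc : c ∉ S) (hd : d ∉ S) (hab : a ≠ b) (hcd : c ≠ d) :
    ∃ g ∈ H, g a = c ∧ g b = d := by
  obtain ⟨g, hg, hmap⟩ := h ![a, b] ![c, d]
    (by intro i j hij; fin_cases i <;> fin_cases j <;> simp_all)
    (by intro i j hij; fin_cases i <;> fin_cases j <;> simp_all)
    (by intro i; fin_cases i <;> simp_all)
    (by intro i; fin_cases i <;> simp_all)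
  exact ⟨g, hg, by simpa using hmap 0, by simpa using hmap 1⟩

omit [Fintype α] [DecidableEq α] in
theorem MT.three {H : Subgroup (Perm α)} {S : Finset α} (h : MT H S 3) {a b c a' b' c' : α}
    (ha : a ∉ S) (hb : b ∉ S) (hc : c ∉ S) (ha' : a' ∉ S) (hb' : b' ∉ S) (hc' : c' ∉ S)
    (hab : a ≠ b) (hac : a ≠ c) (hbc : b ≠ c) (hab' : a' ≠ b') (hac' : a' ≠ c') (hbc' : b' ≠ c') :
    ∃ g ∈ H, g a = a' ∧ g b = b' ∧ g c = c' := by
  obtain ⟨g, hg, hmap⟩ := h ![a, b, c] ![a', b', c']
    (by intro i j hij; fin_cases i <;> fin_cases j <;> simp_all)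
    (by intro i j hij; fin_cases i <;> fin_cases j <;> simp_all)
    (by intro i; fin_cases i <;> simp_all)
    (by intro i; fin_cases i <;> simp_all)
  exact ⟨g, hg, by simpa using hmap 0, by simpa using hmap 1, by simpa using hmap 2⟩

omit [Fintype α] [DecidableEq α] in
theorem MT.four {H : Subgroup (Perm α)} {S : Finset α} (h : MT H S 4) {a b c d a' b' c' d' : α}
    (ha : a ∉ S) (hb : b ∉ S) (hc : c ∉ S) (hd : d ∉ S)
    (ha' : a' ∉ S) (hb' : b' ∉ S) (hc' : c' ∉ S) (hd' : d' ∉ S)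
    (hab : a ≠ b) (hac : a ≠ c) (had : a ≠ d) (hbc : b ≠ c) (hbd : b ≠ d) (hcd : c ≠ d)
    (hab' : a' ≠ b') (hac' : a' ≠ c') (had' : a' ≠ d') (hbc' : b' ≠ c') (hbd' : b' ≠ d')
    (hcd' : c' ≠ d') :
    ∃ g ∈ H, g a = a' ∧ g b = b' ∧ g c = c' ∧ g d = d' := by
  obtain ⟨g, hg, hmap⟩ := h ![a, b, c, d] ![a', b', c', d']
    (by intro i j hij; fin_cases i <;> fin_cases j <;> simp_all)
    (by intro i j hij; fin_cases i <;> fin_cases j <;> simp_all)
    (by intro i; fin_cases i <;> simp_all)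
    (by intro i; fin_cases i <;> simp_all)
  exact ⟨g, hg, by simpa using hmap 0, by simpa using hmap 1, by simpa using hmap 2,
    by simpa using hmap 3⟩

omit [Fintype α] [DecidableEq α] in
/-- A non-trivial normal subgroup of a 2-transitive group is transitive. -/
theorem Tr_of_normal {G N : Subgroup (Perm α)} {S : Finset α}
    (hfix : ∀ g ∈ G, ∀ s ∈ S, g s = s) (hMT2 : MT G S 2) (hNG : N ≤ G)
    (hnorm : ∀ g ∈ G, ∀ n ∈ N, g * n * g⁻¹ ∈ N) (hN : N ≠ ⊥) : Tr N S := by
  obtain ⟨⟨n, hn⟩, hn1⟩ := (Subgroup.ne_bot_iff_exists_ne_one).mp hN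
  have hn1' : n ≠ 1 := fun h => hn1 (Subtype.ext h)
  obtain ⟨c, hc⟩ : ∃ c, n c ≠ c := by
    by_contra hcon
    push Not at hcon
    exact hn1' (Perm.ext hcon)
  have hcS : c ∉ S := fun h => hc (hfix n (hNG hn) c h)
  have hdS : n c ∉ S := notS (hfix n (hNG hn)) hcS
  intro x y hx hy
  by_cases hxy : x = y
  · exact ⟨1, N.one_mem, hxy⟩
  · obtain ⟨g, hg, h1, h2⟩ := hMT2.two hcS hdS hx hy (Ne.symm hc) hxy
    refine ⟨g * n * g⁻¹, hnorm g hg n hn, ?_⟩
    rw [Perm.mul_apply, Perm.mul_apply, inv_apply_eq' g h1, h2]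

omit [Fintype α] [DecidableEq α] in
/-- An element of `G` fixing `a` and `n a` commutes with `n`, when `N` is semiregular. -/
theorem comm_of_fix {G N : Subgroup (Perm α)} {S : Finset α}
    (hnorm : ∀ g ∈ G, ∀ n ∈ N, g * n * g⁻¹ ∈ N)
    (hsemi : ∀ n ∈ N, ∀ c, c ∉ S → n c = c → n = 1)
    {g n : Perm α} (hg : g ∈ G) (hn : n ∈ N) {a : α} (ha : a ∉ S) (hga : g a = a)
    (hgna : g (n a) = n a) : g * n = n * g := by
  have hm : g * n * g⁻¹ ∈ N := hnorm g hg n hn
  have h1 : n⁻¹ * (g * n * g⁻¹) = 1 := by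
    refine hsemi _ (N.mul_mem (N.inv_mem hn) hm) a ha ?_
    rw [Perm.mul_apply, Perm.mul_apply, Perm.mul_apply, inv_apply_eq' g hga, hgna]
    exact inv_apply_eq' n rfl
  have h2 : n = g * n * g⁻¹ := inv_mul_eq_one.mp h1
  calc g * n = (g * n * g⁻¹) * g := by group
    _ = n * g := by rw [← h2]

/-- A regular normal subgroup of a 3-transitive group of degree at least 4 has exponent 2. -/
theorem regular_sq {G N : Subgroup (Perm α)} {S : Finset α}
    (hfix : ∀ g ∈ G, ∀ s ∈ S, g s = s) (hMT3 : MT G S 3) (hcard : 3 + S.card < Fintype.card α)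
    (hNG : N ≤ G) (hnorm : ∀ g ∈ G, ∀ n ∈ N, g * n * g⁻¹ ∈ N)
    (hsemi : ∀ n ∈ N, ∀ c, c ∉ S → n c = c → n = 1) : ∀ n ∈ N, n * n = 1 := by
  intro n hn
  by_contra hn2
  obtain ⟨a, ha⟩ := exists_avoid S (by omega)
  have hn1 : n ≠ 1 := by rintro rfl; exact hn2 (mul_one 1)
  have hfn := hfix n (hNG hn)
  have hfn' := hfix n⁻¹ (hNG (N.inv_mem hn))
  have hbS : n a ∉ S := notS hfn ha
  have hb'S : n⁻¹ a ∉ S := notS hfn' ha
  have hab : a ≠ n a := fun h => hn1 (hsemi n hn a ha h.symm)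
  have hab' : a ≠ n⁻¹ a := by
    intro h
    apply hn1
    apply hsemi n hn a ha
    rw [Perm.eq_inv_iff_eq] at h
    exact h
  have hbb' : n a ≠ n⁻¹ a := by
    intro h
    apply hn2
    apply hsemi (n * n) (N.mul_mem hn hn) a ha
    rw [Perm.mul_apply, h]
    simp
  obtain ⟨c, hc⟩ := exists_avoid (insert a (insert (n a) (insert (n⁻¹ a) S))) (by
    have h1 := Finset.card_insert_le a (insert (n a) (insert (n⁻¹ a) S))
    have h2 := Finset.card_insert_le (n a) (insert (n⁻¹ a) S)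
    have h3 := Finset.card_insert_le (n⁻¹ a) S
    omega)
  simp only [Finset.mem_insert, not_or] at hc
  obtain ⟨hca, hcb, hcb', hcS⟩ := hc
  obtain ⟨g, hg, h1, h2, h3⟩ := hMT3.three ha hbS hb'S ha hbS hcS hab hab' hbb' hab
    (Ne.symm hca) (Ne.symm hcb)
  have hcomm := comm_of_fix hnorm hsemi hg hn ha h1 h2
  have h4 := congrArg (fun t : Perm α => t (n⁻¹ a)) hcomm
  simp only [Perm.mul_apply] at h4
  rw [h3] at h4
  have h5 : n (n⁻¹ a) = a := by simp
  rw [h5, h1] at h4
  apply hcb'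
  rw [Perm.eq_inv_iff_eq]
  exact h4.symm

/-- A 4-transitive group of degree at least 5 has no regular normal subgroup. -/
theorem regular_four {G N : Subgroup (Perm α)} {S : Finset α}
    (hfix : ∀ g ∈ G, ∀ s ∈ S, g s = s) (hMT4 : MT G S 4) (hcard : 4 + S.card < Fintype.card α)
    (hNG : N ≤ G) (hnorm : ∀ g ∈ G, ∀ n ∈ N, g * n * g⁻¹ ∈ N)
    (hsemi : ∀ n ∈ N, ∀ c, c ∉ S → n c = c → n = 1) (hTr : Tr N S) : False := by
  obtain ⟨a, ha⟩ := exists_avoid S (by omega)
  obtain ⟨b, hb⟩ := exists_avoid (insert a S) (by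
    have h1 := Finset.card_insert_le a S
    omega)
  simp only [Finset.mem_insert, not_or] at hb
  obtain ⟨hba, hbS⟩ := hb
  obtain ⟨n, hn, hnab⟩ := hTr a b ha hbS
  have hn1 : n ≠ 1 := by rintro rfl; exact hba hnab.symm
  have hfn := hfix n (hNG hn)
  obtain ⟨c, hc⟩ := exists_avoid (insert a (insert b (insert (n⁻¹ a) S))) (by
    have h1 := Finset.card_insert_le a (insert b (insert (n⁻¹ a) S))
    have h2 := Finset.card_insert_le b (insert (n⁻¹ a) S)
    have h3 := Finset.card_insert_le (n⁻¹ a) S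
    omega)
  simp only [Finset.mem_insert, not_or] at hc
  obtain ⟨hca, hcb, hcna, hcS⟩ := hc
  have hdS : n c ∉ S := notS hfn hcS
  have hda : n c ≠ a := by
    intro h
    apply hcna
    rw [Perm.eq_inv_iff_eq]; exact h
  have hdb : n c ≠ b := by
    intro h
    rw [← hnab] at h
    exact hca (n.injective h)
  have hdc : n c ≠ c := fun h => hn1 (hsemi n hn c hcS h)
  obtain ⟨e, he⟩ := exists_avoid (insert a (insert b (insert c (insert (n c) S)))) (by
    have h1 := Finset.card_insert_le a (insert b (insert c (insert (n c) S)))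
    have h2 := Finset.card_insert_le b (insert c (insert (n c) S))
    have h3 := Finset.card_insert_le c (insert (n c) S)
    have h4 := Finset.card_insert_le (n c) S
    omega)
  simp only [Finset.mem_insert, not_or] at he
  obtain ⟨hea, heb, hec, hed, heS⟩ := he
  obtain ⟨g, hg, h1, h2, h3, h4⟩ := hMT4.four ha hbS hcS hdS ha hbS hcS heS (Ne.symm hba)
    (Ne.symm hca) (Ne.symm hda) (Ne.symm hcb) (Ne.symm hdb) (Ne.symm hdc) (Ne.symm hba)
    (Ne.symm hca) (Ne.symm hea) (Ne.symm hcb) (Ne.symm heb) (Ne.symm hec)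
  have hcomm := comm_of_fix hnorm hsemi hg hn ha h1 (by rw [hnab]; exact h2)
  have h5 := congrArg (fun t : Perm α => t c) hcomm
  simp only [Perm.mul_apply] at h5
  rw [h4, h3] at h5
  exact hed h5

omit [Fintype α] [DecidableEq α] in
/-- A transitive abelian group is semiregular. -/
theorem semi_of_comm {N : Subgroup (Perm α)} {S : Finset α}
    (hfixN : ∀ n ∈ N, ∀ s ∈ S, n s = s) (hTr : Tr N S)
    (hcomm : ∀ m ∈ N, ∀ n ∈ N, m * n = n * m) :
    ∀ n ∈ N, ∀ c, c ∉ S → n c = c → n = 1 := by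
  intro n hn c hc hnc
  ext x
  by_cases hx : x ∈ S
  · exact hfixN n hn x hx
  · obtain ⟨m, hm, hmc⟩ := hTr c x hc hx
    have h1 := congrArg (fun t : Perm α => t c) (hcomm n hn m hm)
    simp only [Perm.mul_apply] at h1
    rw [hnc, hmc] at h1
    exact h1

/-- The point stabilisers of `N` cannot all be regular elementary abelian 2-groups of order at
least 4. -/
theorem klein {N : Subgroup (Perm α)} {S : Finset α} (hcard : 4 + S.card < Fintype.card α)
    (hTr' : ∀ a, a ∉ S → Tr (stab N a) (insert a S))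
    (hsemi' : ∀ a, a ∉ S → ∀ n ∈ stab N a, ∀ c, c ∉ insert a S → n c = c → n = 1)
    (hcomm' : ∀ a, a ∉ S → ∀ m ∈ stab N a, ∀ n ∈ stab N a, m * n = n * m)
    (hexp' : ∀ a, a ∉ S → ∀ n ∈ stab N a, n * n = 1) : False := by
  obtain ⟨a, ha⟩ := exists_avoid S (by omega)
  obtain ⟨c, hc⟩ := exists_avoid (insert a S) (by
    have h1 := Finset.card_insert_le a S
    omega)
  obtain ⟨d, hd⟩ := exists_avoid (insert c (insert a S)) (by
    have h1 := Finset.card_insert_le a S
    have h2 := Finset.card_insert_le c (insert a S)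
    omega)
  obtain ⟨e, he⟩ := exists_avoid (insert d (insert c (insert a S))) (by
    have h1 := Finset.card_insert_le a S
    have h2 := Finset.card_insert_le c (insert a S)
    have h3 := Finset.card_insert_le d (insert c (insert a S))
    omega)
  have hc' := hc
  have hd' := hd
  have he' := he
  simp only [Finset.mem_insert, not_or] at hc' hd' he'
  obtain ⟨hca, hcS⟩ := hc'
  obtain ⟨hdc, hda, hdS⟩ := hd'
  obtain ⟨hed, hec, hea, heS⟩ := he'
  have hdaS : d ∉ insert a S := by simp [hda, hdS]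
  have heaS : e ∉ insert a S := by simp [hea, heS]
  have hdcS : d ∉ insert c S := by simp [hdc, hdS]
  have hecS : e ∉ insert c S := by simp [hec, heS]
  have hedS : e ∉ insert d S := by simp [hed, heS]
  obtain ⟨t₁, ht₁, e₁⟩ := hTr' a ha c d hc hdaS
  obtain ⟨t₂, ht₂, e₂⟩ := hTr' a ha c e hc heaS
  have ht₁sq : t₁ (t₁ c) = c := by
    have := congrArg (fun t : Perm α => t c) (hexp' a ha t₁ ht₁)
    simpa using this
  have ht₂sq : t₂ (t₂ c) = c := by
    have := congrArg (fun t : Perm α => t c) (hexp' a ha t₂ ht₂)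
    simpa using this
  have h12 := hcomm' a ha t₁ ht₁ t₂ ht₂
  have h3d : (t₁ * t₂) d = e := by
    rw [h12, Perm.mul_apply, ← e₁, ht₁sq, e₂]
  have h3e : (t₁ * t₂) e = d := by
    rw [Perm.mul_apply, ← e₂, ht₂sq, e₁]
  obtain ⟨u, hu, eu⟩ := hTr' c hcS d e hdcS hecS
  have husq : u (u d) = d := by
    have := congrArg (fun t : Perm α => t d) (hexp' c hcS u hu)
    simpa using this
  have hue : u e = d := by rw [← eu]; exact husq
  have hw : u⁻¹ * (t₁ * t₂) = 1 := by
    refine hsemi' d hdS (u⁻¹ * (t₁ * t₂)) ?_ e hedS ?_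
    · rw [mem_stab]
      refine ⟨N.mul_mem (N.inv_mem (mem_stab.mp hu).1)
        (N.mul_mem (mem_stab.mp ht₁).1 (mem_stab.mp ht₂).1), ?_⟩
      rw [Perm.mul_apply, h3d]
      exact inv_apply_eq' u eu
    · rw [Perm.mul_apply, h3e]
      exact inv_apply_eq' u hue
  have h3u : t₁ * t₂ = u := (inv_mul_eq_one.mp hw).symm
  have h3c : (t₁ * t₂) c = c := by rw [h3u]; exact (mem_stab.mp hu).2
  rw [Perm.mul_apply, e₂] at h3c
  have : t₁ e = t₁ d := by rw [h3c, ← e₁, ht₁sq]
  exact hed (t₁.injective this)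

theorem main (j : ℕ) : ∀ (S : Finset α) (G N : Subgroup (Perm α)),
    (∀ g ∈ G, ∀ s ∈ S, g s = s) → MT G S (j + 2) → j + 2 + S.card < Fintype.card α → N ≤ G →
    (∀ g ∈ G, ∀ n ∈ N, g * n * g⁻¹ ∈ N) → N ≠ ⊥ →
    MT N S (j + 1) ∨
      (j + 2 = 3 ∧ (∀ m ∈ N, ∀ n ∈ N, m * n = n * m) ∧ ∀ n ∈ N, n * n = 1) := by
  induction j with
  | zero =>
    intro S G N hfix hMT hcard hNG hnorm hN
    left
    exact MT_one_of_Tr (Tr_of_normal hfix hMT hNG hnorm hN)
  | succ j ih =>
    intro S G N hfix hMT hcard hNG hnorm hN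
    have hMT3 : MT G S 3 := MT_mono j 3 (by rwa [show 3 + j = j + 1 + 2 by omega]) (by omega)
    have hMT2 : MT G S 2 := MT_mono1 hMT3 (by omega)
    have hTrN : Tr N S := Tr_of_normal hfix hMT2 hNG hnorm hN
    have hfixN : ∀ n ∈ N, ∀ s ∈ S, n s = s := fun n hn => hfix n (hNG hn)
    by_cases hreg : ∃ a, a ∉ S ∧ stab N a = ⊥
    · obtain ⟨a, haS, hNa⟩ := hreg
      have hsemi : ∀ n ∈ N, ∀ c, c ∉ S → n c = c → n = 1 := by
        intro n hn c hc hnc
        obtain ⟨m, hm, hmac⟩ := hTrN a c haS hc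
        have h1 : m⁻¹ * n * m ∈ stab N a := by
          rw [mem_stab]
          refine ⟨N.mul_mem (N.mul_mem (N.inv_mem hm) hn) hm, ?_⟩
          rw [Perm.mul_apply, Perm.mul_apply, hmac, hnc]
          exact inv_apply_eq' m hmac
        rw [hNa, Subgroup.mem_bot] at h1
        calc n = m * (m⁻¹ * n * m) * m⁻¹ := by group
          _ = 1 := by rw [h1]; group
      by_cases hj : j = 0
      · subst hj
        right
        have hsq := regular_sq hfix hMT3 (by omega) hNG hnorm hsemi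
        refine ⟨rfl, ?_, hsq⟩
        intro m hm n hn
        have h1 := hsq (m * n) (N.mul_mem hm hn)
        have h2 := hsq m hm
        have h3 := hsq n hn
        calc m * n = m * (m * n * (m * n)) * n := by rw [h1, mul_one]
          _ = (m * m) * (n * m) * (n * n) := by group
          _ = n * m := by rw [h2, h3, one_mul, mul_one]
      · exfalso
        have hMT4 : MT G S 4 :=
          MT_mono (j - 1) 4 (by rwa [show 4 + (j - 1) = j + 1 + 2 by omega]) (by omega)
        exact regular_four hfix hMT4 (by omega) hNG hnorm hsemi hTrN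
    · push Not at hreg
      have hstabfix : ∀ a, ∀ g ∈ stab G a, ∀ s ∈ insert a S, g s = s := by
        intro a g hg s hs
        obtain ⟨hgG, hga⟩ := mem_stab.mp hg
        rw [Finset.mem_insert] at hs
        rcases hs with rfl | hs
        · exact hga
        · exact hfix g hgG s hs
      have hstable : ∀ a, stab N a ≤ stab G a := by
        intro a n hn
        obtain ⟨hnN, hna⟩ := mem_stab.mp hn
        exact mem_stab.mpr ⟨hNG hnN, hna⟩
      have hstabnorm : ∀ a, ∀ g ∈ stab G a, ∀ n ∈ stab N a, g * n * g⁻¹ ∈ stab N a := by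
        intro a g hg n hn
        obtain ⟨hgG, hga⟩ := mem_stab.mp hg
        obtain ⟨hnN, hna⟩ := mem_stab.mp hn
        refine mem_stab.mpr ⟨hnorm g hgG n hnN, ?_⟩
        rw [Perm.mul_apply, Perm.mul_apply, inv_apply_eq' g hga, hna, hga]
      have hIH : ∀ a, a ∉ S → MT (stab N a) (insert a S) (j + 1) ∨
          (j + 2 = 3 ∧ (∀ m ∈ stab N a, ∀ n ∈ stab N a, m * n = n * m) ∧
            ∀ n ∈ stab N a, n * n = 1) := by
        intro a ha
        refine ih (insert a S) (stab G a) (stab N a) (hstabfix a) (MT_stab hMT ha) ?_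
          (hstable a) (hstabnorm a) (hreg a ha)
        rw [Finset.card_insert_of_notMem ha]
        omega
      by_cases hex : ∃ a, a ∉ S ∧ MT (stab N a) (insert a S) (j + 1)
      · obtain ⟨a, ha, hMTa⟩ := hex
        left
        exact MT_succ hTrN hfixN ha hMTa
      · exfalso
        push Not at hex
        have hall := fun a ha => (hIH a ha).resolve_left (hex a ha)
        obtain ⟨a₀, ha₀⟩ := exists_avoid S (by omega)
        have hj : j = 1 := by have := (hall a₀ ha₀).1; omega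
        subst hj
        have hTr' : ∀ a, a ∉ S → Tr (stab N a) (insert a S) := by
          intro a ha
          refine Tr_of_normal (hstabfix a) ?_ (hstable a) (hstabnorm a) (hreg a ha)
          have h3 : MT (stab G a) (insert a S) 3 := MT_stab hMT ha
          exact MT_mono1 h3 (by rw [Finset.card_insert_of_notMem ha]; omega)
        have hsemi' : ∀ a, a ∉ S → ∀ n ∈ stab N a, ∀ c, c ∉ insert a S → n c = c → n = 1 := by
          intro a ha
          exact semi_of_comm (fun n hn => hstabfix a n (hstable a hn)) (hTr' a ha)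
            (hall a ha).2.1
        exact klein (by omega) hTr' hsemi' (fun a ha => (hall a ha).2.1)
          (fun a ha => (hall a ha).2.2)

/-- Jordan's Theorem on normal subgroups of multiply transitive groups: if `G` is `k`-transitive (`k > 1`) of degree greater than `k`, a non-trivial normal subgroup is `(k-1)`-transitive, except possibly for `k = 3` when it may be an elementary abelian 2-group. -/
theorem jordan_normal (G : Subgroup (Equiv.Perm α)) {k : ℕ} (hk : 1 < k) (hdeg : k < Fintype.card α) (hG : MulAction.IsMultiplyPretransitive G α k) (N : Subgroup G) [N.Normal] (hN : N ≠ ⊥) : MulAction.IsMultiplyPretransitive N α (k - 1) ∨ (k = 3 ∧ IsMulCommutative N ∧ ∀ n ∈ N, n ^ 2 = 1) := by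
  obtain ⟨j, rfl⟩ : ∃ j, k = j + 2 := ⟨k - 2, by omega⟩
  have hMT : MT G ∅ (j + 2) := by
    intro x y hx hy _ _
    obtain ⟨g, hg⟩ := hG.exists_smul_eq (⟨x, hx⟩ : Fin (j + 2) ↪ α) ⟨y, hy⟩
    refine ⟨g, g.2, fun i => ?_⟩
    have h1 := DFunLike.congr_fun hg i
    exact h1
  have hnormal := ‹N.Normal›
  have key := main j ∅ G (N.map G.subtype) (by simp) hMT (by simpa using hdeg)
    (Subgroup.map_subtype_le _) (by
      rintro g hg n ⟨n', hn', rfl⟩
      exact ⟨⟨g, hg⟩ * n' * ⟨g, hg⟩⁻¹, hnormal.conj_mem n' hn' ⟨g, hg⟩, rfl⟩) (by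
      intro h
      apply hN
      exact (Subgroup.map_eq_bot_iff_of_injective N G.subtype_injective).mp h)
  rcases key with h | ⟨h3, hcomm, hsq⟩
  · left
    refine ⟨fun x y => ?_⟩
    obtain ⟨h', ⟨n', hn', rfl⟩, hmap⟩ := h x y x.injective y.injective (by simp) (by simp)
    refine ⟨⟨n', hn'⟩, ?_⟩
    ext i
    exact hmap i
  · right
    refine ⟨h3, ⟨⟨fun m n => ?_⟩⟩, fun n hn => ?_⟩
    · apply Subtype.ext
      apply Subtype.ext
      exact hcomm _ ⟨m.1, m.2, rfl⟩ _ ⟨n.1, n.2, rfl⟩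
    · apply Subtype.ext
      have h1 := hsq _ ⟨n, hn, rfl⟩
      rw [pow_two]
      exact h1

end Cfsg.Agent.Lib.Helper12.MultTrans
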