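import Mathlib
import Cfsg.Agent.Lib.Helper94.OPStmt
import Cfsg.Agent.Lib.Helper8.HypHYPSUB
import Cfsg.Agent.Lib.Helper44.FinSq

/-!
# S5989 / ODDSUB: completing a nondegenerate even-dimensional `E` to a nondegenerate `m`-space
(`m` odd) isometric to `W₀` inside `E ⊥ Y`
-/

set_option autoImplicit false

namespace Cfsg.Agent.Lib.Helper12.OPODDSUB

open Module QuadraticMap
open Cfsg.Agent.Lib.Helper44.Split
open Cfsg.Agent.Lib.Helper44.QSpace Cfsg.Agent.Lib.Helper44.NegPairs Cfsg.Agent.Lib.Helper44.OEmb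
open Cfsg.Agent.Lib.Helper44.QClass
open Cfsg.Agent.Lib.Helper44.WittND Cfsg.Agent.Lib.Helper44.WittND2
open Cfsg.Agent.Lib.Helper8.HypHYPSUB
open Cfsg.Agent.Lib.Helper94.OPStmt

universe u v w

/-- An odd-dimensional nondegenerate quadratic space over a finite field of odd characteristic
embeds isometrically in every nondegenerate space of larger dimension. -/
theorem exists_embedding_odd {F : Type w} [Field F] [Finite F] (h2 : (2 : F) ≠ 0) (k : ℕ)
    (V₁ : Type u) [AddCommGroup V₁] [Module F V₁] [FiniteDimensional F V₁]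
    (Q₁ : QuadraticForm F V₁) (V₂ : Type v) [AddCommGroup V₂]
    [Module F V₂] [FiniteDimensional F V₂] (Q₂ : QuadraticForm F V₂)
    (h1 : finrank F V₁ = 2 * k + 1) (hlt : finrank F V₁ < finrank F V₂) (hS₁ : Sep Q₁)
    (hS₂ : Sep Q₂) : ∃ j : V₁ →ₗ[F] V₂, ∀ v, Q₂ (j v) = Q₁ v := by
  classical
  have hnt : Nontrivial V₁ := Module.nontrivial_of_finrank_pos (R := F) (by omega)
  obtain ⟨v, hv⟩ := exists_ne_zero hS₁
  have hpv : polar Q₁ v v ≠ 0 := by
    rw [polar_self']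
    exact mul_ne_zero h2 hv
  have hvv : polarBilin Q₁ v v ≠ 0 := by
    rw [pB_apply]
    exact hpv
  have hfT := finrank_perp1 (polarBilin Q₁) hvv
  have hST : Sep (res Q₁ (perp1 (polarBilin Q₁) v)) := sep_perp1 hS₁ hpv
  obtain ⟨j', hj'⟩ := exists_embedding k (perp1 (polarBilin Q₁) v) (res Q₁ _) V₂ Q₂
    (by omega) (by omega) hST hS₂
  have hj'inj := isom_inj hST j' hj'
  obtain ⟨C, hCdef⟩ : ∃ C, C = LinearMap.BilinForm.orthogonal (polarBilin Q₂)
      (LinearMap.range j') := ⟨_, rfl⟩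
  have hCmem : ∀ t ∈ C, ∀ z : perp1 (polarBilin Q₁) v, polar Q₂ (j' z) t = 0 := by
    intro t ht z
    rw [hCdef] at ht
    exact ht (j' z) ⟨z, rfl⟩
  have hAC : LinearMap.range j' ⊓ C = ⊥ := by
    rw [eq_bot_iff]
    rintro x ⟨⟨z, rfl⟩, hx⟩
    have hz : z = 0 := by
      apply hST
      intro y
      rw [← isom_polar j' hj', polar_comm]
      exact hCmem _ hx y
    rw [hz, map_zero]
    exact Submodule.zero_mem _
  have hfA : finrank F (LinearMap.range j') = 2 * k := by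
    rw [LinearMap.finrank_range_of_inj hj'inj]
    omega
  have hfC : finrank F C = finrank F V₂ - 2 * k := by
    rw [hCdef, LinearMap.BilinForm.finrank_orthogonal (nondegenerate_of_sep hS₂), hfA]
  have hCnd : NDsub Q₂ C := by
    rw [hCdef]
    apply ndsub_orth hS₂
    rw [← hCdef]
    exact hAC
  obtain ⟨u, hu⟩ := exists_q_eq (sep_res_of_ndsub hCnd) (by rw [hfC]; omega) (Q₁ v)
  rw [res_apply] at hu
  -- the coordinate along `v`
  obtain ⟨c, hc⟩ : ∃ c : V₁ →ₗ[F] F, ∀ x, c x = polarBilin Q₁ v x / polarBilin Q₁ v v :=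
    ⟨(polarBilin Q₁ v v)⁻¹ • polarBilin Q₁ v, fun x => by
      rw [LinearMap.smul_apply, smul_eq_mul, div_eq_inv_mul]⟩
  obtain ⟨π₀, hπ₀⟩ : ∃ π₀ : V₁ →ₗ[F] V₁, ∀ x, π₀ x = x - c x • v :=
    ⟨LinearMap.id - c.smulRight v, fun x => rfl⟩
  have hπmem : ∀ x, π₀ x ∈ perp1 (polarBilin Q₁) v := by
    intro x
    rw [hπ₀, hc]
    exact proj_mem_perp1 (polarBilin Q₁) hvv x
  obtain ⟨π, hπ⟩ : ∃ π : V₁ →ₗ[F] perp1 (polarBilin Q₁) v, ∀ x, (π x : V₁) = π₀ x :=
    ⟨LinearMap.codRestrict _ π₀ hπmem, fun x => rfl⟩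
  refine ⟨c.smulRight (u : V₂) + j' ∘ₗ π, ?_⟩
  intro x
  have hx : x = c x • v + (π x : V₁) := by
    rw [hπ, hπ₀]
    abel
  have h3 : polar Q₁ v (π x : V₁) = 0 := by
    have := (mem_perp1 (polarBilin Q₁) v _).mp (π x).2
    rw [pB_apply] at this
    exact this
  have h4 : polar Q₂ (u : V₂) (j' (π x)) = 0 := by
    rw [polar_comm]
    exact hCmem _ u.2 (π x)
  have h5 : Q₂ (j' (π x)) = Q₁ (π x : V₁) := by
    rw [hj', res_apply]
  rw [LinearMap.add_apply, LinearMap.smulRight_apply, LinearMap.comp_apply, q_add, q_smul,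
    polar_smul_l, h4, hu, h5]
  conv_rhs => rw [hx, q_add, q_smul, polar_smul_l, h3]

/-- The completion lemma with an arbitrary nondegenerate model space `M` of odd dimension
`2 h + 1`. -/
theorem coreO {F : Type w} [Field F] [Fintype F] (h2 : (2 : F) ≠ 0) {V : Type u}
    [AddCommGroup V] [Module F V] [FiniteDimensional F V]
    (Q : QuadraticForm F V) (E Y : Submodule F V) (hE : NDsub Q E) (hY : NDsub Q Y)
    (hEY : ∀ u ∈ E, ∀ v ∈ Y, polar Q u v = 0) (k h : ℕ) (hk : finrank F E = 2 * k)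
    (hkh : k ≤ h) (hY2 : 2 * h + 1 - 2 * k < finrank F Y)
    {M : Type v} [AddCommGroup M] [Module F M] [FiniteDimensional F M] (QM : QuadraticForm F M)
    (hSH : Sep QM) (hfH : finrank F M = 2 * h + 1) :
    ∃ (W₁ : Submodule F V) (Φ : M →ₗ[F] V), W₁ ≤ Y ∧
      (∀ x, Q (Φ x) = QM x) ∧ LinearMap.range Φ = E ⊔ W₁ := by
  classical
  obtain ⟨j, hj⟩ := exists_embedding k E (res Q E) M QM hk
    (by rw [hfH]; omega) (sep_res_of_ndsub hE) hSH
  have hjinj := isom_inj (sep_res_of_ndsub hE) j hj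
  obtain ⟨T, hTdef⟩ : ∃ T, T = LinearMap.BilinForm.orthogonal (polarBilin QM)
      (LinearMap.range j) := ⟨_, rfl⟩
  have hTmem : ∀ t ∈ T, ∀ v : E, polar QM (j v) t = 0 := by
    intro t ht v
    rw [hTdef] at ht
    exact ht (j v) ⟨v, rfl⟩
  have hAT : LinearMap.range j ⊓ T = ⊥ := by
    rw [eq_bot_iff]
    rintro x ⟨⟨v, rfl⟩, hx⟩
    have hv : v = 0 := by
      apply sep_res_of_ndsub hE
      intro y
      rw [← isom_polar j hj, polar_comm]
      exact hTmem _ hx y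
    rw [hv, map_zero]
    exact Submodule.zero_mem _
  have hfA : finrank F (LinearMap.range j) = 2 * k := by
    rw [← hk]
    exact LinearMap.finrank_range_of_inj hjinj
  have hfT : finrank F T = 2 * h + 1 - 2 * k := by
    rw [hTdef, LinearMap.BilinForm.finrank_orthogonal (nondegenerate_of_sep hSH), hfH, hfA]
  have hTnd : NDsub QM T := by
    rw [hTdef]
    apply ndsub_orth hSH
    rw [← hTdef]
    exact hAT
  obtain ⟨j', hj'⟩ := exists_embedding_odd h2 (h - k) T (res QM T) Y (res Q Y)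
    (by rw [hfT]; omega) (by rw [hfT]; exact hY2) (sep_res_of_ndsub hTnd) (sep_res_of_ndsub hY)
  -- the two maps out of `E × T`
  obtain ⟨κ₀, hκ₀⟩ : ∃ κ₀ : (E × T) →ₗ[F] M, κ₀ = LinearMap.coprod j T.subtype :=
    ⟨_, rfl⟩
  obtain ⟨Ψ, hΨ⟩ : ∃ Ψ : (E × T) →ₗ[F] V, Ψ = LinearMap.coprod E.subtype (Y.subtype ∘ₗ j') :=
    ⟨_, rfl⟩
  have hκ₀app : ∀ p : E × T, κ₀ p = j p.1 + (p.2 : M) := by
    intro p
    rw [hκ₀, LinearMap.coprod_apply]
    rfl
  have hΨapp : ∀ p : E × T, Ψ p = (p.1 : V) + ((j' p.2 : Y) : V) := by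
    intro p
    rw [hΨ, LinearMap.coprod_apply]
    rfl
  have hκinj : Function.Injective κ₀ := by
    rw [injective_iff_map_eq_zero]
    intro p hp
    rw [hκ₀app] at hp
    have h1 : j p.1 ∈ LinearMap.range j ⊓ T := by
      refine ⟨⟨p.1, rfl⟩, ?_⟩
      have h2 : j p.1 = -(p.2 : M) := eq_neg_of_add_eq_zero_left hp
      rw [h2]
      exact T.neg_mem p.2.2
    rw [hAT, Submodule.mem_bot] at h1
    have h3 : p.1 = 0 := hjinj (by rw [h1, map_zero])
    have h4 : (p.2 : M) = 0 := by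
      rw [h1, zero_add] at hp
      exact hp
    exact Prod.ext h3 (Subtype.ext h4)
  have hdim : finrank F (E × T) = finrank F M := by
    rw [Module.finrank_prod, hk, hfT, hfH]
    omega
  obtain ⟨κ, hκ⟩ : ∃ κ : (E × T) ≃ₗ[F] M, ∀ p, κ p = κ₀ p :=
    ⟨LinearMap.linearEquivOfInjective κ₀ hκinj hdim, fun p => rfl⟩
  have hiso : ∀ p : E × T, Q (Ψ p) = QM (κ p) := by
    intro p
    rw [hκ, hκ₀app, hΨapp, q_add, q_add, hEY _ p.1.2 _ (j' p.2).2, hTmem _ p.2.2 p.1, hj]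
    have h5 := hj' p.2
    rw [res_apply, res_apply] at h5
    rw [h5, res_apply]
  refine ⟨LinearMap.range (Y.subtype ∘ₗ j'), Ψ ∘ₗ κ.symm.toLinearMap, ?_, ?_, ?_⟩
  · rintro _ ⟨t, rfl⟩
    exact (j' t).2
  · intro x
    have h6 := hiso (κ.symm x)
    rw [LinearEquiv.apply_symm_apply] at h6
    exact h6
  · rw [LinearMap.range_comp_of_range_eq_top _ (LinearEquiv.range κ.symm), hΨ,
      LinearMap.range_coprod, Submodule.range_subtype]

theorem ndsub_of_ndegP {F : Type u} [Field F] {d : ℕ} {W : Submodule F (P d → F)}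
    (h : NDegP d F W) : NDsub (plusQ d F) W := by
  intro x hx hxy
  by_contra hx0
  obtain ⟨-, y, hy, hxy'⟩ := h x hx hx0
  exact hxy' (hxy y hy)

theorem main : OddSub.{u} := by
  intro F _ _ hodd d m hm W₀ hW₀m hW₀ E Y hE hY hEY hEe hEm hYm
  classical
  have h2 : (2 : F) ≠ 0 := Cfsg.Agent.Lib.Helper44.FinSq.two_ne_zero_of_odd_card hodd
  obtain ⟨h, rfl⟩ := hm
  obtain ⟨k, hk⟩ : ∃ k, finrank F E = 2 * k := by
    obtain ⟨k, hk⟩ := hEe
    exact ⟨k, by omega⟩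
  have hE' : NDsub (plusQ d F) E := ndsub_of_ndegP hE
  have hY' : NDsub (plusQ d F) Y := ndsub_of_ndegP hY
  have hW₀' : NDsub (plusQ d F) W₀ := ndsub_of_ndegP hW₀
  have hSM : Sep (res (plusQ d F) W₀) := sep_res_of_ndsub hW₀'
  obtain ⟨W₁, Φ, hW₁, hΦ, hr⟩ := coreO h2 (plusQ d F) E Y hE' hY'
    (fun u hu v hv => hEY u hu v hv) k h hk (by omega)
    (by
      have h9 := hYm
      rw [hk] at h9
      exact h9) (res (plusQ d F) W₀) hSM hW₀m
  have hinj := isom_inj hSM Φ hΦ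
  have hdimW : finrank F ↥(E ⊔ W₁) = 2 * h + 1 := by
    rw [← hr, LinearMap.finrank_range_of_inj hinj, hW₀m]
  refine ⟨W₁, hW₁, hdimW, ?_, ?_⟩
  · intro w hw hw0
    rw [← hr] at hw
    obtain ⟨z, rfl⟩ := hw
    have hz : z ≠ 0 := by
      rintro rfl
      exact hw0 (map_zero _)
    have hex : ∃ y, polar (res (plusQ d F) W₀) z y ≠ 0 := by
      by_contra hc
      push Not at hc
      exact hz (hSM z hc)
    obtain ⟨y, hy⟩ := hex
    have hpol : polar (plusQ d F) (Φ z) (Φ y) = polar (res (plusQ d F) W₀) z y :=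
      isom_polar Φ hΦ z y
    have hmem : Φ y ∈ E ⊔ W₁ := by
      rw [← hr]
      exact ⟨y, rfl⟩
    refine ⟨⟨Φ y, hmem, ?_⟩, ⟨Φ y, hmem, ?_⟩⟩
    · rw [polar_comm]
      show polar (plusQ d F) (Φ z) (Φ y) ≠ 0
      rw [hpol]
      exact hy
    · show polar (plusQ d F) (Φ z) (Φ y) ≠ 0
      rw [hpol]
      exact hy
  · obtain ⟨e, he⟩ : ∃ e : ↥W₀ ≃ₗ[F] ↥(E ⊔ W₁), ∀ z, ((e z : ↥(E ⊔ W₁)) : P d → F) = Φ z :=
      ⟨(LinearEquiv.ofInjective Φ hinj).trans (LinearEquiv.ofEq _ _ hr), fun z => rfl⟩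
    refine ⟨e.symm, ?_⟩
    intro w
    have h6 := hΦ (e.symm w)
    rw [← he, LinearEquiv.apply_symm_apply, res_apply] at h6
    exact h6.symm

end Cfsg.Agent.Lib.Helper12.OPODDSUB
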