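import Mathlib
import Cfsg.Agent.Lib.Helper45.OMiStmt
import Cfsg.Agent.Lib.Helper12.OPODDSUB

/-!
# S5991 / ODDSUBM: completing a nondegenerate even-dimensional `E` to a nondegenerate `m`-space
(`m` odd) isometric to `W₀` inside `E ⊥ Y` (minus form)
-/

set_option autoImplicit false

namespace Cfsg.Agent.Lib.Helper12.OMiODDSUBM

open Module QuadraticMap
open Cfsg.Agent.Lib.Helper44.QSpace Cfsg.Agent.Lib.Helper44.NegPairs
open Cfsg.Agent.Lib.Helper44.WittND Cfsg.Agent.Lib.Helper44.WittND2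
open Cfsg.Agent.Lib.Helper8.HypHYPSUB
open Cfsg.Agent.Lib.Helper45.OMiStmt
open Cfsg.Agent.Lib.Helper12.OPODDSUB

universe u

theorem ndsub_of_ndegM {F : Type u} [Field F] {d : ℕ} {a b : F} {W : Submodule F (M d → F)}
    (h : NDegM d F a b W) : NDsub (minusQ (d - 1) F a b) W := by
  intro x hx hxy
  by_contra hx0
  obtain ⟨-, y, hy, hxy'⟩ := h x hx hx0
  exact hxy' (hxy y hy)

theorem main : OddSubM.{u} := by
  intro F _ _ hodd d m a b hab hm W₀ hW₀m hW₀ E Y hE hY hEY hEe hEm hYm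
  classical
  have h2 : (2 : F) ≠ 0 := Cfsg.Agent.Lib.Helper44.FinSq.two_ne_zero_of_odd_card hodd
  obtain ⟨h, rfl⟩ := hm
  obtain ⟨k, hk⟩ : ∃ k, finrank F E = 2 * k := by
    obtain ⟨k, hk⟩ := hEe
    exact ⟨k, by omega⟩
  have hE' : NDsub (minusQ (d - 1) F a b) E := ndsub_of_ndegM hE
  have hY' : NDsub (minusQ (d - 1) F a b) Y := ndsub_of_ndegM hY
  have hW₀' : NDsub (minusQ (d - 1) F a b) W₀ := ndsub_of_ndegM hW₀
  have hSM : Sep (res (minusQ (d - 1) F a b) W₀) := sep_res_of_ndsub hW₀'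
  obtain ⟨W₁, Φ, hW₁, hΦ, hr⟩ := coreO h2 (minusQ (d - 1) F a b) E Y hE' hY'
    (fun u hu v hv => hEY u hu v hv) k h hk (by omega)
    (by
      have h9 := hYm
      rw [hk] at h9
      exact h9) (res (minusQ (d - 1) F a b) W₀) hSM hW₀m
  have hinj := isom_inj hSM Φ hΦ
  have hdimW : finrank F ↥(E ⊔ W₁) = 2 * h + 1 := by
    rw [← hr, LinearMap.finrank_range_of_inj hinj, hW₀m]
  refine ⟨W₁, hW₁, hdimW, ?_, ?_⟩
  · intro w hw hw0
    rw [← hr] at hw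
    obtain ⟨z, rfl⟩ := hw
    have hz : z ≠ 0 := by
      rintro rfl
      exact hw0 (map_zero _)
    have hex : ∃ y, polar (res (minusQ (d - 1) F a b) W₀) z y ≠ 0 := by
      by_contra hc
      push Not at hc
      exact hz (hSM z hc)
    obtain ⟨y, hy⟩ := hex
    have hpol : polar (minusQ (d - 1) F a b) (Φ z) (Φ y) =
        polar (res (minusQ (d - 1) F a b) W₀) z y := isom_polar Φ hΦ z y
    have hmem : Φ y ∈ E ⊔ W₁ := by
      rw [← hr]
      exact ⟨y, rfl⟩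
    refine ⟨⟨Φ y, hmem, ?_⟩, ⟨Φ y, hmem, ?_⟩⟩
    · rw [polar_comm]
      show polar (minusQ (d - 1) F a b) (Φ z) (Φ y) ≠ 0
      rw [hpol]
      exact hy
    · show polar (minusQ (d - 1) F a b) (Φ z) (Φ y) ≠ 0
      rw [hpol]
      exact hy
  · obtain ⟨e, he⟩ : ∃ e : ↥W₀ ≃ₗ[F] ↥(E ⊔ W₁), ∀ z, ((e z : ↥(E ⊔ W₁)) : M d → F) = Φ z :=
      ⟨(LinearEquiv.ofInjective Φ hinj).trans (LinearEquiv.ofEq _ _ hr), fun z => rfl⟩
    refine ⟨e.symm, ?_⟩
    intro w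
    have h6 := hΦ (e.symm w)
    rw [← he, LinearEquiv.apply_symm_apply, res_apply] at h6
    exact h6.symm

end Cfsg.Agent.Lib.Helper12.OMiODDSUBM
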