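import Mathlib
import Cfsg.Agent.Lib.Helper95.JOrthE
import Cfsg.Agent.Lib.Helper37.EllPELT

/-!
# Unipotent elements of order `p` in `Omega(Q)` with prescribed small Jordan types

Generic versions (any index type, any nondegenerate quadratic form of dimension `2 d` over a
finite field of odd characteristic `p`) of the elements used for `r = p`:

* `peltB`: type `3, 3, 2^(d-3)` (`d ≥ 3` odd): `Fix x ≤ (x - 1) V`, `(x - 1) ^ 3 = 0`,
  `dim (x - 1) ^ 2 V ≤ 2`;
* `peltA`: type `2^ρ, 1^(2d - 2ρ)` (`ρ` even, `2 ≤ ρ < d`): `(x - 1) V ≤ Fix x`,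
  `dim (x - 1) V = ρ`.
-/

set_option autoImplicit false

universe u

open scoped Matrix

namespace Cfsg.Agent.Lib.Helper12.OPPELTgen

open Cfsg.Agent.Lib.Helper44.QSpace

/-- `N = x - 1` as a linear map (any index type) -/
def NG {F : Type u} [Field F] {ι : Type} [Fintype ι] [DecidableEq ι] (x : Matrix ι ι F) :
    (ι → F) →ₗ[F] (ι → F) :=
  Matrix.toLin' x - LinearMap.id

theorem three_le_char {F : Type u} [Field F] (p : ℕ) [Fact p.Prime] [CharP F p]
    (h2 : (2 : F) ≠ 0) : 3 ≤ p := by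
  have hp : p.Prime := Fact.out
  have hpodd : Odd p := Cfsg.Agent.Lib.Helper95.JOrth.odd_char_of_two_ne_zero (F := F) h2
  obtain ⟨r, hr⟩ := hpodd
  have := hp.two_le
  omega

/-- type `3, 3, 2^(d-3)` -/
theorem peltB {F : Type u} [Field F] [Fintype F] (p : ℕ) [Fact p.Prime] [CharP F p]
    (h2 : (2 : F) ≠ 0) {ι : Type} [Fintype ι] [DecidableEq ι] (Q₀ : QuadraticForm F (ι → F))
    (hS : Sep Q₀) (d : ℕ) (hd : 3 ≤ d) (hdodd : Odd d) (hcard : Fintype.card ι = 2 * d) :
    ∃ x : Matrix.GeneralLinearGroup ι F, x ∈ Cfsg.Geo.omegaGL ⇑Q₀ ∧ orderOf x = p ∧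
      LinearMap.ker (NG (x : Matrix ι ι F)) ≤ LinearMap.range (NG (x : Matrix ι ι F)) ∧
      (∀ v, NG (x : Matrix ι ι F) (NG (x : Matrix ι ι F) (NG (x : Matrix ι ι F) v)) = 0) ∧
      Module.finrank F ↥(LinearMap.range
        (NG (x : Matrix ι ι F) ∘ₗ NG (x : Matrix ι ι F))) ≤ 2 := by
  classical
  have hp : p.Prime := Fact.out
  have hp3 : 3 ≤ p := three_le_char (F := F) p h2
  obtain ⟨μ, hμ⟩ : ∃ μ : Multiset ℕ, μ = 3 ::ₘ 3 ::ₘ Multiset.replicate (d - 3) 2 := ⟨_, rfl⟩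
  have hmem : ∀ b ∈ μ, b = 3 ∨ b = 2 := by
    intro b hb
    rw [hμ, Multiset.mem_cons, Multiset.mem_cons] at hb
    rcases hb with rfl | rfl | hb
    · exact Or.inl rfl
    · exact Or.inl rfl
    · exact Or.inr (Multiset.eq_of_mem_replicate hb)
  have hpos : ∀ b ∈ μ, 0 < b := by
    intro b hb
    rcases hmem b hb with rfl | rfl <;> omega
  have hev : ∀ e, Even e → Even (μ.count e) := by
    intro e he
    have he3 : e ≠ 3 := by
      rintro rfl
      exact absurd he (by decide)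
    rw [hμ, Multiset.count_cons_of_ne he3, Multiset.count_cons_of_ne he3,
      Multiset.count_replicate]
    split_ifs
    · obtain ⟨r, hr⟩ := hdodd
      exact ⟨r - 1, by omega⟩
    · exact Even.zero
  have hsum : μ.sum = Fintype.card ι := by
    rw [hμ, hcard, Multiset.sum_cons, Multiset.sum_cons, Multiset.sum_replicate, smul_eq_mul]
    omega
  have h3μ : (3 : ℕ) ∈ μ := by
    rw [hμ]
    exact Multiset.mem_cons_self _ _
  obtain ⟨x, hx, -, hrank⟩ := Cfsg.Agent.Lib.Helper95.JOrth.exists_unip h2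
    Q₀ hS μ hpos hev hsum ⟨3, h3μ, by decide⟩
  have hr1 : ((x : Matrix ι ι F) - 1).rank = d + 1 := by
    have := hrank 1
    rw [pow_one, hμ, Multiset.map_cons, Multiset.map_cons, Multiset.map_replicate,
      Multiset.sum_cons, Multiset.sum_cons, Multiset.sum_replicate, smul_eq_mul] at this
    omega
  have hr2 : (((x : Matrix ι ι F) - 1) ^ 2).rank = 2 := by
    have := hrank 2
    rw [hμ, Multiset.map_cons, Multiset.map_cons, Multiset.map_replicate,
      Multiset.sum_cons, Multiset.sum_cons, Multiset.sum_replicate, smul_eq_mul] at this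
    omega
  have hr3 : (((x : Matrix ι ι F) - 1) ^ 3).rank = 0 := by
    have := hrank 3
    rw [hμ, Multiset.map_cons, Multiset.map_cons, Multiset.map_replicate,
      Multiset.sum_cons, Multiset.sum_cons, Multiset.sum_replicate, smul_eq_mul] at this
    omega
  have hN3 : ((x : Matrix ι ι F) - 1) ^ 3 = 0 :=
    Cfsg.Agent.Lib.Helper95.JOrth.eq_zero_of_rank_eq_zero _ hr3
  have hNp : ((x : Matrix ι ι F) - 1) ^ p = 0 := by
    obtain ⟨t, rfl⟩ : ∃ t, p = 3 + t := ⟨p - 3, by omega⟩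
    rw [pow_add, hN3, zero_mul]
  obtain ⟨hΩ, hxp⟩ := Cfsg.Agent.Lib.Helper95.JOrth.unip_props h2
    Q₀ hS (by rw [hcard]; omega) x hx hNp
  have hx1 : x ≠ 1 := by
    intro h
    rw [h] at hr1
    have h0 : ((1 : Matrix.GeneralLinearGroup ι F) : Matrix ι ι F) - 1 = 0 := by
      simp
    rw [h0, Matrix.rank_zero] at hr1
    omega
  obtain ⟨N, hN⟩ : ∃ N : (ι → F) →ₗ[F] (ι → F),
      N = ((x : Matrix ι ι F) - 1).mulVecLin := ⟨_, rfl⟩
  have hN' : NG (x : Matrix ι ι F) = N := by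
    unfold NG
    rw [hN, ← Matrix.toLin'_apply', map_sub, Matrix.toLin'_one]
  have hNN : N ∘ₗ N = (((x : Matrix ι ι F) - 1) ^ 2).mulVecLin := by
    rw [hN, pow_two, Matrix.mulVecLin_mul]
  have hNNN : N ∘ₗ N ∘ₗ N = (((x : Matrix ι ι F) - 1) ^ 3).mulVecLin := by
    rw [hNN, hN, ← Matrix.mulVecLin_mul, ← pow_succ']
  have hk := Cfsg.Agent.Lib.Helper37.EllPELT.finrank_range_inf_ker N
  have e1 : Module.finrank F ↥(LinearMap.range N) = ((x : Matrix ι ι F) - 1).rank := by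
    rw [hN]
    rfl
  have e2 : Module.finrank F ↥(LinearMap.range (N ∘ₗ N)) =
      (((x : Matrix ι ι F) - 1) ^ 2).rank := by
    rw [hNN]
    rfl
  have hrn := LinearMap.finrank_range_add_finrank_ker N
  rw [Module.finrank_fintype_fun_eq_card, hcard] at hrn
  refine ⟨x, hΩ, orderOf_eq_prime hxp hx1, ?_, ?_, ?_⟩
  · rw [hN']
    have hle : LinearMap.range N ⊓ LinearMap.ker N ≤ LinearMap.ker N := inf_le_right
    have heq : Module.finrank F ↥(LinearMap.range N ⊓ LinearMap.ker N) =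
        Module.finrank F ↥(LinearMap.ker N) := by
      rw [e1, e2, hr1, hr2] at hk
      rw [e1, hr1] at hrn
      omega
    have h5 := Submodule.eq_of_le_of_finrank_eq hle heq
    rw [← h5]
    exact inf_le_left
  · intro v
    rw [hN']
    have h6 : N (N (N v)) = (N ∘ₗ N ∘ₗ N) v := rfl
    rw [h6, hNNN, hN3]
    simp
  · rw [hN', e2, hr2]

/-- type `2^ρ, 1^(2d - 2ρ)` -/
theorem peltA {F : Type u} [Field F] [Fintype F] (p : ℕ) [Fact p.Prime] [CharP F p]
    (h2 : (2 : F) ≠ 0) {ι : Type} [Fintype ι] [DecidableEq ι] (Q₀ : QuadraticForm F (ι → F))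
    (hS : Sep Q₀) (d ρ : ℕ) (hρe : Even ρ) (hρ2 : 2 ≤ ρ) (hρd : ρ < d)
    (hcard : Fintype.card ι = 2 * d) :
    ∃ x : Matrix.GeneralLinearGroup ι F, x ∈ Cfsg.Geo.omegaGL ⇑Q₀ ∧ orderOf x = p ∧
      LinearMap.range (NG (x : Matrix ι ι F)) ≤ LinearMap.ker (NG (x : Matrix ι ι F)) ∧
      Module.finrank F ↥(LinearMap.range (NG (x : Matrix ι ι F))) = ρ := by
  classical
  have hp : p.Prime := Fact.out
  have hp3 : 3 ≤ p := three_le_char (F := F) p h2
  obtain ⟨μ, hμ⟩ : ∃ μ : Multiset ℕ,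
      μ = Multiset.replicate ρ 2 + Multiset.replicate (2 * d - 2 * ρ) 1 := ⟨_, rfl⟩
  have hmem : ∀ b ∈ μ, b = 2 ∨ b = 1 := by
    intro b hb
    rw [hμ, Multiset.mem_add] at hb
    rcases hb with hb | hb
    · exact Or.inl (Multiset.eq_of_mem_replicate hb)
    · exact Or.inr (Multiset.eq_of_mem_replicate hb)
  have hpos : ∀ b ∈ μ, 0 < b := by
    intro b hb
    rcases hmem b hb with rfl | rfl <;> omega
  have hev : ∀ e, Even e → Even (μ.count e) := by
    intro e he
    have he1 : e ≠ 1 := by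
      rintro rfl
      exact absurd he (by decide)
    rw [hμ, Multiset.count_add, Multiset.count_replicate, Multiset.count_replicate,
      if_neg (Ne.symm he1), add_zero]
    split_ifs
    · exact hρe
    · exact Even.zero
  have hsum : μ.sum = Fintype.card ι := by
    rw [hμ, hcard, Multiset.sum_add, Multiset.sum_replicate, Multiset.sum_replicate, smul_eq_mul,
      smul_eq_mul]
    omega
  have h1μ : (1 : ℕ) ∈ μ := by
    rw [hμ, Multiset.mem_add]
    right
    rw [Multiset.mem_replicate]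
    exact ⟨by omega, rfl⟩
  obtain ⟨x, hx, -, hrank⟩ := Cfsg.Agent.Lib.Helper95.JOrth.exists_unip h2
    Q₀ hS μ hpos hev hsum ⟨1, h1μ, by decide⟩
  have hr1 : ((x : Matrix ι ι F) - 1).rank = ρ := by
    have := hrank 1
    rw [pow_one, hμ, Multiset.map_add, Multiset.map_replicate, Multiset.map_replicate,
      Multiset.sum_add, Multiset.sum_replicate, Multiset.sum_replicate, smul_eq_mul,
      smul_eq_mul] at this
    omega
  have hr2 : (((x : Matrix ι ι F) - 1) ^ 2).rank = 0 := by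
    have := hrank 2
    rw [hμ, Multiset.map_add, Multiset.map_replicate, Multiset.map_replicate,
      Multiset.sum_add, Multiset.sum_replicate, Multiset.sum_replicate, smul_eq_mul,
      smul_eq_mul] at this
    omega
  have hN2 : ((x : Matrix ι ι F) - 1) ^ 2 = 0 :=
    Cfsg.Agent.Lib.Helper95.JOrth.eq_zero_of_rank_eq_zero _ hr2
  have hNp : ((x : Matrix ι ι F) - 1) ^ p = 0 := by
    obtain ⟨t, rfl⟩ : ∃ t, p = 2 + t := ⟨p - 2, by omega⟩
    rw [pow_add, hN2, zero_mul]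
  obtain ⟨hΩ, hxp⟩ := Cfsg.Agent.Lib.Helper95.JOrth.unip_props h2
    Q₀ hS (by rw [hcard]; omega) x hx hNp
  have hx1 : x ≠ 1 := by
    intro h
    rw [h] at hr1
    have h0 : ((1 : Matrix.GeneralLinearGroup ι F) : Matrix ι ι F) - 1 = 0 := by
      simp
    rw [h0, Matrix.rank_zero] at hr1
    omega
  obtain ⟨N, hN⟩ : ∃ N : (ι → F) →ₗ[F] (ι → F),
      N = ((x : Matrix ι ι F) - 1).mulVecLin := ⟨_, rfl⟩
  have hN' : NG (x : Matrix ι ι F) = N := by
    unfold NG
    rw [hN, ← Matrix.toLin'_apply', map_sub, Matrix.toLin'_one]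
  have hNN : N ∘ₗ N = (((x : Matrix ι ι F) - 1) ^ 2).mulVecLin := by
    rw [hN, pow_two, Matrix.mulVecLin_mul]
  have e1 : Module.finrank F ↥(LinearMap.range N) = ((x : Matrix ι ι F) - 1).rank := by
    rw [hN]
    rfl
  refine ⟨x, hΩ, orderOf_eq_prime hxp hx1, ?_, ?_⟩
  · rw [hN']
    rintro _ ⟨v, rfl⟩
    rw [LinearMap.mem_ker]
    have h6 : N (N v) = (N ∘ₗ N) v := rfl
    rw [h6, hNN, hN2]
    simp
  · rw [hN', e1, hr1]

end Cfsg.Agent.Lib.Helper12.OPPELTgen
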