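import Mathlib
import Cfsg.Agent.Lib.Helper45.OMiStmt
import Cfsg.Agent.Lib.Helper12.OPPELTgen
import Cfsg.Agent.Lib.Helper44.NegPairs

/-!
# S5991 / PELTAM: a unipotent element of order `p` of `Omega^-_(2d)(q)` of Jordan type
`2^ρ, 1^(2d - 2ρ)`, `ρ` even, `2 ≤ ρ ≤ d - 1`.
-/

set_option autoImplicit false

universe u

open scoped Matrix

namespace Cfsg.Agent.Lib.Helper12.OMiPELTAM

open Cfsg.Agent.Lib.Helper45.OMiStmt

theorem card_M (d : ℕ) (hd : 1 ≤ d) : Fintype.card (M d) = 2 * d := by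
  simp [M]
  omega

theorem main : PEltAM.{u} := by
  intro F _ _ p _ _ hodd d ρ a b hab hρe hρ2 hρd
  classical
  have h2 : (2 : F) ≠ 0 := Cfsg.Agent.Lib.Helper95.JOrth.two_ne_zero_of_odd_card hodd
  have hS := Cfsg.Agent.Lib.Helper44.NegPairs.sep_minusQ (F := F) h2 (d - 1) a b hab
  obtain ⟨x, hΩ, ho, h1, h3⟩ := Cfsg.Agent.Lib.Helper12.OPPELTgen.peltA p h2
    (Cfsg.Agent.Lib.Helper44.NegPairs.minusQ (d - 1) F a b) hS d ρ hρe hρ2 (by omega)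
    (card_M d (by omega))
  exact ⟨x, hΩ, ho, h1, h3⟩

end Cfsg.Agent.Lib.Helper12.OMiPELTAM
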