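import Mathlib
import Cfsg.Agent.Lib.Helper95.JOrthE
import Cfsg.Agent.Lib.Helper37.EllPELT
import Cfsg.Agent.Lib.Helper12.OPPELTgen

/-!
# A unipotent element of type `3, 1, 2^(d-2)` with a fixed vector of prescribed norm

Generic version (any index type, any nondegenerate quadratic form of dimension `2 d`, `d` even,
over a finite field of odd characteristic `p`): `x ∈ Omega(Q)` of order `p` and a fixed vector
`u₁` with `Q u₁ = c`, `Fix x ≤ ⟨u₁⟩ + (x - 1) V`, `dim (x - 1) ^ 2 V ≤ 1`.  The element given by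
`JOrth.exists_unip` is conjugated by a similitude to get the norm of the fixed vector right.
-/

set_option autoImplicit false

universe u

open scoped Matrix

namespace Cfsg.Agent.Lib.Helper12.OPPELTC

open Module QuadraticMap
open Cfsg.Agent.Lib.Helper44.QSpace
open Cfsg.Agent.Lib.Helper12.OPPELTgen

theorem mem_ker_NG {F : Type u} [Field F] {ι : Type} [Fintype ι] [DecidableEq ι]
    (x : Matrix ι ι F) (v : ι → F) : v ∈ LinearMap.ker (NG x) ↔ x *ᵥ v = v := by
  unfold NG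
  rw [LinearMap.mem_ker, LinearMap.sub_apply, Matrix.toLin'_apply, LinearMap.id_apply, sub_eq_zero]

theorem NG_apply {F : Type u} [Field F] {ι : Type} [Fintype ι] [DecidableEq ι]
    (x : Matrix ι ι F) (v : ι → F) : NG x v = x *ᵥ v - v := by
  unfold NG
  rw [LinearMap.sub_apply, Matrix.toLin'_apply, LinearMap.id_apply]

/-- the unconjugated element: type `3, 1, 2^(d-2)` and a nonsingular fixed vector -/
theorem pre {F : Type u} [Field F] [Fintype F] (h2 : (2 : F) ≠ 0) {ι : Type} [Fintype ι]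
    [DecidableEq ι] (Q₀ : QuadraticForm F (ι → F)) (hS : Sep Q₀) (d : ℕ) (hd : 2 ≤ d)
    (hde : Even d) (hcard : Fintype.card ι = 2 * d) :
    ∃ x : Matrix.GeneralLinearGroup ι F, x ∈ Cfsg.isometryGroup F ⇑Q₀ ∧
      ((x : Matrix ι ι F) - 1) ^ 3 = 0 ∧ x ≠ 1 ∧
      ∃ u₀ : ι → F, u₀ ∈ LinearMap.ker (NG (x : Matrix ι ι F)) ∧ Q₀ u₀ ≠ 0 ∧
        LinearMap.ker (NG (x : Matrix ι ι F)) ≤
          Submodule.span F {u₀} ⊔ LinearMap.range (NG (x : Matrix ι ι F)) ∧
        finrank F ↥(LinearMap.range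
          (NG (x : Matrix ι ι F) ∘ₗ NG (x : Matrix ι ι F))) ≤ 1 := by
  classical
  obtain ⟨μ, hμ⟩ : ∃ μ : Multiset ℕ, μ = 3 ::ₘ 1 ::ₘ Multiset.replicate (d - 2) 2 := ⟨_, rfl⟩
  have hmem : ∀ b ∈ μ, b = 3 ∨ b = 1 ∨ b = 2 := by
    intro b hb
    rw [hμ, Multiset.mem_cons, Multiset.mem_cons] at hb
    rcases hb with rfl | rfl | hb
    · exact Or.inl rfl
    · exact Or.inr (Or.inl rfl)
    · exact Or.inr (Or.inr (Multiset.eq_of_mem_replicate hb))
  have hpos : ∀ b ∈ μ, 0 < b := by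
    intro b hb
    rcases hmem b hb with rfl | rfl | rfl <;> omega
  have hev : ∀ e, Even e → Even (μ.count e) := by
    intro e he
    have he3 : e ≠ 3 := by
      rintro rfl
      exact absurd he (by decide)
    have he1 : e ≠ 1 := by
      rintro rfl
      exact absurd he (by decide)
    rw [hμ, Multiset.count_cons_of_ne he3, Multiset.count_cons_of_ne he1,
      Multiset.count_replicate]
    split_ifs
    · obtain ⟨r, hr⟩ := hde
      exact ⟨r - 1, by omega⟩
    · exact Even.zero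
  have hsum : μ.sum = Fintype.card ι := by
    rw [hμ, hcard, Multiset.sum_cons, Multiset.sum_cons, Multiset.sum_replicate, smul_eq_mul]
    omega
  have h3μ : (3 : ℕ) ∈ μ := by
    rw [hμ]
    exact Multiset.mem_cons_self _ _
  obtain ⟨x, hx, -, hrank⟩ := Cfsg.Agent.Lib.Helper95.JOrth.exists_unip h2
    Q₀ hS μ hpos hev hsum ⟨3, h3μ, by decide⟩
  have hr1 : ((x : Matrix ι ι F) - 1).rank = d := by
    have := hrank 1
    rw [pow_one, hμ, Multiset.map_cons, Multiset.map_cons, Multiset.map_replicate,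
      Multiset.sum_cons, Multiset.sum_cons, Multiset.sum_replicate, smul_eq_mul] at this
    omega
  have hr2 : (((x : Matrix ι ι F) - 1) ^ 2).rank = 1 := by
    have := hrank 2
    rw [hμ, Multiset.map_cons, Multiset.map_cons, Multiset.map_replicate,
      Multiset.sum_cons, Multiset.sum_cons, Multiset.sum_replicate, smul_eq_mul] at this
    omega
  have hr3 : (((x : Matrix ι ι F) - 1) ^ 3).rank = 0 := by
    have := hrank 3
    rw [hμ, Multiset.map_cons, Multiset.map_cons, Multiset.map_replicate,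
      Multiset.sum_cons, Multiset.sum_cons, Multiset.sum_replicate, smul_eq_mul] at this
    omega
  have hN3 : ((x : Matrix ι ι F) - 1) ^ 3 = 0 :=
    Cfsg.Agent.Lib.Helper95.JOrth.eq_zero_of_rank_eq_zero _ hr3
  have hx1 : x ≠ 1 := by
    intro h
    rw [h] at hr1
    have h0 : ((1 : Matrix.GeneralLinearGroup ι F) : Matrix ι ι F) - 1 = 0 := by
      simp
    rw [h0, Matrix.rank_zero] at hr1
    omega
  obtain ⟨N, hN⟩ : ∃ N : (ι → F) →ₗ[F] (ι → F),
      N = ((x : Matrix ι ι F) - 1).mulVecLin := ⟨_, rfl⟩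
  have hN' : NG (x : Matrix ι ι F) = N := by
    unfold NG
    rw [hN, ← Matrix.toLin'_apply', map_sub, Matrix.toLin'_one]
  have hNN : N ∘ₗ N = (((x : Matrix ι ι F) - 1) ^ 2).mulVecLin := by
    rw [hN, pow_two, Matrix.mulVecLin_mul]
  have hk := Cfsg.Agent.Lib.Helper37.EllPELT.finrank_range_inf_ker N
  have e1 : finrank F ↥(LinearMap.range N) = ((x : Matrix ι ι F) - 1).rank := by
    rw [hN]
    rfl
  have e2 : finrank F ↥(LinearMap.range (N ∘ₗ N)) = (((x : Matrix ι ι F) - 1) ^ 2).rank := by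
    rw [hNN]
    rfl
  have hrn := LinearMap.finrank_range_add_finrank_ker N
  rw [Module.finrank_fintype_fun_eq_card, hcard, e1, hr1] at hrn
  rw [e1, e2, hr1, hr2] at hk
  have hfK : finrank F ↥(LinearMap.ker N) = d := by omega
  have hfRK : finrank F ↥(LinearMap.range N ⊓ LinearMap.ker N) = d - 1 := by omega
  -- a fixed vector outside the range
  have hnle : ¬ LinearMap.ker N ≤ LinearMap.range N := by
    intro hle
    have h5 : LinearMap.range N ⊓ LinearMap.ker N = LinearMap.ker N := inf_eq_right.mpr hle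
    rw [h5] at hfRK
    omega
  obtain ⟨u₀, hu₀K, hu₀R⟩ := SetLike.not_le_iff_exists.mp hnle
  -- `ker N = (range N ⊓ ker N) ⊔ ⟨u₀⟩`
  have hS1 : (LinearMap.range N ⊓ LinearMap.ker N) ⊔ Submodule.span F {u₀} ≤ LinearMap.ker N := by
    apply sup_le inf_le_right
    rw [Submodule.span_singleton_le_iff_mem]
    exact hu₀K
  have hlt : LinearMap.range N ⊓ LinearMap.ker N <
      (LinearMap.range N ⊓ LinearMap.ker N) ⊔ Submodule.span F {u₀} := by
    apply lt_of_le_of_ne le_sup_left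
    intro heq
    have h6 : u₀ ∈ LinearMap.range N ⊓ LinearMap.ker N := by
      rw [heq]
      exact Submodule.mem_sup_right (Submodule.mem_span_singleton_self u₀)
    exact hu₀R h6.1
  have hflt := Submodule.finrank_lt_finrank_of_lt hlt
  have hSK : (LinearMap.range N ⊓ LinearMap.ker N) ⊔ Submodule.span F {u₀} = LinearMap.ker N :=
    Submodule.eq_of_le_of_finrank_le hS1 (by omega)
  have hKsup : LinearMap.ker N ≤ Submodule.span F {u₀} ⊔ LinearMap.range N := by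
    rw [← hSK]
    apply sup_le
    · exact le_trans inf_le_left le_sup_right
    · exact le_sup_left
  -- the polar form is invariant
  have hiso : ∀ v, Q₀ ((x : Matrix ι ι F) *ᵥ v) = Q₀ v := fun v => hx v v
  have hpol : ∀ v w, polar Q₀ ((x : Matrix ι ι F) *ᵥ v) ((x : Matrix ι ι F) *ᵥ w) =
      polar Q₀ v w := by
    intro v w
    unfold polar
    rw [← Matrix.mulVec_add, hiso, hiso, hiso]
  have hNapp : ∀ v, N v = (x : Matrix ι ι F) *ᵥ v - v := by
    intro v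
    rw [← hN', NG_apply]
  have hKfix : ∀ k ∈ LinearMap.ker N, (x : Matrix ι ι F) *ᵥ k = k := by
    intro k hk
    rw [← hN'] at hk
    exact (mem_ker_NG _ _).mp hk
  -- range N is orthogonal to ker N
  have horth : ∀ k ∈ LinearMap.ker N, ∀ w, polar Q₀ k (N w) = 0 := by
    intro k hk w
    rw [hNapp, polar_sub_right]
    nth_rewrite 1 [← hKfix k hk]
    rw [hpol, sub_self]
  have hRle : LinearMap.range N ≤
      LinearMap.BilinForm.orthogonal (polarBilin Q₀) (LinearMap.ker N) := by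
    rintro _ ⟨w, rfl⟩ k hk
    exact horth k hk w
  have hfO : finrank F ↥(LinearMap.BilinForm.orthogonal (polarBilin Q₀) (LinearMap.ker N)) =
      d := by
    rw [LinearMap.BilinForm.finrank_orthogonal (nondegenerate_of_sep hS),
      Module.finrank_fintype_fun_eq_card, hcard, hfK]
    omega
  have hReq : LinearMap.range N =
      LinearMap.BilinForm.orthogonal (polarBilin Q₀) (LinearMap.ker N) :=
    Submodule.eq_of_le_of_finrank_eq hRle (by rw [e1, hr1, hfO])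
  have hQu : Q₀ u₀ ≠ 0 := by
    intro hq
    apply hu₀R
    rw [hReq]
    intro k hk
    show polarBilin Q₀ k u₀ = 0
    rw [pB_apply]
    rw [← hSK] at hk
    obtain ⟨r, hr, s, hs, rfl⟩ := Submodule.mem_sup.mp hk
    obtain ⟨t, rfl⟩ := Submodule.mem_span_singleton.mp hs
    obtain ⟨w, rfl⟩ := hr.1
    rw [polar_add_left, polar_smul_l, polar_self', hq, mul_zero, mul_zero, add_zero, polar_comm]
    exact horth u₀ hu₀K w
  refine ⟨x, hx, hN3, hx1, u₀, ?_, hQu, ?_, ?_⟩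
  · rw [hN']
    exact hu₀K
  · rw [hN']
    exact hKsup
  · rw [hN', e2, hr2]

/-- type `3, 1, 2^(d-2)` with a fixed vector of norm `c` -/
theorem peltC {F : Type u} [Field F] [Fintype F] (p : ℕ) [Fact p.Prime] [CharP F p]
    (h2 : (2 : F) ≠ 0) {ι : Type} [Fintype ι] [DecidableEq ι] (Q₀ : QuadraticForm F (ι → F))
    (hS : Sep Q₀) (d : ℕ) (hd : 2 ≤ d) (hde : Even d) (hcard : Fintype.card ι = 2 * d)
    (c : F) (hc : c ≠ 0) :
    ∃ x : Matrix.GeneralLinearGroup ι F, x ∈ Cfsg.Geo.omegaGL ⇑Q₀ ∧ orderOf x = p ∧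
      ∃ u₁ : ι → F, u₁ ∈ LinearMap.ker (NG (x : Matrix ι ι F)) ∧ Q₀ u₁ = c ∧
        LinearMap.ker (NG (x : Matrix ι ι F)) ≤
          Submodule.span F {u₁} ⊔ LinearMap.range (NG (x : Matrix ι ι F)) ∧
        finrank F ↥(LinearMap.range
          (NG (x : Matrix ι ι F) ∘ₗ NG (x : Matrix ι ι F))) ≤ 1 := by
  classical
  have hp : p.Prime := Fact.out
  have hp3 : 3 ≤ p := three_le_char (F := F) p h2
  obtain ⟨x₀, hx₀, hN3, hx₀1, u₀, hu₀, hQu, hKsup, hr2⟩ := pre h2 Q₀ hS d hd hde hcard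
  -- the similitude
  obtain ⟨lam, hlam⟩ : ∃ lam : F, lam = c / Q₀ u₀ := ⟨_, rfl⟩
  have hlam0 : lam ≠ 0 := by
    rw [hlam]
    exact div_ne_zero hc hQu
  have hsq : IsSquare ((Cfsg.Agent.Lib.Helper95.JOrth.gram (lam • Q₀)).det *
      (Cfsg.Agent.Lib.Helper95.JOrth.gram Q₀).det) := by
    rw [Cfsg.Agent.Lib.Helper95.JOrth.gram_smul, Matrix.det_smul, hcard]
    refine ⟨lam ^ d * (Cfsg.Agent.Lib.Helper95.JOrth.gram Q₀).det, ?_⟩
    ring
  obtain ⟨Φ, hΦ⟩ := Cfsg.Agent.Lib.Helper95.JOrth.exists_iso_of_disc h2 rfl (lam • Q₀) Q₀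
    (Cfsg.Agent.Lib.Helper95.JOrth.sep_smul lam hlam0 Q₀ hS) hS hsq
  have hΦ' : ∀ v, Q₀ (Φ v) = lam * Q₀ v := by
    intro v
    rw [hΦ]
    rfl
  -- the matrix of `Φ`
  obtain ⟨P, hP⟩ : ∃ P : Matrix ι ι F, P = LinearMap.toMatrix' (Φ : (ι → F) →ₗ[F] (ι → F)) :=
    ⟨_, rfl⟩
  obtain ⟨P', hP'⟩ : ∃ P' : Matrix ι ι F,
      P' = LinearMap.toMatrix' (Φ.symm : (ι → F) →ₗ[F] (ι → F)) := ⟨_, rfl⟩
  have hPP' : P * P' = 1 := by
    rw [hP, hP', ← LinearMap.toMatrix'_comp, LinearEquiv.comp_coe, LinearEquiv.symm_trans_self,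
      LinearEquiv.refl_toLinearMap, LinearMap.toMatrix'_id]
  have hP'P : P' * P = 1 := by
    rw [hP, hP', ← LinearMap.toMatrix'_comp, LinearEquiv.comp_coe, LinearEquiv.self_trans_symm,
      LinearEquiv.refl_toLinearMap, LinearMap.toMatrix'_id]
  have hPv : ∀ v, P *ᵥ v = Φ v := by
    intro v
    rw [hP, ← Matrix.toLin'_apply, Matrix.toLin'_toMatrix']
    rfl
  have hP'v : ∀ v, P' *ᵥ v = Φ.symm v := by
    intro v
    rw [hP', ← Matrix.toLin'_apply, Matrix.toLin'_toMatrix']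
    rfl
  obtain ⟨g, hg, hginv⟩ : ∃ g : Matrix.GeneralLinearGroup ι F,
      (g : Matrix ι ι F) = P ∧ ((g⁻¹ : Matrix.GeneralLinearGroup ι F) : Matrix ι ι F) = P' :=
    ⟨⟨P, P', hPP', hP'P⟩, rfl, rfl⟩
  obtain ⟨x, hxdef⟩ : ∃ x : Matrix.GeneralLinearGroup ι F, x = g * x₀ * g⁻¹ := ⟨_, rfl⟩
  have hxm : (x : Matrix ι ι F) = P * (x₀ : Matrix ι ι F) * P' := by
    rw [hxdef, Units.val_mul, Units.val_mul, hg, hginv]
  have hX : ∀ v, (x : Matrix ι ι F) *ᵥ (Φ v) = Φ ((x₀ : Matrix ι ι F) *ᵥ v) := by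
    intro v
    rw [hxm, ← Matrix.mulVec_mulVec, ← Matrix.mulVec_mulVec, hP'v, LinearEquiv.symm_apply_apply,
      hPv]
  have hNΦ : ∀ v, NG (x : Matrix ι ι F) (Φ v) = Φ (NG (x₀ : Matrix ι ι F) v) := by
    intro v
    rw [NG_apply, NG_apply, hX, map_sub]
  have hiso₀ : ∀ v, Q₀ ((x₀ : Matrix ι ι F) *ᵥ v) = Q₀ v := fun v => hx₀ v v
  have hxiso : x ∈ Cfsg.isometryGroup F ⇑Q₀ := by
    intro u v
    show Q₀ ((x : Matrix ι ι F) *ᵥ u) = Q₀ u
    obtain ⟨w, rfl⟩ := Φ.surjective u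
    rw [hX, hΦ', hΦ', hiso₀]
  have hNp : ((x : Matrix ι ι F) - 1) ^ p = 0 := by
    have e : (x : Matrix ι ι F) - 1 =
        (g : Matrix ι ι F) * ((x₀ : Matrix ι ι F) - 1) *
          ((g⁻¹ : Matrix.GeneralLinearGroup ι F) : Matrix ι ι F) := by
      rw [hxm, hg, hginv, mul_sub, sub_mul, mul_one, hPP']
    obtain ⟨t, rfl⟩ : ∃ t, p = 3 + t := ⟨p - 3, by omega⟩
    rw [e, Units.conj_pow, pow_add, hN3, zero_mul, mul_zero, zero_mul]
  obtain ⟨hΩ, hxp⟩ := Cfsg.Agent.Lib.Helper95.JOrth.unip_props h2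
    Q₀ hS (by rw [hcard]; omega) x hxiso hNp
  have hx1 : x ≠ 1 := by
    intro h
    apply hx₀1
    rw [hxdef, mul_inv_eq_one] at h
    exact mul_left_cancel (h.trans (mul_one g).symm)
  refine ⟨x, hΩ, orderOf_eq_prime hxp hx1, Φ u₀, ?_, ?_, ?_, ?_⟩
  · rw [mem_ker_NG, hX, (mem_ker_NG _ _).mp hu₀]
  · rw [hΦ', hlam]
    field_simp
  · intro v hv
    obtain ⟨w, rfl⟩ := Φ.surjective v
    have hw : w ∈ LinearMap.ker (NG (x₀ : Matrix ι ι F)) := by
      rw [mem_ker_NG] at hv ⊢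
      rw [hX] at hv
      exact Φ.injective hv
    obtain ⟨s, hs, r, hr, rfl⟩ := Submodule.mem_sup.mp (hKsup hw)
    obtain ⟨t, rfl⟩ := Submodule.mem_span_singleton.mp hs
    obtain ⟨y, rfl⟩ := hr
    rw [map_add, map_smul, ← hNΦ]
    exact Submodule.add_mem _
      (Submodule.mem_sup_left (Submodule.smul_mem _ _ (Submodule.mem_span_singleton_self _)))
      (Submodule.mem_sup_right ⟨Φ y, rfl⟩)
  · have hle : LinearMap.range (NG (x : Matrix ι ι F) ∘ₗ NG (x : Matrix ι ι F)) ≤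
        (LinearMap.range (NG (x₀ : Matrix ι ι F) ∘ₗ NG (x₀ : Matrix ι ι F))).map
          (Φ : (ι → F) →ₗ[F] (ι → F)) := by
      rintro _ ⟨v, rfl⟩
      obtain ⟨w, rfl⟩ := Φ.surjective v
      refine ⟨NG (x₀ : Matrix ι ι F) (NG (x₀ : Matrix ι ι F) w), ⟨w, rfl⟩, ?_⟩
      rw [LinearMap.comp_apply, hNΦ, hNΦ]
      rfl
    exact le_trans (Submodule.finrank_mono hle) (le_trans (Submodule.finrank_map_le _ _) hr2)

end Cfsg.Agent.Lib.Helper12.OPPELTC
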