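import Mathlib
import Cfsg.Agent.Lib.Helper45.OMiStmt
import Cfsg.Agent.Lib.Helper12.OPPELTC
import Cfsg.Agent.Lib.Helper44.NegPairs

/-!
# S5991 / PELTCM: `d ≥ 2` even, `c ≠ 0`: a unipotent element of order `p` of `Omega^-_(2d)(q)` of
Jordan type `3, 1, 2^(d-2)` with a fixed vector `u₁`, `Q u₁ = c`.
-/

set_option autoImplicit false

universe u

open scoped Matrix

namespace Cfsg.Agent.Lib.Helper12.OMiPELTCM

open Cfsg.Agent.Lib.Helper45.OMiStmt

theorem card_M (d : ℕ) (hd : 1 ≤ d) : Fintype.card (M d) = 2 * d := by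
  simp [M]
  omega

theorem main : PEltCM.{u} := by
  intro F _ _ p _ _ hodd d hd hde a b hab c hc
  classical
  have h2 : (2 : F) ≠ 0 := Cfsg.Agent.Lib.Helper95.JOrth.two_ne_zero_of_odd_card hodd
  have hS := Cfsg.Agent.Lib.Helper44.NegPairs.sep_minusQ (F := F) h2 (d - 1) a b hab
  obtain ⟨x, hΩ, ho, u₁, h1, h3, h4, h5⟩ := Cfsg.Agent.Lib.Helper12.OPPELTC.peltC p h2
    (Cfsg.Agent.Lib.Helper44.NegPairs.minusQ (d - 1) F a b) hS d hd hde (card_M d (by omega)) c hc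
  exact ⟨x, hΩ, ho, u₁, h1, h3, h4, h5⟩

end Cfsg.Agent.Lib.Helper12.OMiPELTCM
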