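import Mathlib
import Cfsg.Agent.Lib.Helper94.OPStmt
import Cfsg.Agent.Lib.Helper95.JOrthE
import Cfsg.Agent.Lib.Helper37.EllPELT
import Cfsg.Agent.Lib.Helper44.NegPairs

/-!
# S5989 / PELTB: `d ≥ 3` odd: a unipotent element `x` of order `p` of `Omega^+_(2d)(q)` of Jordan
type `3, 3, 2^(d-3)`: `Fix x ≤ (x - 1) V`, `(x - 1) ^ 3 = 0`, `dim (x - 1) ^ 2 V ≤ 2`.
-/

set_option autoImplicit false

universe u

open scoped Matrix

namespace Cfsg.Agent.Lib.Helper12.OPPELTB

open Cfsg.Agent.Lib.Helper94.OPStmt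

theorem main : PEltB.{u} := by
  intro F _ _ p _ _ hodd d hd hdodd
  classical
  have hp : p.Prime := Fact.out
  have h2 : (2 : F) ≠ 0 := Cfsg.Agent.Lib.Helper95.JOrth.two_ne_zero_of_odd_card hodd
  have hpodd : Odd p := Cfsg.Agent.Lib.Helper95.JOrth.odd_char_of_two_ne_zero (F := F) h2
  have hp3 : 3 ≤ p := by
    obtain ⟨r, hr⟩ := hpodd
    have := hp.two_le
    omega
  have hcard : Fintype.card (P d) = 2 * d := by
    simp [P]
    omega
  have hS := Cfsg.Agent.Lib.Helper44.NegPairs.sep_plusQ (F := F) d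
  obtain ⟨μ, hμ⟩ : ∃ μ : Multiset ℕ, μ = 3 ::ₘ 3 ::ₘ Multiset.replicate (d - 3) 2 := ⟨_, rfl⟩
  have hmem : ∀ b ∈ μ, b = 3 ∨ b = 2 := by
    intro b hb
    rw [hμ, Multiset.mem_cons, Multiset.mem_cons] at hb
    rcases hb with rfl | rfl | hb
    · exact Or.inl rfl
    · exact Or.inl rfl
    · exact Or.inr (Multiset.eq_of_mem_replicate hb)
  have hpos : ∀ b ∈ μ, 0 < b := by
    intro b hb
    rcases hmem b hb with rfl | rfl <;> omega
  have hev : ∀ e, Even e → Even (μ.count e) := by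
    intro e he
    have he3 : e ≠ 3 := by
      rintro rfl
      exact absurd he (by decide)
    rw [hμ, Multiset.count_cons_of_ne he3, Multiset.count_cons_of_ne he3,
      Multiset.count_replicate]
    split_ifs
    · obtain ⟨r, hr⟩ := hdodd
      exact ⟨r - 1, by omega⟩
    · exact Even.zero
  have hsum : μ.sum = Fintype.card (P d) := by
    rw [hμ, hcard, Multiset.sum_cons, Multiset.sum_cons, Multiset.sum_replicate, smul_eq_mul]
    omega
  have h3μ : (3 : ℕ) ∈ μ := by
    rw [hμ]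
    exact Multiset.mem_cons_self _ _
  obtain ⟨x, hx, -, hrank⟩ := Cfsg.Agent.Lib.Helper95.JOrth.exists_unip h2
    (Cfsg.Agent.Lib.Helper44.NegPairs.plusQ d F) hS μ hpos hev hsum ⟨3, h3μ, by decide⟩
  have hr1 : ((x : Matrix (P d) (P d) F) - 1).rank = d + 1 := by
    have := hrank 1
    rw [pow_one, hμ, Multiset.map_cons, Multiset.map_cons, Multiset.map_replicate,
      Multiset.sum_cons, Multiset.sum_cons, Multiset.sum_replicate, smul_eq_mul] at this
    omega
  have hr2 : (((x : Matrix (P d) (P d) F) - 1) ^ 2).rank = 2 := by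
    have := hrank 2
    rw [hμ, Multiset.map_cons, Multiset.map_cons, Multiset.map_replicate,
      Multiset.sum_cons, Multiset.sum_cons, Multiset.sum_replicate, smul_eq_mul] at this
    omega
  have hr3 : (((x : Matrix (P d) (P d) F) - 1) ^ 3).rank = 0 := by
    have := hrank 3
    rw [hμ, Multiset.map_cons, Multiset.map_cons, Multiset.map_replicate,
      Multiset.sum_cons, Multiset.sum_cons, Multiset.sum_replicate, smul_eq_mul] at this
    omega
  have hN3 : ((x : Matrix (P d) (P d) F) - 1) ^ 3 = 0 :=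
    Cfsg.Agent.Lib.Helper95.JOrth.eq_zero_of_rank_eq_zero _ hr3
  have hNp : ((x : Matrix (P d) (P d) F) - 1) ^ p = 0 := by
    obtain ⟨t, rfl⟩ : ∃ t, p = 3 + t := ⟨p - 3, by omega⟩
    rw [pow_add, hN3, zero_mul]
  obtain ⟨hΩ, hxp⟩ := Cfsg.Agent.Lib.Helper95.JOrth.unip_props h2
    (Cfsg.Agent.Lib.Helper44.NegPairs.plusQ d F) hS (by rw [hcard]; omega) x hx hNp
  have hx1 : x ≠ 1 := by
    intro h
    rw [h] at hr1
    have h0 : ((1 : Matrix.GeneralLinearGroup (P d) F) : Matrix (P d) (P d) F) - 1 = 0 := by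
      simp
    rw [h0, Matrix.rank_zero] at hr1
    omega
  obtain ⟨N, hN⟩ : ∃ N : (P d → F) →ₗ[F] (P d → F),
      N = ((x : Matrix (P d) (P d) F) - 1).mulVecLin := ⟨_, rfl⟩
  have hN' : NP (x : Matrix (P d) (P d) F) = N := by
    unfold NP
    rw [hN, ← Matrix.toLin'_apply', map_sub, Matrix.toLin'_one]
  have hNN : N ∘ₗ N = (((x : Matrix (P d) (P d) F) - 1) ^ 2).mulVecLin := by
    rw [hN, pow_two, Matrix.mulVecLin_mul]
  have hNNN : N ∘ₗ N ∘ₗ N = (((x : Matrix (P d) (P d) F) - 1) ^ 3).mulVecLin := by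
    rw [hNN, hN, ← Matrix.mulVecLin_mul, ← pow_succ']
  have hk := Cfsg.Agent.Lib.Helper37.EllPELT.finrank_range_inf_ker N
  have e1 : Module.finrank F ↥(LinearMap.range N) =
      ((x : Matrix (P d) (P d) F) - 1).rank := by
    rw [hN]
    rfl
  have e2 : Module.finrank F ↥(LinearMap.range (N ∘ₗ N)) =
      (((x : Matrix (P d) (P d) F) - 1) ^ 2).rank := by
    rw [hNN]
    rfl
  have hFx : FxP (x : Matrix (P d) (P d) F) = LinearMap.ker N := by
    unfold FxP
    rw [← hN']
    rfl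
  have hrn := LinearMap.finrank_range_add_finrank_ker N
  rw [Module.finrank_fintype_fun_eq_card, hcard] at hrn
  refine ⟨x, ?_, orderOf_eq_prime hxp hx1, ?_, ?_, ?_⟩
  · rw [← Cfsg.Agent.Lib.Helper44.NegPairs.coe_plusQ]
    exact hΩ
  · rw [hN', hFx]
    have hle : LinearMap.range N ⊓ LinearMap.ker N ≤ LinearMap.ker N := inf_le_right
    have heq : Module.finrank F ↥(LinearMap.range N ⊓ LinearMap.ker N) =
        Module.finrank F ↥(LinearMap.ker N) := by
      rw [e1, e2, hr1, hr2] at hk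
      rw [e1, hr1] at hrn
      omega
    have h5 := Submodule.eq_of_le_of_finrank_eq hle heq
    rw [← h5]
    exact inf_le_left
  · intro v
    rw [hN']
    have h6 : N (N (N v)) = (N ∘ₗ N ∘ₗ N) v := rfl
    rw [h6, hNNN, hN3]
    simp
  · rw [hN', e2, hr2]

end Cfsg.Agent.Lib.Helper12.OPPELTB
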