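import Mathlib
import Cfsg.Prelude.Def_Characters
import Cfsg.Prelude.Def_Blocks
import Cfsg.Agent.Lib.Helper80.Restrict
import Cfsg.Agent.Lib.Helper3.Irr

/-!
Characters of subrepresentations cut out by a commuting operator: the generalized eigenspaces
of an operator `T` commuting with a representation are subrepresentations, and the trace of
`T ^ j` is computed from the multiplicities of the irreducible characters in them.
Namespace `Cfsg.Agent.Lib.Helper12.SubChar`.
-/

set_option autoImplicit false

namespace Cfsg.Agent.Lib.Helper12.SubChar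

open Cfsg
open scoped ComplexConjugate

universe u

variable {G : Type u} [Group G] {V : Type*} [AddCommGroup V] [Module ℂ V]

/-- The generalized eigenspace of a commuting operator, as a subrepresentation. -/
def genSub (ρ : Representation ℂ G V) (T : Module.End ℂ V) (hT : ∀ g, Commute T (ρ g)) (μ : ℂ) :
    Subrepresentation ρ where
  toSubmodule := T.maxGenEigenspace μ
  apply_mem_toSubmodule g _ hv := Module.End.mapsTo_maxGenEigenspace_of_comm (hT g) μ hv

theorem genSub_character [FiniteDimensional ℂ V] (ρ : Representation ℂ G V) (T : Module.End ℂ V)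
    (hT : ∀ g, Commute T (ρ g)) (μ : ℂ) (g : G) :
    (genSub ρ T hT μ).toRepresentation.character g =
      LinearMap.trace ℂ (T.maxGenEigenspace μ)
        ((ρ g).restrict (Module.End.mapsTo_maxGenEigenspace_of_comm (hT g) μ)) := rfl

/-- The trace of `F ^ j` when `F - μ` is nilpotent. -/
theorem trace_pow_of_isNilpotent {W : Type*} [AddCommGroup W] [Module ℂ W] [FiniteDimensional ℂ W]
    (F : Module.End ℂ W) (μ : ℂ) (hF : IsNilpotent (F - algebraMap ℂ _ μ)) (j : ℕ) :
    LinearMap.trace ℂ W (F ^ j) = μ ^ j * (Module.finrank ℂ W : ℂ) := by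
  induction j with
  | zero => simp [LinearMap.trace_one]
  | succ j ih =>
    have h1 : F ^ (j + 1) = (F ^ j) ∘ₗ F := by rw [pow_succ]; rfl
    rw [h1, LinearMap.trace_comp_eq_mul_of_commute_of_isNilpotent μ (Commute.pow_left (Commute.refl F) j) hF, ih]
    ring

theorem spectral [Fintype G] [Fintype (IrrCharacter G)] [FiniteDimensional ℂ V]
    (ρ : Representation ℂ G V) (T : Module.End ℂ V) (hT : ∀ g, Commute T (ρ g)) :
    ∃ (S : Finset ℂ) (d : ℂ → IrrCharacter G → ℕ),
      (∀ μ ∈ S, T.HasEigenvalue μ) ∧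
      (∀ ψ : IrrCharacter G, classInner ρ.character (ψ : G → ℂ) = ((∑ μ ∈ S, d μ ψ : ℕ) : ℂ)) ∧
      (∀ j : ℕ, LinearMap.trace ℂ V (T ^ j) =
        ∑ μ ∈ S, ∑ ψ : IrrCharacter G, μ ^ j * (d μ ψ : ℂ) * (charDegree (ψ : G → ℂ) : ℂ)) := by
  classical
  have hds := DirectSum.isInternal_submodule_of_iSupIndep_of_iSup_eq_top
    T.independent_maxGenEigenspace T.iSup_maxGenEigenspace_eq_top
  have hfin : {μ | T.maxGenEigenspace μ ≠ ⊥}.Finite :=
    WellFoundedGT.finite_ne_bot_of_iSupIndep T.independent_maxGenEigenspace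
  have hchar : ∀ μ, IsCharacter G (genSub ρ T hT μ).toRepresentation.character := fun μ =>
    Cfsg.Agent.Lib.Helper3.Irr.isCharacter_of_rep _
  choose d hd1 hd2 hd3 hd4 using fun μ => Cfsg.Agent.Lib.Helper80.Restrict.exists_mult (hchar μ)
  refine ⟨hfin.toFinset, d, ?_, ?_, ?_⟩
  · intro μ hμ
    rw [Set.Finite.mem_toFinset, Set.mem_ofPred_eq,
      Module.End.maxGenEigenspace_eq_genEigenspace_finrank] at hμ
    exact Module.End.hasEigenvalue_of_hasGenEigenvalue hμ
  · intro ψ
    have h1 : ρ.character = ∑ μ ∈ hfin.toFinset, (genSub ρ T hT μ).toRepresentation.character := by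
      funext g
      rw [Finset.sum_apply]
      exact LinearMap.trace_eq_sum_trace_restrict' hds hfin
        (fun μ => Module.End.mapsTo_maxGenEigenspace_of_comm (hT g) μ)
    rw [h1, Cfsg.Agent.Lib.Helper3.Irr.classInner_sum_left]
    push_cast
    exact Finset.sum_congr rfl fun μ _ => hd1 μ ψ
  · intro j
    have hTj : ∀ μ, Set.MapsTo (T ^ j) (T.maxGenEigenspace μ) (T.maxGenEigenspace μ) := fun μ =>
      Module.End.mapsTo_maxGenEigenspace_of_comm (Commute.pow_right (Commute.refl T) j) μ
    rw [LinearMap.trace_eq_sum_trace_restrict' hds hfin hTj]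
    refine Finset.sum_congr rfl fun μ _ => ?_
    have hT1 := Module.End.mapsTo_maxGenEigenspace_of_comm (Commute.refl T) μ
    have h2 : (T ^ j).restrict (hTj μ) = (T.restrict hT1) ^ j := by
      rw [Module.End.pow_restrict j hT1]
    rw [h2]
    have hnil := T.isNilpotent_restrict_maxGenEigenspace_sub_algebraMap μ
    have h3 : (T - algebraMap ℂ (Module.End ℂ V) μ).restrict
        (Module.End.mapsTo_maxGenEigenspace_of_comm (Algebra.mul_sub_algebraMap_commutes T μ) μ)
        = T.restrict hT1 - algebraMap ℂ _ μ := by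
      apply LinearMap.ext
      intro v
      apply Subtype.ext
      show (T - algebraMap ℂ (Module.End ℂ V) μ) v.1 = T v.1 - (algebraMap ℂ (Module.End ℂ _) μ v).1
      simp [Algebra.algebraMap_eq_smul_one]
    rw [h3] at hnil
    rw [trace_pow_of_isNilpotent _ μ hnil j]
    have h4 : (Module.finrank ℂ (T.maxGenEigenspace μ) : ℂ)
        = (genSub ρ T hT μ).toRepresentation.character 1 := by
      rw [Representation.char_one]
      rfl
    rw [h4, Cfsg.Agent.Lib.Helper80.Integrality.apply_one_eq_charDegree (hchar μ), hd3 μ]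
    push_cast
    rw [Finset.mul_sum]
    exact Finset.sum_congr rfl fun ψ _ => by ring

end Cfsg.Agent.Lib.Helper12.SubChar
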