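import Mathlib
import Cfsg.Prelude.Def_Characters
import Cfsg.Prelude.Def_Blocks
import Cfsg.Prelude.Def_Perm
import Cfsg.Agent.Lib.Helper12.SubChar
import Cfsg.Agent.Lib.Helper80.Integrality

/-!
The complex permutation module `Ω → ℂ` of a finite action: its character, operators given by
invariant matrices, the sum-zero subrepresentation, and the spectral decomposition of an
invariant integer matrix on the sum-zero part.
Namespace `Cfsg.Agent.Lib.Helper12.PermMod`.
-/

set_option autoImplicit false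

namespace Cfsg.Agent.Lib.Helper12.PermMod

open Cfsg
open scoped ComplexConjugate

universe u w

variable {G : Type u} [Group G] {Ω : Type w} [Fintype Ω] [DecidableEq Ω] [MulAction G Ω]

theorem permRep_apply (g : G) (f : Ω → ℂ) (x : Ω) : Cfsg.permRep ℂ G Ω g f x = f (g⁻¹ • x) := rfl

/-- The matrix of a group element in the permutation representation. -/
def pmat (g : G) : Matrix Ω Ω ℂ := Matrix.of fun x y => if g • y = x then 1 else 0

theorem permRep_eq_toLin' (g : G) : Cfsg.permRep ℂ G Ω g = Matrix.toLin' (pmat (Ω := Ω) g) := by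
  apply LinearMap.ext
  intro f
  funext x
  rw [permRep_apply, Matrix.toLin'_apply, Matrix.mulVec, dotProduct]
  rw [Finset.sum_eq_single (g⁻¹ • x)]
  · simp [pmat]
  · intro y _ hy
    have : g • y ≠ x := fun h => hy (by rw [← h, inv_smul_smul])
    simp [pmat, this]
  · intro h
    exact absurd (Finset.mem_univ _) h

theorem card_fixedBy_eq (g : G) :
    Nat.card (MulAction.fixedBy Ω g) = (Finset.univ.filter (fun x : Ω => g • x = x)).card := by
  rw [← Nat.card_eq_finsetCard]
  refine Nat.card_congr (Equiv.subtypeEquivRight ?_)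
  intro x
  simp [MulAction.mem_fixedBy]

theorem permRep_character (g : G) :
    (Cfsg.permRep ℂ G Ω).character g = (Nat.card (MulAction.fixedBy Ω g) : ℂ) := by
  unfold Representation.character
  rw [permRep_eq_toLin', Matrix.trace_toLin'_eq, Matrix.trace, card_fixedBy_eq,
    Finset.card_filter, Nat.cast_sum]
  refine Finset.sum_congr rfl fun x _ => ?_
  simp [pmat]

/-- An operator given by an invariant matrix commutes with the permutation representation. -/
theorem commute_toLin' (M : Matrix Ω Ω ℂ) (hM : ∀ (g : G) (x y : Ω), M (g • x) (g • y) = M x y)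
    (g : G) : Commute (Matrix.toLin' M) (Cfsg.permRep ℂ G Ω g) := by
  apply LinearMap.ext
  intro f
  funext x
  show Matrix.toLin' M (Cfsg.permRep ℂ G Ω g f) x = Cfsg.permRep ℂ G Ω g (Matrix.toLin' M f) x
  rw [permRep_apply, Matrix.toLin'_apply, Matrix.toLin'_apply, Matrix.mulVec, Matrix.mulVec,
    dotProduct, dotProduct]
  refine Fintype.sum_equiv (MulAction.toPerm g⁻¹) _ _ fun y => ?_
  rw [permRep_apply]
  show M x y * f (g⁻¹ • y) = M (g⁻¹ • x) (g⁻¹ • y) * f (g⁻¹ • y)
  rw [hM]

/-- The matrix of an operator commuting with the permutation representation is invariant. -/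
theorem invariant_of_commute (T : Module.End ℂ (Ω → ℂ))
    (hT : ∀ g : G, Commute T (Cfsg.permRep ℂ G Ω g)) (g : G) (x y : Ω) :
    LinearMap.toMatrix' T (g • x) (g • y) = LinearMap.toMatrix' T x y := by
  have h1 := congrFun (LinearMap.congr_fun (hT g).eq (Pi.single y 1)) (g • x)
  have h2 : Cfsg.permRep ℂ G Ω g (Pi.single y 1) = Pi.single (g • y) 1 := by
    funext z
    rw [permRep_apply]
    by_cases hz : z = g • y
    · subst hz
      simp
    · have : g⁻¹ • z ≠ y := fun h => hz (by rw [← h, smul_inv_smul])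
      simp [Pi.single_apply, hz, this]
  rw [Module.End.mul_apply, Module.End.mul_apply, permRep_apply, inv_smul_smul, h2] at h1
  rw [LinearMap.toMatrix'_apply, LinearMap.toMatrix'_apply]
  convert h1 using 2 <;> (congr 1; funext z; simp [Pi.single_apply, eq_comm])

section SumZero

variable [Nonempty Ω]

/-- The averaging operator: projection onto the constants along the sum-zero functions. -/
noncomputable def avg (Ω : Type w) [Fintype Ω] [DecidableEq Ω] : Module.End ℂ (Ω → ℂ) :=
  Matrix.toLin' (Matrix.of fun _ _ : Ω => ((Fintype.card Ω : ℂ))⁻¹)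

theorem avg_apply (v : Ω → ℂ) (x : Ω) : avg Ω v x = (Fintype.card Ω : ℂ)⁻¹ * ∑ y, v y := by
  simp [avg, Matrix.toLin'_apply, Matrix.mulVec, dotProduct, Finset.mul_sum]

theorem card_ne_zero : (Fintype.card Ω : ℂ) ≠ 0 := by
  exact_mod_cast Fintype.card_ne_zero

theorem trace_avg : LinearMap.trace ℂ _ (avg Ω) = 1 := by
  unfold avg
  rw [Matrix.trace_toLin'_eq, Matrix.trace]
  simp [card_ne_zero]

theorem sub_avg_mem (v : Ω → ℂ) : v - avg Ω v ∈ (Cfsg.permSumZero ℂ G Ω).toSubmodule := by
  show ∑ x, (v - avg Ω v) x = 0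
  simp only [Pi.sub_apply, avg_apply, Finset.sum_sub_distrib, Finset.sum_const, Finset.card_univ,
    nsmul_eq_mul]
  rw [← mul_assoc, mul_inv_cancel₀ card_ne_zero, one_mul, sub_self]

theorem avg_of_mem {v : Ω → ℂ} (hv : v ∈ (Cfsg.permSumZero ℂ G Ω).toSubmodule) : avg Ω v = 0 := by
  have hv' : ∑ x, v x = 0 := hv
  funext x
  rw [avg_apply, hv', mul_zero]
  rfl

/-- The trace of the restriction of an operator to the sum-zero functions. -/
theorem trace_restrict (F : Module.End ℂ (Ω → ℂ))
    (hF : ∀ v ∈ (Cfsg.permSumZero ℂ G Ω).toSubmodule, F v ∈ (Cfsg.permSumZero ℂ G Ω).toSubmodule) :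
    LinearMap.trace ℂ _ (F.restrict hF) = LinearMap.trace ℂ _ F - LinearMap.trace ℂ _ (F * avg Ω) := by
  have h1 : ∀ v, (F * (1 - avg Ω)) v ∈ (Cfsg.permSumZero ℂ G Ω).toSubmodule := by
    intro v
    rw [Module.End.mul_apply]
    apply hF
    exact sub_avg_mem (G := G) v
  have h2 := LinearMap.trace_restrict_eq_of_forall_mem _ (F * (1 - avg Ω)) h1
  have h3 : (F * (1 - avg Ω)).restrict (fun x _ => h1 x) = F.restrict hF := by
    apply LinearMap.ext
    intro v
    apply Subtype.ext
    show (F * (1 - avg Ω)) v.1 = F v.1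
    rw [Module.End.mul_apply]
    congr 1
    show v.1 - avg Ω v.1 = v.1
    rw [avg_of_mem (G := G) v.2, sub_zero]
  rw [h3] at h2
  rw [h2, mul_sub, mul_one, map_sub]

/-- The character of the sum-zero subrepresentation is the permutation character minus one. -/
theorem sumZero_character (g : G) :
    (Cfsg.permSumZero ℂ G Ω).toRepresentation.character g
      = (Nat.card (MulAction.fixedBy Ω g) : ℂ) - 1 := by
  have h1 := trace_restrict (G := G) (Cfsg.permRep ℂ G Ω g)
    (fun v hv => (Cfsg.permSumZero ℂ G Ω).apply_mem_toSubmodule g hv)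
  have h2 : Cfsg.permRep ℂ G Ω g * avg Ω = avg Ω := by
    apply LinearMap.ext
    intro v
    funext x
    rw [Module.End.mul_apply, permRep_apply, avg_apply, avg_apply]
  rw [h2, trace_avg] at h1
  rw [← permRep_character]
  exact h1

/-- The operator of an integer matrix. -/
noncomputable def intOp (A : Matrix Ω Ω ℤ) : Module.End ℂ (Ω → ℂ) :=
  Matrix.toLin' (A.map (Int.castRingHom ℂ))

theorem intOp_apply (A : Matrix Ω Ω ℤ) (v : Ω → ℂ) (x : Ω) :
    intOp A v x = ∑ y, (A x y : ℂ) * v y := by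
  simp [intOp, Matrix.toLin'_apply, Matrix.mulVec, dotProduct]

theorem intOp_pow (A : Matrix Ω Ω ℤ) (j : ℕ) : intOp A ^ j = intOp (A ^ j) := by
  unfold intOp
  rw [← Matrix.toLin'_pow, Matrix.map_pow]

theorem trace_intOp (A : Matrix Ω Ω ℤ) : LinearMap.trace ℂ _ (intOp A) = (A.trace : ℂ) := by
  unfold intOp
  rw [Matrix.trace_toLin'_eq]
  simp [Matrix.trace]

theorem intOp_commute (A : Matrix Ω Ω ℤ) (hinv : ∀ (g : G) (x y : Ω), A (g • x) (g • y) = A x y)
    (g : G) : Commute (intOp A) (Cfsg.permRep ℂ G Ω g) := by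
  apply commute_toLin'
  intro g x y
  simp [hinv]

theorem intOp_mem (A : Matrix Ω Ω ℤ) (c' : ℤ) (hcol : ∀ y, ∑ x, A x y = c') :
    ∀ v ∈ (Cfsg.permSumZero ℂ G Ω).toSubmodule, intOp A v ∈ (Cfsg.permSumZero ℂ G Ω).toSubmodule := by
  intro v hv
  have hv' : ∑ x, v x = 0 := hv
  show ∑ x, intOp A v x = 0
  simp only [intOp_apply]
  rw [Finset.sum_comm]
  have : ∀ y, ∑ x, (A x y : ℂ) * v y = (c' : ℂ) * v y := by
    intro y
    rw [← Finset.sum_mul, ← hcol y]
    push_cast
    rfl
  simp only [this]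
  rw [← Finset.mul_sum, hv', mul_zero]

theorem intOp_pow_mul_avg (A : Matrix Ω Ω ℤ) (c : ℤ) (hrow : ∀ x, ∑ y, A x y = c) (j : ℕ) :
    intOp A ^ j * avg Ω = (c : ℂ) ^ j • avg Ω := by
  induction j with
  | zero => simp
  | succ j ih =>
    have h1 : intOp A * avg Ω = (c : ℂ) • avg Ω := by
      apply LinearMap.ext
      intro v
      funext x
      rw [Module.End.mul_apply, intOp_apply, LinearMap.smul_apply, Pi.smul_apply, avg_apply]
      simp only [avg_apply]
      rw [← Finset.sum_mul, ← hrow x]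
      push_cast
      rfl
    rw [pow_succ, mul_assoc, h1, mul_smul_comm, ih, smul_smul, pow_succ, mul_comm]

/-- Spectral decomposition of an invariant integer matrix on the sum-zero functions. -/
theorem spectral_sumZero [Fintype G] [Fintype (IrrCharacter G)]
    (A : Matrix Ω Ω ℤ) (hinv : ∀ (g : G) (x y : Ω), A (g • x) (g • y) = A x y)
    (c c' : ℤ) (hrow : ∀ x, ∑ y, A x y = c) (hcol : ∀ y, ∑ x, A x y = c') :
    ∃ (S : Finset ℂ) (d : ℂ → IrrCharacter G → ℕ),
      (∀ μ ∈ S, ∃ v : Ω → ℂ, v ≠ 0 ∧ ∑ x, v x = 0 ∧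
        (A.map (Int.castRingHom ℂ)).mulVec v = μ • v) ∧
      (∀ ψ : IrrCharacter G,
        classInner (fun g : G => (Nat.card (MulAction.fixedBy Ω g) : ℂ) - 1) (ψ : G → ℂ)
          = ((∑ μ ∈ S, d μ ψ : ℕ) : ℂ)) ∧
      (∀ j : ℕ, ((A ^ j).trace : ℂ) - (c : ℂ) ^ j =
        ∑ μ ∈ S, ∑ ψ : IrrCharacter G, μ ^ j * (d μ ψ : ℂ) * (charDegree (ψ : G → ℂ) : ℂ)) := by
  classical
  have hV := intOp_mem (G := G) A c' hcol
  have hcomm : ∀ g : G, Commute ((intOp A).restrict hV)
      ((Cfsg.permSumZero ℂ G Ω).toRepresentation g) := by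
    intro g
    apply LinearMap.ext
    intro v
    apply Subtype.ext
    exact LinearMap.congr_fun (intOp_commute A hinv g).eq v.1
  obtain ⟨S, d, h1, h2, h3⟩ := Cfsg.Agent.Lib.Helper12.SubChar.spectral
    (Cfsg.permSumZero ℂ G Ω).toRepresentation ((intOp A).restrict hV) hcomm
  refine ⟨S, d, ?_, ?_, ?_⟩
  · intro μ hμ
    obtain ⟨w, hw⟩ := (h1 μ hμ).exists_hasEigenvector
    refine ⟨w.1, ?_, w.2, ?_⟩
    · intro h0
      exact hw.2 (Subtype.ext h0)
    · have h4 := hw.apply_eq_smul
      have h5 := congrArg Subtype.val h4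
      exact h5
  · intro ψ
    have h4 : (Cfsg.permSumZero ℂ G Ω).toRepresentation.character
        = fun g : G => (Nat.card (MulAction.fixedBy Ω g) : ℂ) - 1 := by
      funext g
      exact sumZero_character g
    rw [← h4]
    exact h2 ψ
  · intro j
    rw [← h3 j, Module.End.pow_restrict j hV, trace_restrict (G := G), intOp_pow_mul_avg A c hrow,
      map_smul, trace_avg, intOp_pow, trace_intOp, smul_eq_mul, mul_one]

end SumZero

end Cfsg.Agent.Lib.Helper12.PermMod
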