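import Mathlib
import Cfsg.Prelude.Def_Characters
import Cfsg.Prelude.Def_Blocks
import Cfsg.Prelude.Def_Perm
import Cfsg.Agent.S0157
import Cfsg.Agent.Lib.Helper12.PermMod

/-!
Orbitals of a transitive action: the adjacency matrix of the orbital through a pair `(a, b)`,
its invariance, row and column sums, and the inner products of the permutation character
with itself and with the principal character.
Namespace `Cfsg.Agent.Lib.Helper12.Orbital`.
-/

set_option autoImplicit false

namespace Cfsg.Agent.Lib.Helper12.Orbital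

open Cfsg
open scoped ComplexConjugate

universe u w

variable {G : Type u} [Group G] {Ω : Type w} [MulAction G Ω]

/-- The orbital relation through `(a, b)`. -/
def Orb (G : Type u) [Group G] {Ω : Type w} [MulAction G Ω] (a b x y : Ω) : Prop :=
  ∃ g : G, g • a = x ∧ g • b = y

theorem orb_smul (a b x y : Ω) (g : G) : Orb G a b (g • x) (g • y) ↔ Orb G a b x y := by
  constructor
  · rintro ⟨h, h1, h2⟩
    refine ⟨g⁻¹ * h, ?_, ?_⟩
    · rw [mul_smul, h1, inv_smul_smul]
    · rw [mul_smul, h2, inv_smul_smul]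
  · rintro ⟨h, h1, h2⟩
    exact ⟨g * h, by rw [mul_smul, h1], by rw [mul_smul, h2]⟩

theorem orb_self (a b : Ω) : Orb G a b a b := ⟨1, one_smul _ _, one_smul _ _⟩

theorem orb_diag {a b : Ω} (hab : b ≠ a) (x : Ω) : ¬ Orb G a b x x := by
  rintro ⟨g, h1, h2⟩
  exact hab (smul_left_cancel g (h2.trans h1.symm))

theorem orb_base_iff (a b y : Ω) :
    Orb G a b a y ↔ y ∈ MulAction.orbit (MulAction.stabilizer G a) b := by
  rw [MulAction.mem_orbit_iff]
  constructor
  · rintro ⟨g, h1, h2⟩
    exact ⟨⟨g, h1⟩, h2⟩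
  · rintro ⟨g, h2⟩
    exact ⟨g.1, g.2, h2⟩

open Classical in
/-- The adjacency matrix of the orbital through `(a, b)`. -/
noncomputable def orbMat (G : Type u) [Group G] {Ω : Type w} [MulAction G Ω] (a b : Ω) :
    Matrix Ω Ω ℤ :=
  Matrix.of fun x y => if Orb G a b x y then 1 else 0

open Classical in
theorem orbMat_apply (a b x y : Ω) :
    orbMat G a b x y = if Orb G a b x y then 1 else 0 := rfl

theorem orbMat_smul (a b : Ω) (g : G) (x y : Ω) :
    orbMat G a b (g • x) (g • y) = orbMat G a b x y := by
  classical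
  rw [orbMat_apply, orbMat_apply]
  exact if_congr (orb_smul a b x y g) rfl rfl

variable [Fintype Ω]

theorem orbMat_row_base (a b : Ω) :
    ∑ y, orbMat G a b a y = (Nat.card (MulAction.orbit (MulAction.stabilizer G a) b) : ℤ) := by
  classical
  simp only [orbMat_apply]
  rw [Finset.sum_boole]
  norm_cast
  rw [← Nat.card_eq_finsetCard]
  refine Nat.card_congr ?_
  refine (Equiv.subtypeEquivRight ?_)
  intro y
  rw [Finset.mem_filter, orb_base_iff]
  simp

theorem orbMat_row [MulAction.IsPretransitive G Ω] (a b x : Ω) :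
    ∑ y, orbMat G a b x y = (Nat.card (MulAction.orbit (MulAction.stabilizer G a) b) : ℤ) := by
  obtain ⟨h, rfl⟩ := MulAction.exists_smul_eq G a x
  rw [← orbMat_row_base (G := G) a b]
  refine (Fintype.sum_equiv (MulAction.toPerm h) _ _ fun y => ?_).symm
  exact (orbMat_smul a b h a y).symm

theorem orbMat_col [MulAction.IsPretransitive G Ω] (a b y : Ω) :
    ∑ x, orbMat G a b x y = ∑ x, orbMat G a b x a := by
  obtain ⟨h, rfl⟩ := MulAction.exists_smul_eq G a y
  refine (Fintype.sum_equiv (MulAction.toPerm h) _ _ fun x => ?_).symm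
  exact (orbMat_smul a b h x a).symm

theorem orbMat_trace {a b : Ω} (hab : b ≠ a) : (orbMat G a b).trace = 0 := by
  unfold Matrix.trace
  apply Finset.sum_eq_zero
  intro x _
  rw [Matrix.diag_apply, orbMat_apply, if_neg (orb_diag hab x)]

section Inner

variable [Fintype G]

theorem inner_perm_one [MulAction.IsPretransitive G Ω] [Nonempty Ω] :
    classInner (fun g : G => (Nat.card (MulAction.fixedBy Ω g) : ℂ)) (fun _ => (1 : ℂ)) = 1 := by
  have hcard : (Nat.card G : ℂ) ≠ 0 := by exact_mod_cast Nat.card_pos.ne'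
  have horb1 : Nat.card (Quotient (MulAction.orbitRel G Ω)) = 1 := by
    have hsub : Subsingleton (Quotient (MulAction.orbitRel G Ω)) :=
      (MulAction.pretransitive_iff_subsingleton_quotient G Ω).1 inferInstance
    have hne : Nonempty (Quotient (MulAction.orbitRel G Ω)) :=
      (inferInstance : Nonempty Ω).map (Quotient.mk _)
    exact Nat.card_unique
  unfold classInner
  simp only [map_one, mul_one]
  have h := Cfsg.Agent.S0157.sum_permChar (G := G) (X := Ω)
  unfold Cfsg.Agent.S0157.permChar at h
  rw [h, horb1]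
  simp [hcard]

/-- The inner product of the permutation character with itself is the rank. -/
theorem inner_perm_perm [MulAction.IsPretransitive G Ω] (a : Ω) :
    classInner (fun g : G => (Nat.card (MulAction.fixedBy Ω g) : ℂ))
        (fun g : G => (Nat.card (MulAction.fixedBy Ω g) : ℂ))
      = (Nat.card (MulAction.orbitRel.Quotient (MulAction.stabilizer G a) Ω) : ℂ) := by
  have hcard : (Nat.card G : ℂ) ≠ 0 := by exact_mod_cast Nat.card_pos.ne'
  have h1 : classInner (fun g : G => (Nat.card (MulAction.fixedBy Ω g) : ℂ))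
        (fun g : G => (Nat.card (MulAction.fixedBy Ω g) : ℂ))
      = (Nat.card (Quotient (MulAction.orbitRel G (Ω × Ω))) : ℂ) := by
    unfold classInner
    simp only [Complex.conj_natCast]
    have h2 : ∑ g : G, (Nat.card (MulAction.fixedBy Ω g) : ℂ) * (Nat.card (MulAction.fixedBy Ω g) : ℂ)
        = ∑ g : G, Cfsg.Agent.S0157.permChar G (Ω × Ω) g :=
      Finset.sum_congr rfl (fun g _ => (Cfsg.Agent.S0157.permChar_prod g).symm)
    rw [h2, Cfsg.Agent.S0157.sum_permChar, ← mul_assoc, mul_comm _ (Nat.card (Quotient _) : ℂ),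
      mul_assoc, inv_mul_cancel₀ hcard, mul_one]
  rw [h1]
  congr 1
  symm
  let φ : MulAction.orbitRel.Quotient (MulAction.stabilizer G a) Ω →
      Quotient (MulAction.orbitRel G (Ω × Ω)) :=
    Quotient.lift (fun y : Ω => (Quotient.mk _ (a, y) : Quotient (MulAction.orbitRel G (Ω × Ω))))
      (by
        intro y y' hyy
        obtain ⟨g, hg⟩ := MulAction.orbitRel_apply.1 hyy
        apply Quotient.sound
        show (MulAction.orbitRel G (Ω × Ω)) (a, y) (a, y')
        rw [MulAction.orbitRel_apply]
        refine ⟨g.1, ?_⟩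
        exact Prod.ext g.2 hg)
  apply Nat.card_eq_of_bijective φ
  constructor
  · intro q q'
    refine Quotient.inductionOn₂ q q' ?_
    intro y y' h
    have h3 : (MulAction.orbitRel G (Ω × Ω)) (a, y) (a, y') := Quotient.exact h
    obtain ⟨g, hg⟩ := MulAction.orbitRel_apply.1 h3
    apply Quotient.sound
    show (MulAction.orbitRel (MulAction.stabilizer G a) Ω) y y'
    rw [MulAction.orbitRel_apply]
    exact ⟨⟨g, congrArg Prod.fst hg⟩, congrArg Prod.snd hg⟩
  · intro q
    refine Quotient.inductionOn q ?_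
    rintro ⟨x, y⟩
    obtain ⟨g, hg⟩ := MulAction.exists_smul_eq G x a
    refine ⟨Quotient.mk _ (g • y), ?_⟩
    apply Quotient.sound
    show (MulAction.orbitRel G (Ω × Ω)) (a, g • y) (x, y)
    rw [MulAction.orbitRel_apply]
    exact ⟨g, Prod.ext hg rfl⟩

end Inner

end Cfsg.Agent.Lib.Helper12.Orbital
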