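import Mathlib
import Cfsg.Prelude.Def_Characters
import Cfsg.Prelude.Def_Blocks
import Cfsg.Prelude.Def_Perm
import Cfsg.Agent.Lib.Helper12.Commutant
import Cfsg.Agent.Lib.Helper12.PermMod

/-!
The commutant of a multiplicity-free representation is spanned by the central operators of
its constituents; matrices of the central operators of a permutation representation and
their transposes.
Namespace `Cfsg.Agent.Lib.Helper12.PermSym`.
-/

set_option autoImplicit false

namespace Cfsg.Agent.Lib.Helper12.PermSym

open Cfsg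
open scoped ComplexConjugate Matrix
open Cfsg.Agent.Lib.Helper3.Complete Cfsg.Agent.Lib.Helper12.Commutant

universe u w

section General

variable {G : Type u} [Group G] [Fintype G] {V : Type*} [AddCommGroup V] [Module ℂ V]
  [FiniteDimensional ℂ V]

/-- In the multiplicity-free case the commutant is spanned by the central operators of the
constituents. -/
theorem inv_le_span_constituents [Fintype (IrrCharacter G)] (ρ : Representation ℂ G V)
    (hmf : ∀ ψ : IrrCharacter G, classInner ρ.character (ψ : G → ℂ) = 0 ∨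
      classInner ρ.character (ψ : G → ℂ) = 1) :
    (ρ.linHom ρ).invariants ≤ Submodule.span ℂ (Set.range
      fun i : {ψ : IrrCharacter G // classInner ρ.character (ψ : G → ℂ) ≠ 0} =>
        cOp ρ (i.1 : G → ℂ)) := by
  classical
  let e : {ψ : IrrCharacter G // classInner ρ.character (ψ : G → ℂ) ≠ 0} → (V →ₗ[ℂ] V) :=
    fun i => cOp ρ (i.1 : G → ℂ)
  have hli : LinearIndependent ℂ e := by
    rw [Fintype.linearIndependent_iff]
    intro g hg i
    let a : IrrCharacter G → ℂ := fun ψ =>
      if h : classInner ρ.character (ψ : G → ℂ) ≠ 0 then g ⟨ψ, h⟩ else 0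
    have h1 : ∑ ψ : IrrCharacter G, a ψ • cOp ρ (ψ : G → ℂ) = 0 := by
      rw [← hg]
      have h2 : ∑ ψ : IrrCharacter G, a ψ • cOp ρ (ψ : G → ℂ)
          = ∑ ψ ∈ Finset.univ.filter
            (fun ψ : IrrCharacter G => classInner ρ.character (ψ : G → ℂ) ≠ 0),
            a ψ • cOp ρ (ψ : G → ℂ) := by
        symm
        apply Finset.sum_subset (Finset.filter_subset _ _)
        intro ψ _ hψ
        have : ¬ classInner ρ.character (ψ : G → ℂ) ≠ 0 :=
          fun h => hψ (Finset.mem_filter.2 ⟨Finset.mem_univ _, h⟩)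
        simp only [a, dif_neg this, zero_smul]
      rw [h2, Finset.sum_subtype (Finset.univ.filter _)
        (p := fun ψ : IrrCharacter G => classInner ρ.character (ψ : G → ℂ) ≠ 0) (by simp)]
      refine Finset.sum_congr rfl fun x _ => ?_
      simp only [a, dif_pos x.2, e]
    have h3 := cOp_indep ρ a h1 i.1 i.2
    have h4 : a i.1 = g i := by simp only [a, dif_pos i.2]
    rw [h4] at h3
    exact h3
  have hle : Submodule.span ℂ (Set.range e) ≤ (ρ.linHom ρ).invariants := by
    rw [Submodule.span_le]
    rintro _ ⟨i, rfl⟩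
    exact cOp_mem ρ (Cfsg.Agent.Lib.Helper3.Irr.IsIrrCharacter.isClassFunction i.1.2)
  have hfr : Module.finrank ℂ (Submodule.span ℂ (Set.range e))
      = Module.finrank ℂ (ρ.linHom ρ).invariants := by
    rw [finrank_span_eq_card hli]
    have h1 := finrank_inv ρ
    obtain ⟨m, hm1, -, -, hm4⟩ := Cfsg.Agent.Lib.Helper80.Restrict.exists_mult
      (Cfsg.Agent.Lib.Helper3.Irr.isCharacter_of_rep ρ)
    rw [hm4] at h1
    have h2 : Module.finrank ℂ (ρ.linHom ρ).invariants = ∑ ψ : IrrCharacter G, m ψ ^ 2 := by
      exact_mod_cast h1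
    rw [h2, Fintype.card_subtype, Finset.card_filter]
    refine Finset.sum_congr rfl fun ψ _ => ?_
    rcases hmf ψ with h | h
    · have : m ψ = 0 := by
        rw [hm1 ψ] at h
        exact_mod_cast h
      simp [h, this]
    · have : m ψ = 1 := by
        rw [hm1 ψ] at h
        exact_mod_cast h
      simp [h, this]
  have heq := Submodule.eq_of_le_of_finrank_eq hle hfr
  rw [← heq]

end General

section Perm

variable {G : Type u} [Group G] [Fintype G] {Ω : Type w} [Fintype Ω] [DecidableEq Ω]
  [MulAction G Ω]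

theorem toMatrix'_permRep (g : G) :
    LinearMap.toMatrix' (Cfsg.permRep ℂ G Ω g) = PermMod.pmat g := by
  rw [PermMod.permRep_eq_toLin', LinearMap.toMatrix'_toLin']

theorem pmat_transpose (g : G) : (PermMod.pmat (Ω := Ω) g)ᵀ = PermMod.pmat g⁻¹ := by
  ext x y
  simp only [Matrix.transpose_apply, PermMod.pmat, Matrix.of_apply]
  by_cases h : g • x = y
  · rw [if_pos h, if_pos (by rw [← h, inv_smul_smul])]
  · rw [if_neg h, if_neg (fun h' => h (by rw [← h', smul_inv_smul]))]

theorem toMatrix'_cOp (ψ : G → ℂ) :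
    LinearMap.toMatrix' (cOp (Cfsg.permRep ℂ G Ω) ψ)
      = ∑ g : G, conj (ψ g) • PermMod.pmat (Ω := Ω) g := by
  unfold cOp opSum
  rw [map_sum]
  refine Finset.sum_congr rfl fun g _ => ?_
  rw [map_smul, toMatrix'_permRep]

/-- The transpose of the matrix of a central operator. -/
theorem transpose_cOp (ψ : G → ℂ) :
    (LinearMap.toMatrix' (cOp (Cfsg.permRep ℂ G Ω) ψ))ᵀ
      = LinearMap.toMatrix' (cOp (Cfsg.permRep ℂ G Ω) (fun g => ψ g⁻¹)) := by
  rw [toMatrix'_cOp, toMatrix'_cOp, Matrix.transpose_sum]
  simp only [Matrix.transpose_smul, pmat_transpose]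
  exact Fintype.sum_equiv (Equiv.inv G) _ _ (fun g => by simp)

end Perm

end Cfsg.Agent.Lib.Helper12.PermSym
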