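import Mathlib

/-!
Counting the points of a set by the orbits of a point stabilizer.
Namespace `Cfsg.Agent.Lib.Helper12.Suborbit`.
-/

set_option autoImplicit false

namespace Cfsg.Agent.Lib.Helper12.Suborbit

universe u w

variable {G : Type u} [Group G] {Ω : Type w} [MulAction G Ω]

theorem orbit_base (a : Ω) : MulAction.orbit (MulAction.stabilizer G a) a = {a} := by
  ext x
  rw [MulAction.mem_orbit_iff, Set.mem_singleton_iff]
  constructor
  · rintro ⟨h, rfl⟩
    exact h.2
  · rintro rfl
    exact ⟨1, one_smul _ _⟩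

theorem card_orbit_pos (H : Type*) [Group H] [MulAction H Ω] [Finite Ω] (b : Ω) :
    0 < Nat.card (MulAction.orbit H b) := by
  have : Nonempty (MulAction.orbit H b) := ⟨⟨b, MulAction.mem_orbit_self b⟩⟩
  exact Nat.card_pos

/-- The number of points is the sum of the sizes of the orbits of a point stabilizer: one for
the base point, and the other suborbits. -/
theorem card_eq_one_add_sum [Fintype Ω] (a : Ω)
    [Fintype (MulAction.orbitRel.Quotient (MulAction.stabilizer G a) Ω)]
    [DecidableEq (MulAction.orbitRel.Quotient (MulAction.stabilizer G a) Ω)] :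
    Fintype.card Ω = 1 + ∑ ω ∈ (Finset.univ.erase
        (Quotient.mk'' a : MulAction.orbitRel.Quotient (MulAction.stabilizer G a) Ω)),
      Nat.card (MulAction.orbitRel.Quotient.orbit ω) := by
  have h1 : Fintype.card Ω = ∑ ω : MulAction.orbitRel.Quotient (MulAction.stabilizer G a) Ω,
      Nat.card (MulAction.orbitRel.Quotient.orbit ω) := by
    rw [← Nat.card_eq_fintype_card,
      Nat.card_congr (MulAction.selfEquivSigmaOrbits' (MulAction.stabilizer G a) Ω), Nat.card_sigma]
  rw [h1, ← Finset.add_sum_erase Finset.univ _ (Finset.mem_univ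
    (Quotient.mk'' a : MulAction.orbitRel.Quotient (MulAction.stabilizer G a) Ω))]
  congr 1
  rw [MulAction.orbitRel.Quotient.orbit_mk, orbit_base]
  simp

theorem mk_ne_base {a b : Ω} (hb : b ≠ a) :
    (Quotient.mk'' b : MulAction.orbitRel.Quotient (MulAction.stabilizer G a) Ω)
      ≠ Quotient.mk'' a := by
  intro h
  have h1 : b ∈ MulAction.orbit (MulAction.stabilizer G a) a := by
    rw [← MulAction.orbitRel.Quotient.orbit_mk, ← h, MulAction.orbitRel.Quotient.orbit_mk]
    exact MulAction.mem_orbit_self b
  rw [orbit_base] at h1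
  exact hb h1

/-- If every non-trivial suborbit has at least `f` points, then the degree is at least
`1 + (r - 1) * f` for the rank `r`, with equality only if all non-trivial subdegrees are `f`. -/
theorem suborbit_bound [Fintype Ω] (a : Ω) (f : ℕ)
    (hf : ∀ b : Ω, b ≠ a → f ≤ Nat.card (MulAction.orbit (MulAction.stabilizer G a) b)) :
    1 + (Nat.card (MulAction.orbitRel.Quotient (MulAction.stabilizer G a) Ω) - 1) * f
        ≤ Fintype.card Ω ∧
    (1 + (Nat.card (MulAction.orbitRel.Quotient (MulAction.stabilizer G a) Ω) - 1) * f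
        = Fintype.card Ω →
      ∀ b : Ω, b ≠ a → Nat.card (MulAction.orbit (MulAction.stabilizer G a) b) = f) := by
  classical
  have : Fintype (MulAction.orbitRel.Quotient (MulAction.stabilizer G a) Ω) := Fintype.ofFinite _
  have h1 := card_eq_one_add_sum (G := G) a
  have h2 : ∀ ω ∈ (Finset.univ.erase
      (Quotient.mk'' a : MulAction.orbitRel.Quotient (MulAction.stabilizer G a) Ω)),
      f ≤ Nat.card (MulAction.orbitRel.Quotient.orbit ω) := by
    intro ω hω
    have hne := Finset.ne_of_mem_erase hω
    revert hne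
    refine Quotient.inductionOn' ω ?_
    intro b hne
    have hb : b ≠ a := by
      rintro rfl
      exact hne rfl
    rw [MulAction.orbitRel.Quotient.orbit_mk]
    exact hf b hb
  have h3 : ∑ _ω ∈ (Finset.univ.erase
      (Quotient.mk'' a : MulAction.orbitRel.Quotient (MulAction.stabilizer G a) Ω)), f
      = (Nat.card (MulAction.orbitRel.Quotient (MulAction.stabilizer G a) Ω) - 1) * f := by
    rw [Finset.sum_const, Finset.card_erase_of_mem (Finset.mem_univ _), Finset.card_univ,
      Nat.card_eq_fintype_card, smul_eq_mul]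
  have h4 := Finset.sum_le_sum h2
  rw [h3] at h4
  refine ⟨by omega, ?_⟩
  intro heq b hb
  have h5 : ∑ _ω ∈ (Finset.univ.erase
      (Quotient.mk'' a : MulAction.orbitRel.Quotient (MulAction.stabilizer G a) Ω)), f
      = ∑ ω ∈ (Finset.univ.erase
      (Quotient.mk'' a : MulAction.orbitRel.Quotient (MulAction.stabilizer G a) Ω)),
      Nat.card (MulAction.orbitRel.Quotient.orbit ω) := by
    rw [h3]
    omega
  have h6 := (Finset.sum_eq_sum_iff_of_le h2).1 h5 (Quotient.mk'' b)
    (Finset.mem_erase.2 ⟨mk_ne_base hb, Finset.mem_univ _⟩)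
  rw [MulAction.orbitRel.Quotient.orbit_mk] at h6
  exact h6.symm

end Cfsg.Agent.Lib.Helper12.Suborbit
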