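import Mathlib
import Cfsg.Prelude.Def_Characters
import Cfsg.Prelude.Def_Blocks
import Cfsg.Prelude.Def_Perm
import Cfsg.Agent.Lib.Helper12.Orbital
import Cfsg.Agent.Lib.Helper12.Suborbit

/-!
Transitive actions of rank three: the three suborbits, self-pairedness in even degree, and the
quadratic relation satisfied by the adjacency matrix of an orbital.
Namespace `Cfsg.Agent.Lib.Helper12.Rank3`.
-/

set_option autoImplicit false

namespace Cfsg.Agent.Lib.Helper12.Rank3

open Cfsg
open Cfsg.Agent.Lib.Helper12.Orbital Cfsg.Agent.Lib.Helper12.Suborbit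

universe u w

variable {G : Type u} [Group G] {Ω : Type w} [MulAction G Ω]

/-- In rank three there is exactly one suborbit besides the base point and a given one. -/
theorem exists_third [Fintype Ω] (a₀ b : Ω) (hb : b ≠ a₀)
    (hrank : Nat.card (MulAction.orbitRel.Quotient (MulAction.stabilizer G a₀) Ω) = 3) :
    ∃ c : Ω, c ≠ a₀ ∧ c ∉ MulAction.orbit (MulAction.stabilizer G a₀) b ∧
      (∀ y : Ω, y ≠ a₀ → y ∉ MulAction.orbit (MulAction.stabilizer G a₀) b →
        y ∈ MulAction.orbit (MulAction.stabilizer G a₀) c) ∧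
      Fintype.card Ω = 1 + Nat.card (MulAction.orbit (MulAction.stabilizer G a₀) b)
        + Nat.card (MulAction.orbit (MulAction.stabilizer G a₀) c) := by
  classical
  have : Fintype (MulAction.orbitRel.Quotient (MulAction.stabilizer G a₀) Ω) := Fintype.ofFinite _
  have h01 := mk_ne_base (G := G) hb
  have hcard : Fintype.card (MulAction.orbitRel.Quotient (MulAction.stabilizer G a₀) Ω) = 3 := by
    rw [← Nat.card_eq_fintype_card, hrank]
  have hmem1 : (Quotient.mk'' b : MulAction.orbitRel.Quotient (MulAction.stabilizer G a₀) Ω)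
      ∈ Finset.univ.erase
        (Quotient.mk'' a₀ : MulAction.orbitRel.Quotient (MulAction.stabilizer G a₀) Ω) :=
    Finset.mem_erase.2 ⟨h01, Finset.mem_univ _⟩
  have hs : ((Finset.univ.erase
      (Quotient.mk'' a₀ : MulAction.orbitRel.Quotient (MulAction.stabilizer G a₀) Ω)).erase
      (Quotient.mk'' b)).card = 1 := by
    rw [Finset.card_erase_of_mem hmem1, Finset.card_erase_of_mem (Finset.mem_univ _),
      Finset.card_univ, hcard]
  obtain ⟨q₂, hq₂⟩ := Finset.card_eq_one.1 hs
  have hq₂mem : q₂ ∈ (Finset.univ.erase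
      (Quotient.mk'' a₀ : MulAction.orbitRel.Quotient (MulAction.stabilizer G a₀) Ω)).erase
      (Quotient.mk'' b) := by
    rw [hq₂]
    exact Finset.mem_singleton_self _
  obtain ⟨c, rfl⟩ := Quotient.exists_rep q₂
  have hq₂1 := Finset.ne_of_mem_erase hq₂mem
  have hq₂0 := Finset.ne_of_mem_erase (Finset.mem_of_mem_erase hq₂mem)
  have h1 := card_eq_one_add_sum (G := G) a₀
  rw [← Finset.add_sum_erase _ _ hmem1, hq₂, Finset.sum_singleton,
    MulAction.orbitRel.Quotient.orbit_mk] at h1
  refine ⟨c, ?_, ?_, ?_, ?_⟩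
  · rintro rfl
    exact hq₂0 rfl
  · intro hc
    apply hq₂1
    rw [← MulAction.orbitRel.Quotient.orbit_mk, MulAction.orbitRel.Quotient.mem_orbit] at hc
    exact hc
  · intro y hy0 hy1
    have h2 : (Quotient.mk'' y : MulAction.orbitRel.Quotient (MulAction.stabilizer G a₀) Ω)
        ∈ (Finset.univ.erase
      (Quotient.mk'' a₀ : MulAction.orbitRel.Quotient (MulAction.stabilizer G a₀) Ω)).erase
      (Quotient.mk'' b) := by
      refine Finset.mem_erase.2 ⟨?_, Finset.mem_erase.2 ⟨mk_ne_base hy0, Finset.mem_univ _⟩⟩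
      intro h3
      apply hy1
      rw [← MulAction.orbitRel.Quotient.orbit_mk, MulAction.orbitRel.Quotient.mem_orbit]
      exact h3
    rw [hq₂, Finset.mem_singleton] at h2
    rw [← MulAction.orbitRel.Quotient.orbit_mk, MulAction.orbitRel.Quotient.mem_orbit]
    exact h2
  · rw [h1]
    have h3 : MulAction.orbitRel.Quotient.orbit
        (Quotient.mk (MulAction.orbitRel (MulAction.stabilizer G a₀) Ω) c)
        = MulAction.orbit (MulAction.stabilizer G a₀) c :=
      MulAction.orbitRel.Quotient.orbit_mk c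
    rw [h3, add_assoc]

/-- In a primitive action of rank three and even degree no non-trivial suborbit is a single
point. -/
theorem card_orbit_ne_one [Fintype Ω] [MulAction.IsPreprimitive G Ω] (a₀ b : Ω) (hb : b ≠ a₀)
    (hrank : Nat.card (MulAction.orbitRel.Quotient (MulAction.stabilizer G a₀) Ω) = 3)
    (heven : Even (Fintype.card Ω)) :
    Nat.card (MulAction.orbit (MulAction.stabilizer G a₀) b) ≠ 1 := by
  intro h1
  have hfix : ∀ h ∈ MulAction.stabilizer G a₀, h • b = b := by
    intro h hh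
    have hs : Subsingleton (MulAction.orbit (MulAction.stabilizer G a₀) b) :=
      (Nat.card_eq_one_iff_unique.1 h1).1
    have h2 : (⟨(⟨h, hh⟩ : MulAction.stabilizer G a₀) • b, MulAction.mem_orbit _ _⟩ :
        MulAction.orbit (MulAction.stabilizer G a₀) b) = ⟨b, MulAction.mem_orbit_self b⟩ :=
      Subsingleton.elim _ _
    exact congrArg Subtype.val h2
  have hnt : Nontrivial Ω := ⟨⟨b, a₀, hb⟩⟩
  have hco := MulAction.IsPreprimitive.isCoatom_stabilizer_of_isPreprimitive (G := G) a₀
  have hle : MulAction.stabilizer G a₀ ≤ MulAction.stabilizer G b := fun h hh => hfix h hh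
  have hbtop : MulAction.stabilizer G b ≠ ⊤ := by
    intro htop
    obtain ⟨g, hg⟩ := MulAction.exists_smul_eq G b a₀
    have h2 : g ∈ MulAction.stabilizer G b := by
      rw [htop]
      trivial
    rw [MulAction.mem_stabilizer_iff, hg] at h2
    exact hb h2.symm
  have heq : MulAction.stabilizer G b = MulAction.stabilizer G a₀ := (hco.le_iff_eq hbtop).1 hle
  obtain ⟨g, hg⟩ := MulAction.exists_smul_eq G a₀ b
  have hgN : g ∈ Subgroup.normalizer ((MulAction.stabilizer G a₀ : Subgroup G) : Set G) := by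
    rw [Subgroup.mem_normalizer_iff]
    intro h
    have e1 : g * h * g⁻¹ ∈ MulAction.stabilizer G a₀ ↔ g * h * g⁻¹ ∈ MulAction.stabilizer G b := by
      rw [heq]
    rw [e1, MulAction.mem_stabilizer_iff, MulAction.mem_stabilizer_iff, ← hg, mul_smul, mul_smul,
      inv_smul_smul, smul_left_cancel_iff]
  have hgH : g ∉ MulAction.stabilizer G a₀ := by
    intro hh
    rw [MulAction.mem_stabilizer_iff, hg] at hh
    exact hb hh
  have hNtop : Subgroup.normalizer ((MulAction.stabilizer G a₀ : Subgroup G) : Set G) = ⊤ := by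
    apply hco.2
    exact lt_of_le_of_ne Subgroup.le_normalizer (fun h => hgH (by rw [h]; exact hgN))
  have hall : ∀ (x : Ω) (h : G), h ∈ MulAction.stabilizer G a₀ → h • x = x := by
    intro x h hh
    obtain ⟨t, rfl⟩ := MulAction.exists_smul_eq G a₀ x
    have ht : t⁻¹ ∈ Subgroup.normalizer ((MulAction.stabilizer G a₀ : Subgroup G) : Set G) := by
      rw [hNtop]
      trivial
    have h2 := (Subgroup.mem_normalizer_iff.1 ht h).1 hh
    rw [MulAction.mem_stabilizer_iff, inv_inv, mul_smul, mul_smul, inv_smul_eq_iff] at h2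
    exact h2
  classical
  have : Fintype (MulAction.orbitRel.Quotient (MulAction.stabilizer G a₀) Ω) := Fintype.ofFinite _
  have h2 := card_eq_one_add_sum (G := G) a₀
  have h3 : ∀ ω ∈ Finset.univ.erase
      (Quotient.mk'' a₀ : MulAction.orbitRel.Quotient (MulAction.stabilizer G a₀) Ω),
      Nat.card (MulAction.orbitRel.Quotient.orbit ω) = 1 := by
    intro ω _
    induction ω using Quotient.inductionOn' with
    | h x =>
      rw [MulAction.orbitRel.Quotient.orbit_mk]
      have h4 : MulAction.orbit (MulAction.stabilizer G a₀) x = {x} := by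
        ext y
        rw [MulAction.mem_orbit_iff, Set.mem_singleton_iff]
        constructor
        · rintro ⟨h, rfl⟩
          exact hall x h.1 h.2
        · rintro rfl
          exact ⟨1, one_smul _ _⟩
      rw [h4]
      simp
  have hcard : Fintype.card (MulAction.orbitRel.Quotient (MulAction.stabilizer G a₀) Ω) = 3 := by
    rw [← Nat.card_eq_fintype_card, hrank]
  rw [Finset.sum_congr rfl h3, Finset.sum_const, Finset.card_erase_of_mem (Finset.mem_univ _),
    Finset.card_univ, hcard] at h2
  obtain ⟨r, hr⟩ := heven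
  simp at h2
  omega

/-- The column sums of the adjacency matrix of an orbital equal the subdegree. -/
theorem orbMat_col_eq [Fintype Ω] [MulAction.IsPretransitive G Ω] (a b y : Ω) :
    ∑ x, orbMat G a b x y = (Nat.card (MulAction.orbit (MulAction.stabilizer G a) b) : ℤ) := by
  have h1 : ∑ x : Ω, ∑ y : Ω, orbMat G a b x y
      = (Fintype.card Ω : ℤ) * (Nat.card (MulAction.orbit (MulAction.stabilizer G a) b) : ℤ) := by
    rw [Finset.sum_congr rfl (fun x _ => orbMat_row (G := G) a b x), Finset.sum_const,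
      Finset.card_univ, nsmul_eq_mul]
  have h2 : ∑ x : Ω, ∑ y : Ω, orbMat G a b x y
      = (Fintype.card Ω : ℤ) * ∑ x, orbMat G a b x a := by
    rw [Finset.sum_comm (s := Finset.univ) (t := Finset.univ) (f := fun x y => orbMat G a b x y),
      Finset.sum_congr rfl (fun y _ => orbMat_col (G := G) a b y),
      Finset.sum_const, Finset.card_univ, nsmul_eq_mul]
  have hn : (Fintype.card Ω : ℤ) ≠ 0 := by
    have : Nonempty Ω := ⟨a⟩
    exact_mod_cast Fintype.card_ne_zero
  rw [orbMat_col (G := G) a b y]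
  exact mul_left_cancel₀ hn (h2.symm.trans h1)

/-- The paired suborbit has the same size. -/
theorem exists_paired [Fintype Ω] [MulAction.IsPretransitive G Ω] (a₀ b : Ω) (hb : b ≠ a₀) :
    ∃ b' : Ω, b' ≠ a₀ ∧ Nat.card (MulAction.orbit (MulAction.stabilizer G a₀) b')
        = Nat.card (MulAction.orbit (MulAction.stabilizer G a₀) b) ∧
      (b' ∈ MulAction.orbit (MulAction.stabilizer G a₀) b → Orb G a₀ b b a₀) := by
  classical
  obtain ⟨g, hg⟩ := MulAction.exists_smul_eq G b a₀
  refine ⟨g • a₀, ?_, ?_, ?_⟩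
  · intro h
    exact hb (smul_left_cancel g (hg.trans h.symm))
  · have h1 := orbMat_row_base (G := G) a₀ (g • a₀)
    have h2 := orbMat_col_eq (G := G) a₀ b a₀
    have h3 : ∀ y : Ω, orbMat G a₀ (g • a₀) a₀ y = orbMat G a₀ b y a₀ := by
      intro y
      rw [orbMat_apply, orbMat_apply]
      refine if_congr ?_ rfl rfl
      constructor
      · rintro ⟨h, h4, h5⟩
        refine ⟨h * g, ?_, ?_⟩
        · rw [mul_smul, h5]
        · rw [mul_smul, hg, h4]
      · rintro ⟨t, h4, h5⟩
        refine ⟨t * g⁻¹, ?_, ?_⟩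
        · rw [mul_smul, inv_smul_eq_iff.2 hg.symm, h5]
        · rw [mul_smul, inv_smul_smul, h4]
    rw [Finset.sum_congr rfl (fun y _ => h3 y), h2] at h1
    exact_mod_cast h1.symm
  · intro h
    rw [MulAction.mem_orbit_iff] at h
    obtain ⟨t, ht⟩ := h
    have ht' : (t : G) • b = g • a₀ := ht
    refine ⟨(t : G)⁻¹ * g, ?_, ?_⟩
    · rw [mul_smul, ← ht', inv_smul_smul]
    · rw [mul_smul, hg, inv_smul_eq_iff]
      exact t.2.symm

/-- In rank three and even degree every orbital is self-paired. -/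
theorem orb_symm_of_rank3 [Fintype Ω] [MulAction.IsPretransitive G Ω] (a₀ b : Ω) (hb : b ≠ a₀)
    (hrank : Nat.card (MulAction.orbitRel.Quotient (MulAction.stabilizer G a₀) Ω) = 3)
    (heven : Even (Fintype.card Ω)) : Orb G a₀ b b a₀ := by
  obtain ⟨b', hb'0, hb'1, hb'2⟩ := exists_paired (G := G) a₀ b hb
  by_contra hns
  obtain ⟨c, -, -, hc3, hc4⟩ := exists_third (G := G) a₀ b hb hrank
  have h1 := hc3 b' hb'0 (fun h => hns (hb'2 h))
  rw [← MulAction.orbit_eq_iff] at h1
  rw [← h1, hb'1] at hc4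
  obtain ⟨r, hr⟩ := heven
  omega

theorem orbMat_symm_of (a b : Ω) (h : Orb G a b b a) (x y : Ω) :
    orbMat G a b x y = orbMat G a b y x := by
  classical
  obtain ⟨t, ht1, ht2⟩ := h
  have key : ∀ x y : Ω, Orb G a b x y → Orb G a b y x := by
    rintro x y ⟨g, h1, h2⟩
    exact ⟨g * t, by rw [mul_smul, ht1, h2], by rw [mul_smul, ht2, h1]⟩
  rw [orbMat_apply, orbMat_apply]
  exact if_congr ⟨key x y, key y x⟩ rfl rfl

theorem orbMat_mul_self (a b x y : Ω) : orbMat G a b x y * orbMat G a b x y = orbMat G a b x y := by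
  classical
  rw [orbMat_apply]
  split_ifs <;> simp

/-- The trace of the square of a symmetric orbital matrix. -/
theorem trace_sq [Fintype Ω] [DecidableEq Ω] [MulAction.IsPretransitive G Ω] (a b : Ω)
    (h : Orb G a b b a) :
    (orbMat G a b ^ 2).trace
      = (Fintype.card Ω : ℤ) * (Nat.card (MulAction.orbit (MulAction.stabilizer G a) b) : ℤ) := by
  rw [pow_two, Matrix.trace]
  have h1 : ∀ x : Ω, (orbMat G a b * orbMat G a b).diag x
      = (Nat.card (MulAction.orbit (MulAction.stabilizer G a) b) : ℤ) := by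
    intro x
    rw [Matrix.diag_apply, Matrix.mul_apply, ← orbMat_row (G := G) a b x]
    refine Finset.sum_congr rfl fun z _ => ?_
    rw [orbMat_symm_of a b h z x, orbMat_mul_self]
  simp only [h1]
  rw [Finset.sum_const, Finset.card_univ, nsmul_eq_mul]

theorem mul_self_smul [Fintype Ω] (a b : Ω) (g : G) (x y : Ω) :
    (orbMat G a b * orbMat G a b) (g • x) (g • y) = (orbMat G a b * orbMat G a b) x y := by
  rw [Matrix.mul_apply, Matrix.mul_apply]
  refine (Fintype.sum_equiv (MulAction.toPerm g) _ _ fun z => ?_).symm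
  show orbMat G a b x z * orbMat G a b z y
    = orbMat G a b (g • x) (g • z) * orbMat G a b (g • z) (g • y)
  rw [orbMat_smul, orbMat_smul]

/-- In rank three the square of a symmetric orbital matrix is a combination of the identity,
the matrix itself and the all-ones matrix. -/
theorem sq_entry [Fintype Ω] [DecidableEq Ω] [MulAction.IsPretransitive G Ω] (a₀ b : Ω)
    (hb : b ≠ a₀)
    (hrank : Nat.card (MulAction.orbitRel.Quotient (MulAction.stabilizer G a₀) Ω) = 3)
    (hsym : Orb G a₀ b b a₀) :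
    ∃ lam mu : ℤ, ∀ x y : Ω, (orbMat G a₀ b * orbMat G a₀ b) x y
      = ((Nat.card (MulAction.orbit (MulAction.stabilizer G a₀) b) : ℤ) - mu)
          * (if x = y then 1 else 0) + (lam - mu) * orbMat G a₀ b x y + mu := by
  classical
  obtain ⟨c, hc1, hc2, hc3, -⟩ := exists_third (G := G) a₀ b hb hrank
  refine ⟨(orbMat G a₀ b * orbMat G a₀ b) a₀ b, (orbMat G a₀ b * orbMat G a₀ b) a₀ c, ?_⟩
  intro x y
  by_cases hxy : x = y
  · subst hxy
    rw [if_pos rfl, orbMat_apply (G := G) a₀ b x x, if_neg (orb_diag hb x), mul_one, mul_zero,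
      add_zero, sub_add_cancel, Matrix.mul_apply, ← orbMat_row (G := G) a₀ b x]
    refine Finset.sum_congr rfl fun z _ => ?_
    rw [orbMat_symm_of a₀ b hsym z x, orbMat_mul_self]
  · rw [if_neg hxy, mul_zero, zero_add]
    obtain ⟨g, hg⟩ := MulAction.exists_smul_eq G x a₀
    have hy : g • y ≠ a₀ := by
      intro h
      exact hxy (smul_left_cancel g (hg.trans h.symm))
    rw [← mul_self_smul a₀ b g x y, ← orbMat_smul a₀ b g x y, hg]
    by_cases horb : Orb G a₀ b a₀ (g • y)
    · rw [orbMat_apply (G := G) a₀ b a₀ (g • y), if_pos horb, mul_one, sub_add_cancel]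
      obtain ⟨h, h1, h2⟩ := horb
      have e := mul_self_smul a₀ b h a₀ b
      rw [h1, h2] at e
      exact e
    · rw [orbMat_apply (G := G) a₀ b a₀ (g • y), if_neg horb, mul_zero, zero_add]
      have h3 := hc3 (g • y) hy (fun h => horb ((orb_base_iff a₀ b (g • y)).2 h))
      rw [MulAction.mem_orbit_iff] at h3
      obtain ⟨h, h2⟩ := h3
      have h2' : (h : G) • c = g • y := h2
      have e := mul_self_smul a₀ b (h : G) a₀ c
      rw [show (h : G) • a₀ = a₀ from h.2, h2'] at e
      exact e

/-- The quadratic equation satisfied by the eigenvalues on the sum-zero functions. -/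
theorem eigen_quadratic [Fintype Ω] [DecidableEq Ω] (A : Matrix Ω Ω ℤ) (k lam mu : ℤ)
    (hA : ∀ x y : Ω, (A * A) x y = (k - mu) * (if x = y then 1 else 0) + (lam - mu) * A x y + mu)
    (v : Ω → ℂ) (hv : v ≠ 0) (hv0 : ∑ x, v x = 0) (θ : ℂ)
    (hθ : (A.map (Int.castRingHom ℂ)).mulVec v = θ • v) :
    θ ^ 2 = ((lam - mu : ℤ) : ℂ) * θ + ((k - mu : ℤ) : ℂ) := by
  have h1 : ((A * A).map (Int.castRingHom ℂ)).mulVec v = (θ ^ 2) • v := by
    rw [Matrix.map_mul, ← Matrix.mulVec_mulVec, hθ, Matrix.mulVec_smul, hθ, smul_smul, pow_two]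
  obtain ⟨x, hx⟩ : ∃ x, v x ≠ 0 := by
    by_contra hcon
    push Not at hcon
    exact hv (funext hcon)
  have h2 := congrFun h1 x
  have h3 : ((A * A).map (Int.castRingHom ℂ)).mulVec v x
      = ((k - mu : ℤ) : ℂ) * v x + ((lam - mu : ℤ) : ℂ) * (θ * v x) := by
    have h4 : (A.map (Int.castRingHom ℂ)).mulVec v x = θ * v x := by
      rw [hθ]
      rfl
    rw [Matrix.mulVec, dotProduct] at h4 ⊢
    have h5 : ∀ y : Ω, ((A * A).map (Int.castRingHom ℂ)) x y * v y
        = ((k - mu : ℤ) : ℂ) * (if x = y then v y else 0)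
          + ((lam - mu : ℤ) : ℂ) * ((A.map (Int.castRingHom ℂ)) x y * v y) + (mu : ℂ) * v y := by
      intro y
      rw [Matrix.map_apply, Matrix.map_apply, hA x y]
      simp only [eq_intCast]
      push_cast
      split_ifs <;> ring
    simp only [h5]
    rw [Finset.sum_add_distrib, Finset.sum_add_distrib, ← Finset.mul_sum, ← Finset.mul_sum,
      ← Finset.mul_sum, h4, hv0, mul_zero, add_zero, Finset.sum_ite_eq, if_pos (Finset.mem_univ _)]
  rw [h3] at h2
  have h6 : (θ ^ 2 • v) x = θ ^ 2 * v x := rfl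
  rw [h6] at h2
  have h7 : (θ ^ 2 - (((lam - mu : ℤ) : ℂ) * θ + ((k - mu : ℤ) : ℂ))) * v x = 0 := by
    linear_combination -h2
  rcases mul_eq_zero.1 h7 with h8 | h8
  · exact sub_eq_zero.1 h8
  · exact absurd h8 hx

end Cfsg.Agent.Lib.Helper12.Rank3
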