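import Mathlib

/-!
# Zassenhaus' theorem on Frobenius complements: generic group theory

Klein four obstruction to the Z-group property, normal Z-subgroups of
`V₄, A₄, S₄, A₅, S₅`, the uniqueness part, and recognition helpers.
-/

set_option autoImplicit false

namespace Cfsg.Agent.Lib.Helper12.ZsA

open Subgroup Equiv Equiv.Perm

theorem pgroup_zpowers_sq {H : Type*} [Group H] {a : H} (ha : a ^ 2 = 1) :
    IsPGroup 2 (zpowers a) := by
  intro g
  refine ⟨1, ?_⟩
  obtain ⟨k, hk⟩ := mem_zpowers_iff.mp g.2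
  apply Subtype.ext
  rw [Subgroup.coe_pow, ← hk, pow_one, ← zpow_natCast, ← zpow_mul, mul_comm, zpow_mul,
    zpow_natCast, ha, one_zpow]
  rfl

/-- Two distinct commuting involutions obstruct the Z-group property. -/
theorem not_zgroup_of_klein {H : Type*} [Group H] [Finite H] (a b : H) (ha : a ^ 2 = 1)
    (hb : b ^ 2 = 1) (hab : a * b = b * a) (ha1 : a ≠ 1) (hb1 : b ≠ 1) (hne : a ≠ b) :
    ¬ IsZGroup H := by
  intro hZ
  haveI : Fact (Nat.Prime 2) := ⟨Nat.prime_two⟩
  have hn : zpowers b ≤ normalizer ((zpowers a : Subgroup H) : Set H) := by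
    rw [zpowers_le, mem_normalizer_iff]
    intro h
    have key : ∀ h : H, h ∈ zpowers a → b * h * b⁻¹ = h := by
      intro h hh
      obtain ⟨k, rfl⟩ := mem_zpowers_iff.mp hh
      have hc : Commute b a := hab.symm
      have := (hc.zpow_right k).eq
      rw [this, mul_inv_cancel_right]
    constructor
    · intro hh
      rw [key h hh]; exact hh
    · intro hh
      have h2 := key _ hh
      have h4 : b⁻¹ * (b * h * b⁻¹) * b = h := by group
      have h3 : b * h * b⁻¹ = h := by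
        have h5 : b * (b * h * b⁻¹) * b⁻¹ = b * h * b⁻¹ := h2
        calc b * h * b⁻¹ = b⁻¹ * (b * (b * h * b⁻¹) * b⁻¹) * b := by group
          _ = b⁻¹ * (b * h * b⁻¹) * b := by rw [h5]
          _ = h := h4
      rw [← h3]; exact hh
  have hW : IsPGroup 2 (zpowers b ⊔ zpowers a : Subgroup H) :=
    IsPGroup.to_sup_of_normal_right' (pgroup_zpowers_sq hb) (pgroup_zpowers_sq ha) hn
  haveI : IsCyclic (zpowers b ⊔ zpowers a : Subgroup H) := hW.isCyclic_of_isZGroup
  have haW : a ∈ (zpowers b ⊔ zpowers a : Subgroup H) :=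
    (le_sup_right : zpowers a ≤ _) (mem_zpowers a)
  have hbW : b ∈ (zpowers b ⊔ zpowers a : Subgroup H) :=
    (le_sup_left : zpowers b ≤ _) (mem_zpowers b)
  classical
  haveI := Fintype.ofFinite (zpowers b ⊔ zpowers a : Subgroup H)
  have h1 := IsCyclic.card_pow_eq_one_le (α := (zpowers b ⊔ zpowers a : Subgroup H))
    (n := 2) (by norm_num)
  have hsub : ({1, ⟨a, haW⟩, ⟨b, hbW⟩} : Finset (zpowers b ⊔ zpowers a : Subgroup H)) ⊆
      Finset.univ.filter (fun x : (zpowers b ⊔ zpowers a : Subgroup H) => x ^ 2 = 1) := by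
    intro x hx
    simp only [Finset.mem_insert, Finset.mem_singleton] at hx
    simp only [Finset.mem_filter, Finset.mem_univ, true_and]
    rcases hx with rfl | rfl | rfl
    · exact one_pow 2
    · exact Subtype.ext ha
    · exact Subtype.ext hb
  have h3 : ({1, ⟨a, haW⟩, ⟨b, hbW⟩} : Finset (zpowers b ⊔ zpowers a : Subgroup H)).card = 3 := by
    rw [Finset.card_insert_of_notMem, Finset.card_insert_of_notMem, Finset.card_singleton]
    · simp only [Finset.mem_singleton]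
      exact fun h => hne (congrArg Subtype.val h)
    · simp only [Finset.mem_insert, Finset.mem_singleton, not_or]
      exact ⟨fun h => ha1 (congrArg Subtype.val h).symm, fun h => hb1 (congrArg Subtype.val h).symm⟩
  have h4 := Finset.card_le_card hsub
  omega

/-- A Z-subgroup contains no Klein four-group. -/
theorem no_klein_sub {H : Type*} [Group H] [Finite H] (M : Subgroup H) (hM : IsZGroup M)
    (a b : H) (haM : a ∈ M) (hbM : b ∈ M) (ha : a ^ 2 = 1)
    (hb : b ^ 2 = 1) (hab : a * b = b * a) (ha1 : a ≠ 1) (hb1 : b ≠ 1) (hne : a ≠ b) : False := by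
  refine not_zgroup_of_klein (H := M) ⟨a, haM⟩ ⟨b, hbM⟩ (Subtype.ext ha) (Subtype.ext hb)
    (Subtype.ext hab) (fun h => ha1 (congrArg Subtype.val h))
    (fun h => hb1 (congrArg Subtype.val h)) (fun h => hne (congrArg Subtype.val h)) hM

/-- The image of a Z-subgroup is a Z-subgroup. -/
theorem map_zgroup {G Q : Type*} [Group G] [Finite G] [Group Q] (f : G →* Q)
    (N : Subgroup G) (hN : IsZGroup N) : IsZGroup (N.map f) :=
  IsZGroup.of_surjective (f := f.subgroupMap N) (f.subgroupMap_surjective N)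

theorem le_ker_of_noZ {G Q : Type*} [Group G] [Finite G] [Group Q]
    (hQ : ∀ M : Subgroup Q, M.Normal → IsZGroup M → M = ⊥) (f : G →* Q)
    (hs : Function.Surjective f) (N : Subgroup G) (hn : N.Normal) (hz : IsZGroup N) :
    N ≤ f.ker := by
  have h1 := hQ (N.map f) (hn.map f hs) (map_zgroup f N hz)
  exact (Subgroup.map_eq_bot_iff N).mp h1

theorem index_ker_of_surj {G Q : Type*} [Group G] [Group Q] (f : G →* Q)
    (hs : Function.Surjective f) : f.ker.index = Nat.card Q := by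
  rw [Subgroup.index_ker, MonoidHom.range_eq_top.mpr hs, Subgroup.card_top]

/-! ### Small groups -/

set_option maxRecDepth 100000 in
theorem s4_conj : ∀ g : Perm (Fin 4), g ≠ 1 → ∃ a b : Perm (Fin 4),
    a * g * a⁻¹ * (b * g * b⁻¹)⁻¹ = swap 0 1 * swap 2 3 := by
  decide

set_option maxRecDepth 100000 in
theorem a4_conj : ∀ g : alternatingGroup (Fin 4), g ≠ 1 → ∃ a b : alternatingGroup (Fin 4),
    ((a * g * a⁻¹ * (b * g * b⁻¹)⁻¹ : alternatingGroup (Fin 4)) : Perm (Fin 4))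
      = swap 0 1 * swap 2 3 := by
  decide

set_option maxRecDepth 100000 in
theorem a4_conj2 : ∃ c : alternatingGroup (Fin 4),
    ((c : Perm (Fin 4)) * (swap 0 1 * swap 2 3) * (c : Perm (Fin 4))⁻¹) = swap 0 2 * swap 1 3 := by
  decide

theorem kl_facts : (swap (0 : Fin 4) 1 * swap 2 3) ^ 2 = 1 ∧
    (swap (0 : Fin 4) 2 * swap 1 3) ^ 2 = 1 ∧
    (swap (0 : Fin 4) 1 * swap 2 3) * (swap 0 2 * swap 1 3)
      = (swap 0 2 * swap 1 3) * (swap 0 1 * swap 2 3) ∧
    (swap (0 : Fin 4) 1 * swap 2 3) ≠ 1 ∧ (swap (0 : Fin 4) 2 * swap 1 3) ≠ 1 ∧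
    (swap (0 : Fin 4) 1 * swap 2 3) ≠ (swap (0 : Fin 4) 2 * swap 1 3) := by
  decide

theorem kl_facts5 : (swap (0 : Fin 5) 1 * swap 2 3) ^ 2 = 1 ∧
    (swap (0 : Fin 5) 2 * swap 1 3) ^ 2 = 1 ∧
    (swap (0 : Fin 5) 1 * swap 2 3) * (swap 0 2 * swap 1 3)
      = (swap 0 2 * swap 1 3) * (swap 0 1 * swap 2 3) ∧
    (swap (0 : Fin 5) 1 * swap 2 3) ≠ 1 ∧ (swap (0 : Fin 5) 2 * swap 1 3) ≠ 1 ∧
    (swap (0 : Fin 5) 1 * swap 2 3) ≠ (swap (0 : Fin 5) 2 * swap 1 3) := by
  decide

theorem kl_mem5 : (swap (0 : Fin 5) 1 * swap 2 3) ∈ alternatingGroup (Fin 5) ∧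
    (swap (0 : Fin 5) 2 * swap 1 3) ∈ alternatingGroup (Fin 5) := by
  constructor <;> rw [Equiv.Perm.mem_alternatingGroup] <;> decide

theorem v4_facts : ∀ c : DihedralGroup 2, ¬ ∀ y : DihedralGroup 2, y = 1 ∨ y = c := by decide

theorem v4_sq : ∀ c : DihedralGroup 2, c ^ 2 = 1 := by decide

theorem v4_kl : (DihedralGroup.r 1 : DihedralGroup 2) ^ 2 = 1 ∧
    (DihedralGroup.sr 0 : DihedralGroup 2) ^ 2 = 1 ∧
    (DihedralGroup.r 1 : DihedralGroup 2) * DihedralGroup.sr 0
      = DihedralGroup.sr 0 * DihedralGroup.r 1 ∧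
    (DihedralGroup.r 1 : DihedralGroup 2) ≠ 1 ∧ (DihedralGroup.sr 0 : DihedralGroup 2) ≠ 1 ∧
    (DihedralGroup.r 1 : DihedralGroup 2) ≠ DihedralGroup.sr 0 := by decide

theorem q8_center : ∀ q : QuaternionGroup 2, (∀ r : QuaternionGroup 2, q * r = r * q) →
    q ^ 2 = 1 := by decide

theorem q8_exp : ∀ q : QuaternionGroup 2, q ^ 4 = 1 := by decide

/-- `V₄` is not a Z-group: a Z-subgroup of `V₄` is proper. -/
theorem noZ_V4 (M : Subgroup (DihedralGroup 2)) (hM : IsZGroup M) : M ≠ ⊤ := by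
  intro h
  obtain ⟨k1, k2, k3, k4, k5, k6⟩ := v4_kl
  exact no_klein_sub M hM _ _ (h ▸ mem_top _) (h ▸ mem_top _) k1 k2 k3 k4 k5 k6

theorem noZ_A4 (M : Subgroup (alternatingGroup (Fin 4))) (hn : M.Normal) (hM : IsZGroup M) :
    M = ⊥ := by
  by_contra hne
  obtain ⟨g, hgM, hg1⟩ : ∃ g : alternatingGroup (Fin 4), g ∈ M ∧ g ≠ 1 := by
    obtain ⟨g, h⟩ := (Subgroup.ne_bot_iff_exists_ne_one (H := M)).mp hne
    exact ⟨g, g.2, fun hh => h (Subtype.ext hh)⟩
  obtain ⟨a, b, hab⟩ := a4_conj g hg1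
  obtain ⟨c, hc⟩ := a4_conj2
  obtain ⟨k1, k2, k3, k4, k5, k6⟩ := kl_facts
  have hd1 : a * g * a⁻¹ * (b * g * b⁻¹)⁻¹ ∈ M :=
    mul_mem (hn.conj_mem g hgM a) (inv_mem (hn.conj_mem g hgM b))
  obtain ⟨d1, hd1def⟩ : ∃ d1 : alternatingGroup (Fin 4), d1 = a * g * a⁻¹ * (b * g * b⁻¹)⁻¹ :=
    ⟨_, rfl⟩
  rw [← hd1def] at hab hd1
  have hd2 : c * d1 * c⁻¹ ∈ M := hn.conj_mem _ hd1 c
  obtain ⟨d2, hd2def⟩ : ∃ d2 : alternatingGroup (Fin 4), d2 = c * d1 * c⁻¹ := ⟨_, rfl⟩
  rw [← hd2def] at hd2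
  have hv2 : (d2 : Perm (Fin 4)) = swap 0 2 * swap 1 3 := by
    rw [← hc, ← hab, hd2def]; rfl
  refine no_klein_sub M hM d1 d2 hd1 hd2 (Subtype.ext ?_) (Subtype.ext ?_) (Subtype.ext ?_)
    (fun h => k4 ?_) (fun h => k5 ?_) (fun h => k6 ?_)
  · rw [Subgroup.coe_pow, hab]; exact k1
  · rw [Subgroup.coe_pow, hv2]; exact k2
  · rw [Subgroup.coe_mul, Subgroup.coe_mul, hv2, hab]; exact k3
  · rw [← hab, h]; rfl
  · rw [← hv2, h]; rfl
  · rw [← hab, ← hv2, ← h]

theorem noZ_S4 (M : Subgroup (Perm (Fin 4))) (hn : M.Normal) (hM : IsZGroup M) :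
    M = ⊥ := by
  by_contra hne
  obtain ⟨g, hgM, hg1⟩ : ∃ g : Perm (Fin 4), g ∈ M ∧ g ≠ 1 := by
    obtain ⟨g, h⟩ := (Subgroup.ne_bot_iff_exists_ne_one (H := M)).mp hne
    exact ⟨g, g.2, fun hh => h (Subtype.ext hh)⟩
  obtain ⟨a, b, hab⟩ := s4_conj g hg1
  obtain ⟨k1, k2, k3, k4, k5, k6⟩ := kl_facts
  have hd1 : swap (0 : Fin 4) 1 * swap 2 3 ∈ M := by
    rw [← hab]
    exact mul_mem (hn.conj_mem g hgM a) (inv_mem (hn.conj_mem g hgM b))
  have hc : swap (1 : Fin 4) 2 * (swap 0 1 * swap 2 3) * (swap (1 : Fin 4) 2)⁻¹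
      = swap 0 2 * swap 1 3 := by decide
  have hd2 : swap (0 : Fin 4) 2 * swap 1 3 ∈ M := by
    rw [← hc]; exact hn.conj_mem _ hd1 _
  exact no_klein_sub M hM _ _ hd1 hd2 k1 k2 k3 k4 k5 k6

theorem noZ_A5 (M : Subgroup (alternatingGroup (Fin 5))) (hn : M.Normal) (hM : IsZGroup M) :
    M = ⊥ := by
  haveI : IsSimpleGroup (alternatingGroup (Fin 5)) := alternatingGroup.isSimpleGroup (by simp)
  rcases hn.eq_bot_or_eq_top with h | h
  · exact h
  · exfalso
    obtain ⟨k1, k2, k3, k4, k5, k6⟩ := kl_facts5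
    obtain ⟨m1, m2⟩ := kl_mem5
    refine no_klein_sub M hM ⟨_, m1⟩ ⟨_, m2⟩ (h ▸ mem_top _) (h ▸ mem_top _) (Subtype.ext ?_)
      (Subtype.ext ?_) (Subtype.ext ?_) (fun h => k4 ?_) (fun h => k5 ?_) (fun h => k6 ?_)
    · exact k1
    · exact k2
    · exact k3
    · exact congrArg Subtype.val h
    · exact congrArg Subtype.val h
    · exact congrArg Subtype.val h

theorem noZ_S5 (M : Subgroup (Perm (Fin 5))) (hn : M.Normal) (hM : IsZGroup M) :
    M = ⊥ := by
  obtain ⟨k1, k2, k3, k4, k5, k6⟩ := kl_facts5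
  obtain ⟨m1, m2⟩ := kl_mem5
  by_contra hne
  haveI := hn
  have hnt : Nontrivial M := (Subgroup.nontrivial_iff_ne_bot M).mpr hne
  have hle := Equiv.Perm.alternatingGroup_le_of_normal (α := Fin 5) (by simp) hnt
  exact no_klein_sub M hM _ _ (hle m1) (hle m2) k1 k2 k3 k4 k5 k6

theorem card_V4 : Nat.card (DihedralGroup 2) = 4 := by rw [DihedralGroup.nat_card]

theorem card_A4 : Nat.card (alternatingGroup (Fin 4)) = 12 := by
  rw [nat_card_alternatingGroup]; simp [Nat.factorial]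

theorem card_S4 : Nat.card (Perm (Fin 4)) = 24 := by
  rw [Nat.card_perm]; simp [Nat.factorial]

theorem card_A5 : Nat.card (alternatingGroup (Fin 5)) = 60 := by
  rw [nat_card_alternatingGroup]; simp [Nat.factorial]

theorem card_S5 : Nat.card (Perm (Fin 5)) = 120 := by
  rw [Nat.card_perm]; simp [Nat.factorial]

/-! ### The Klein four quotient of a generalized quaternion group -/

/-- `Q_{4m} → V₄` for even `m`. -/
def quatV4 (m : ℕ) (hm : 2 ∣ m) : QuaternionGroup m →* DihedralGroup 2 where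
  toFun x := match x with
    | QuaternionGroup.a i => DihedralGroup.r (ZMod.castHom (dvd_mul_right 2 m) (ZMod 2) i)
    | QuaternionGroup.xa i => DihedralGroup.sr (ZMod.castHom (dvd_mul_right 2 m) (ZMod 2) i)
  map_one' := by
    show DihedralGroup.r (ZMod.castHom (dvd_mul_right 2 m) (ZMod 2) 0) = 1
    rw [map_zero]; rfl
  map_mul' := by
    have hm0 : ((m : ℕ) : ZMod 2) = 0 := (ZMod.natCast_eq_zero_iff m 2).mpr hm
    rintro (i | i) (j | j)
    · show DihedralGroup.r (ZMod.castHom (dvd_mul_right 2 m) (ZMod 2) (i + j)) =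
        DihedralGroup.r _ * DihedralGroup.r _
      rw [DihedralGroup.r_mul_r, map_add]
    · show DihedralGroup.sr (ZMod.castHom (dvd_mul_right 2 m) (ZMod 2) (j - i)) =
        DihedralGroup.r _ * DihedralGroup.sr _
      rw [DihedralGroup.r_mul_sr, map_sub]
    · show DihedralGroup.sr (ZMod.castHom (dvd_mul_right 2 m) (ZMod 2) (i + j)) =
        DihedralGroup.sr _ * DihedralGroup.r _
      rw [DihedralGroup.sr_mul_r, map_add]
    · show DihedralGroup.r (ZMod.castHom (dvd_mul_right 2 m) (ZMod 2)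
          ((m : ZMod (2 * m)) + j - i)) = DihedralGroup.sr _ * DihedralGroup.sr _
      rw [DihedralGroup.sr_mul_sr, map_sub, map_add, map_natCast, hm0, zero_add]

theorem quatV4_surj (m : ℕ) [NeZero m] (hm : 2 ∣ m) : Function.Surjective (quatV4 m hm) := by
  rintro (i | i)
  · refine ⟨QuaternionGroup.a ((i.val : ℕ) : ZMod (2 * m)), ?_⟩
    show DihedralGroup.r (ZMod.castHom (dvd_mul_right 2 m) (ZMod 2) ((i.val : ℕ) : ZMod (2 * m)))
      = DihedralGroup.r i
    rw [map_natCast, ZMod.natCast_zmod_val]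
  · refine ⟨QuaternionGroup.xa ((i.val : ℕ) : ZMod (2 * m)), ?_⟩
    show DihedralGroup.sr (ZMod.castHom (dvd_mul_right 2 m) (ZMod 2) ((i.val : ℕ) : ZMod (2 * m)))
      = DihedralGroup.sr i
    rw [map_natCast, ZMod.natCast_zmod_val]

theorem quatV4_ker_le (m : ℕ) [NeZero m] (hm : 2 ∣ m) :
    (quatV4 m hm).ker ≤ zpowers (QuaternionGroup.a 1) := by
  rintro (i | i) hx
  · rw [mem_zpowers_iff]
    refine ⟨((i.val : ℕ) : ℤ), ?_⟩
    rw [zpow_natCast, QuaternionGroup.a_one_pow, ZMod.natCast_zmod_val]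
  · exfalso
    rw [MonoidHom.mem_ker] at hx
    have h1 : DihedralGroup.sr (ZMod.castHom (dvd_mul_right 2 m) (ZMod 2) i)
        = (DihedralGroup.r 0 : DihedralGroup 2) := hx
    cases h1

theorem quatV4_ker_cyclic (m : ℕ) [NeZero m] (hm : 2 ∣ m) : IsCyclic (quatV4 m hm).ker :=
  Subgroup.isCyclic_of_le (quatV4_ker_le m hm)

/-! ### Recognition of `A_n` and `S_n` as images -/

theorem alt_of_card {G : Type*} [Group G] {n : ℕ} (f : G →* Perm (Fin n))
    (h : Nat.card f.range * 2 = Nat.card (Perm (Fin n))) :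
    ∃ f' : G →* alternatingGroup (Fin n), Function.Surjective f' ∧ f'.ker = f.ker := by
  have hidx : f.range.index = 2 := by
    have h1 := f.range.card_mul_index
    rw [← h] at h1
    have hpos : 0 < Nat.card f.range := Nat.card_pos
    exact Nat.eq_of_mul_eq_mul_left hpos h1
  have hr := Equiv.Perm.eq_alternatingGroup_of_index_eq_two hidx
  refine ⟨f.codRestrict (alternatingGroup (Fin n)) (fun g => by rw [← hr]; exact ⟨g, rfl⟩),
    ?_, ?_⟩
  · rintro ⟨y, hy⟩
    rw [← hr] at hy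
    obtain ⟨g, rfl⟩ := hy
    exact ⟨g, rfl⟩
  · exact MonoidHom.ker_codRestrict _ _ _

theorem surj_of_card {G Q : Type*} [Group G] [Group Q] [Finite Q] (f : G →* Q)
    (h : Nat.card f.range = Nat.card Q) : Function.Surjective f :=
  MonoidHom.range_eq_top.mp ((Subgroup.card_eq_iff_eq_top _).mp h)

/-! ### The property and its uniqueness -/

/-- The property of `N` in Zassenhaus' theorem. -/
def Good {G : Type*} [Group G] (N : Subgroup G) : Prop :=
  N.Normal ∧ (∀ (p : ℕ) [Fact p.Prime] (P : Sylow p N), IsCyclic P) ∧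
    (N = ⊤ ∨
      (∃ f : G →* DihedralGroup 2, Function.Surjective f ∧ f.ker = N) ∨
      (∃ f : G →* alternatingGroup (Fin 4), Function.Surjective f ∧ f.ker = N) ∨
      (∃ f : G →* Equiv.Perm (Fin 4), Function.Surjective f ∧ f.ker = N) ∨
      (∃ f : G →* alternatingGroup (Fin 5), Function.Surjective f ∧ f.ker = N) ∨
      (∃ f : G →* Equiv.Perm (Fin 5), Function.Surjective f ∧ f.ker = N))

theorem zgroup_iff {G : Type*} [Group G] (N : Subgroup G) :
    (∀ (p : ℕ) [Fact p.Prime] (P : Sylow p N), IsCyclic P) ↔ IsZGroup N :=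
  ⟨fun h => ⟨fun p hp P => by haveI := Fact.mk hp; exact h p P⟩,
   fun h p _ P => h.isZGroup p Fact.out P⟩

theorem sq_pow_cases {A : Type*} [Monoid A] (c : A) (hc : c ^ 2 = 1) (k : ℕ) :
    c ^ k = 1 ∨ c ^ k = c := by
  rcases Nat.even_or_odd' k with ⟨j, rfl | rfl⟩
  · left; rw [pow_mul, hc, one_pow]
  · right; rw [pow_succ, pow_mul, hc, one_pow, one_mul]

/-- The Sylow 2-subgroup being cyclic or generalized quaternion bounds the elementary abelian
quotients. -/
theorem hP_of_sylow {G : Type*} [Group G] [Finite G] (P : Sylow 2 G)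
    (h : IsCyclic P ∨ ∃ (n : ℕ) (_ : NeZero n), Nonempty (P ≃* QuaternionGroup n)) :
    ∃ α ξ : G, ∀ (F : G →* DihedralGroup 2 × DihedralGroup 2) (g : G),
      F g = 1 ∨ F g = F α ∨ F g = F ξ ∨ F g = F ξ * F α := by
  haveI : Fact (Nat.Prime 2) := ⟨Nat.prime_two⟩
  have step1 : ∀ (F : G →* DihedralGroup 2 × DihedralGroup 2) (g : G),
      ∃ p ∈ (P : Subgroup G), F g = F p := by
    intro F g
    have hidx : ((P : Subgroup G).map F.rangeRestrict).index ∣ (P : Subgroup G).index :=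
      Subgroup.index_map_dvd (P : Subgroup G) F.rangeRestrict_surjective
    have h16 : ((P : Subgroup G).map F.rangeRestrict).index ∣ 2 ^ 4 := by
      refine (Subgroup.index_dvd_card _).trans ?_
      refine (Subgroup.card_subgroup_dvd_card F.range).trans ?_
      rw [Nat.card_prod, card_V4]; norm_num
    have hodd : ¬ 2 ∣ (P : Subgroup G).index := P.not_dvd_index
    obtain ⟨k, -, hk⟩ := (Nat.dvd_prime_pow Nat.prime_two).mp h16
    have hk0 : k = 0 := by
      by_contra hne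
      apply hodd
      refine dvd_trans ?_ hidx
      rw [hk]
      exact dvd_pow_self 2 hne
    rw [hk0, pow_zero, Subgroup.index_eq_one] at hk
    have hmem : (F.rangeRestrict g) ∈ (P : Subgroup G).map F.rangeRestrict := by
      rw [hk]; exact mem_top _
    obtain ⟨q, hq, hqe⟩ := hmem
    refine ⟨q, hq, ?_⟩
    have := congrArg Subtype.val hqe
    exact this.symm
  have hexp : ∀ c : DihedralGroup 2 × DihedralGroup 2, c ^ 2 = 1 := fun c =>
    Prod.ext (v4_sq c.1) (v4_sq c.2)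
  rcases h with hc | ⟨n, hn, ⟨e⟩⟩
  · obtain ⟨α, hα⟩ := IsCyclic.exists_monoid_generator (α := (P : Subgroup G))
    refine ⟨(α : G), 1, fun F g => ?_⟩
    obtain ⟨q, hq, hqe⟩ := step1 F g
    obtain ⟨k, hk⟩ := hα ⟨q, hq⟩
    have hk' : (α : G) ^ k = q := by
      have := congrArg Subtype.val hk
      simpa using this
    rw [hqe, ← hk', map_pow]
    rcases sq_pow_cases (F (α : G)) (hexp _) k with h1 | h1
    · left; exact h1
    · right; left; exact h1
  · refine ⟨((e.symm (QuaternionGroup.a 1) : (P : Subgroup G)) : G),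
      ((e.symm (QuaternionGroup.xa 0) : (P : Subgroup G)) : G), fun F g => ?_⟩
    obtain ⟨q, hq, hqe⟩ := step1 F g
    rw [hqe]
    have hcase : ∃ k : ℕ, q = ((e.symm (QuaternionGroup.a 1) : (P : Subgroup G)) : G) ^ k ∨
        q = ((e.symm (QuaternionGroup.xa 0) : (P : Subgroup G)) : G) *
          ((e.symm (QuaternionGroup.a 1) : (P : Subgroup G)) : G) ^ k := by
      obtain ⟨y, hy⟩ : ∃ y, y = e ⟨q, hq⟩ := ⟨_, rfl⟩
      have hq' : (⟨q, hq⟩ : (P : Subgroup G)) = e.symm y := by rw [hy, e.symm_apply_apply]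
      rcases y with i | i
      · refine ⟨i.val, Or.inl ?_⟩
        have h1 : (QuaternionGroup.a i : QuaternionGroup n) = QuaternionGroup.a 1 ^ i.val := by
          rw [QuaternionGroup.a_one_pow, ZMod.natCast_zmod_val]
        rw [h1, map_pow] at hq'
        have := congrArg Subtype.val hq'
        simpa using this
      · refine ⟨i.val, Or.inr ?_⟩
        have h1 : (QuaternionGroup.xa i : QuaternionGroup n)
            = QuaternionGroup.xa 0 * QuaternionGroup.a 1 ^ i.val := by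
          rw [QuaternionGroup.a_one_pow, ZMod.natCast_zmod_val, QuaternionGroup.xa_mul_a, zero_add]
        rw [h1, map_mul, map_pow] at hq'
        have := congrArg Subtype.val hq'
        simpa using this
    obtain ⟨k, hk | hk⟩ := hcase
    · rw [hk, map_pow]
      rcases sq_pow_cases (F _) (hexp _) k with h1 | h1
      · left; exact h1
      · right; left; exact h1
    · rw [hk, map_mul, map_pow]
      rcases sq_pow_cases (F ((e.symm (QuaternionGroup.a 1) : (P : Subgroup G)) : G))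
        (hexp _) k with h1 | h1
      · right; right; left; rw [h1, mul_one]
      · right; right; right; rw [h1]

theorem le_of_good {G : Type*} [Group G] [Finite G]
    (hP : ∃ α ξ : G, ∀ (F : G →* DihedralGroup 2 × DihedralGroup 2) (g : G),
      F g = 1 ∨ F g = F α ∨ F g = F ξ ∨ F g = F ξ * F α)
    (N₁ N₂ : Subgroup G) (h₁ : Good N₁) (h₂ : Good N₂) : N₁ ≤ N₂ := by
  obtain ⟨hn₁, hz₁, hq₁⟩ := h₁
  obtain ⟨hn₂, hz₂, hq₂⟩ := h₂
  rw [zgroup_iff] at hz₁ hz₂
  rcases hq₂ with rfl | ⟨f₂, hs₂, rfl⟩ | ⟨f₂, hs₂, rfl⟩ | ⟨f₂, hs₂, rfl⟩ | ⟨f₂, hs₂, rfl⟩ |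
    ⟨f₂, hs₂, rfl⟩
  · exact le_top
  · rcases hq₁ with rfl | ⟨f₁, hs₁, rfl⟩ | ⟨f₁, hs₁, rfl⟩ | ⟨f₁, hs₁, rfl⟩ | ⟨f₁, hs₁, rfl⟩ |
      ⟨f₁, hs₁, rfl⟩
    · exfalso
      have h1 := map_zgroup f₂ ⊤ hz₁
      exact noZ_V4 _ h1 (Subgroup.map_top_of_surjective f₂ hs₂)
    · obtain ⟨α, ξ, hF⟩ := hP
      intro g hg
      rw [MonoidHom.mem_ker] at hg ⊢
      have key : ∀ g' : G, (f₁ g', f₂ g') = (1, 1) ∨ (f₁ g', f₂ g') = (f₁ α, f₂ α) ∨
          (f₁ g', f₂ g') = (f₁ ξ, f₂ ξ) ∨ (f₁ g', f₂ g') = (f₁ ξ * f₁ α, f₂ ξ * f₂ α) :=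
        fun g' => hF (f₁.prod f₂) g'
      have contra : ∀ c : DihedralGroup 2, (∀ g' : G, f₁ g' = 1 ∨ f₁ g' = c) → False := by
        intro c hc
        apply v4_facts c
        intro y
        obtain ⟨g', rfl⟩ := hs₁ y
        exact hc g'
      rcases key g with h | h | h | h
      · exact (Prod.mk.inj h).2
      · exfalso
        have hα : f₁ α = 1 := by rw [← (Prod.mk.inj h).1]; exact hg
        apply contra (f₁ ξ)
        intro g'
        rcases key g' with h' | h' | h' | h'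
        · left; exact (Prod.mk.inj h').1
        · left; rw [← hα]; exact (Prod.mk.inj h').1
        · right; exact (Prod.mk.inj h').1
        · right
          have := (Prod.mk.inj h').1
          rw [this]
          show f₁ ξ * f₁ α = f₁ ξ
          rw [hα, mul_one]
      · exfalso
        have hξ : f₁ ξ = 1 := by rw [← (Prod.mk.inj h).1]; exact hg
        apply contra (f₁ α)
        intro g'
        rcases key g' with h' | h' | h' | h'
        · left; exact (Prod.mk.inj h').1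
        · right; exact (Prod.mk.inj h').1
        · left; rw [← hξ]; exact (Prod.mk.inj h').1
        · right
          have := (Prod.mk.inj h').1
          rw [this]
          show f₁ ξ * f₁ α = f₁ α
          rw [hξ, one_mul]
      · exfalso
        have hξα : f₁ ξ * f₁ α = 1 := by rw [← (Prod.mk.inj h).1]; exact hg
        have hsq : f₁ α * f₁ α = 1 := by rw [← pow_two]; exact v4_sq _
        have hξ : f₁ ξ = f₁ α := by
          calc f₁ ξ = f₁ ξ * (f₁ α * f₁ α) := by rw [hsq, mul_one]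
            _ = f₁ ξ * f₁ α * f₁ α := by rw [mul_assoc]
            _ = f₁ α := by rw [hξα, one_mul]
        apply contra (f₁ α)
        intro g'
        rcases key g' with h' | h' | h' | h'
        · left; exact (Prod.mk.inj h').1
        · right; exact (Prod.mk.inj h').1
        · right; rw [← hξ]; exact (Prod.mk.inj h').1
        · left; rw [← hξα]; exact (Prod.mk.inj h').1
    · exfalso
      have hle := le_ker_of_noZ noZ_A4 f₁ hs₁ f₂.ker hn₂ hz₂
      have hd := Subgroup.index_dvd_of_le hle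
      rw [index_ker_of_surj f₁ hs₁, index_ker_of_surj f₂ hs₂, card_A4, card_V4] at hd
      norm_num at hd
    · exfalso
      have hle := le_ker_of_noZ noZ_S4 f₁ hs₁ f₂.ker hn₂ hz₂
      have hd := Subgroup.index_dvd_of_le hle
      rw [index_ker_of_surj f₁ hs₁, index_ker_of_surj f₂ hs₂, card_S4, card_V4] at hd
      norm_num at hd
    · exfalso
      have hle := le_ker_of_noZ noZ_A5 f₁ hs₁ f₂.ker hn₂ hz₂
      have hd := Subgroup.index_dvd_of_le hle
      rw [index_ker_of_surj f₁ hs₁, index_ker_of_surj f₂ hs₂, card_A5, card_V4] at hd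
      norm_num at hd
    · exfalso
      have hle := le_ker_of_noZ noZ_S5 f₁ hs₁ f₂.ker hn₂ hz₂
      have hd := Subgroup.index_dvd_of_le hle
      rw [index_ker_of_surj f₁ hs₁, index_ker_of_surj f₂ hs₂, card_S5, card_V4] at hd
      norm_num at hd
  · exact le_ker_of_noZ noZ_A4 f₂ hs₂ N₁ hn₁ hz₁
  · exact le_ker_of_noZ noZ_S4 f₂ hs₂ N₁ hn₁ hz₁
  · exact le_ker_of_noZ noZ_A5 f₂ hs₂ N₁ hn₁ hz₁
  · exact le_ker_of_noZ noZ_S5 f₂ hs₂ N₁ hn₁ hz₁

end Cfsg.Agent.Lib.Helper12.ZsA
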